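import Mathlib

set_option autoImplicit false

open Module

namespace Cfsg.Agent.Lib.Helper15

/-- adapted basis for a square-zero rank one endomorphism -/
theorem adapted_basis {F V : Type*} [Field F] [AddCommGroup V] [Module F V] [FiniteDimensional F V]
    {k : ℕ} (hV : finrank F V = k + 2) (N : V →ₗ[F] V) (hr : finrank F (LinearMap.range N) = 1)
    (hN : N ∘ₗ N = 0) :
    ∃ b : Basis (Fin (k + 2)) F V, N (b 1) = b 0 ∧ ∀ i, i ≠ 1 → N (b i) = 0 := by
  have hK : finrank F (LinearMap.ker N) = k + 1 := by
    have := LinearMap.finrank_range_add_finrank_ker N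
    omega
  have hKtop : LinearMap.ker N ≠ ⊤ := by
    intro h
    rw [h, finrank_top] at hK
    omega
  obtain ⟨w, -, hw⟩ := SetLike.exists_of_lt (lt_top_iff_ne_top.2 hKtop)
  have hvK : N w ∈ LinearMap.ker N := by
    rw [LinearMap.mem_ker, ← LinearMap.comp_apply, hN]; rfl
  have hv0 : N w ≠ 0 := hw
  obtain ⟨C, hC⟩ := Submodule.exists_isCompl (Submodule.span F {(⟨N w, hvK⟩ : LinearMap.ker N)})
  have hCdim : finrank F C = k := by
    have h1 := Submodule.finrank_add_eq_of_isCompl hC
    have h2 : finrank F (Submodule.span F {(⟨N w, hvK⟩ : LinearMap.ker N)}) = 1 :=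
      finrank_span_singleton (fun h => hv0 (congrArg Subtype.val h))
    omega
  let bC := finBasisOfFinrankEq F C hCdim
  let u : Fin k → V := fun i => ((bC i : LinearMap.ker N) : V)
  have hu : LinearIndependent F u := by
    have h1 : LinearIndependent F (fun i => (bC i : LinearMap.ker N)) :=
      bC.linearIndependent.map' C.subtype (Submodule.ker_subtype _)
    exact h1.map' (LinearMap.ker N).subtype (Submodule.ker_subtype _)
  have hspan : Submodule.span F (Set.range u) ≤ C.map (LinearMap.ker N).subtype := by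
    rw [Submodule.span_le]
    rintro _ ⟨i, rfl⟩
    exact ⟨bC i, (bC i).2, rfl⟩
  have hspanK : Submodule.span F (Set.range u) ≤ LinearMap.ker N := by
    refine hspan.trans ?_
    rintro _ ⟨x, -, rfl⟩
    exact x.2
  have h1 : LinearIndependent F (Fin.cons w u : Fin (k + 1) → V) := by
    rw [linearIndependent_finCons]
    exact ⟨hu, fun h => hw (hspanK h)⟩
  have h2 : LinearIndependent F (Fin.cons (N w) (Fin.cons w u : Fin (k + 1) → V) : Fin (k + 2) → V) := by
    rw [linearIndependent_finCons]
    refine ⟨h1, fun h => ?_⟩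
    rw [Fin.range_cons, Submodule.mem_span_insert] at h
    obtain ⟨a, z, hz, he⟩ := h
    have hNz : N z = 0 := hspanK hz
    have h3 : a • N w = 0 := by
      have := congrArg N he
      rw [map_add, map_smul, hNz, add_zero] at this
      rw [← this]; exact hvK
    have ha : a = 0 := by
      rcases smul_eq_zero.1 h3 with h | h
      · exact h
      · exact absurd h hv0
    rw [ha, zero_smul, zero_add] at he
    obtain ⟨x, hx, hxe⟩ := hspan hz
    have hx2 : x = ⟨N w, hvK⟩ := Subtype.ext (hxe.trans he.symm)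
    have hmem : x ∈ Submodule.span F {(⟨N w, hvK⟩ : LinearMap.ker N)} ⊓ C :=
      ⟨by rw [hx2]; exact Submodule.mem_span_singleton_self _, hx⟩
    rw [hC.inf_eq_bot, Submodule.mem_bot] at hmem
    exact hv0 (by rw [hx2] at hmem; exact congrArg Subtype.val hmem)
  refine ⟨basisOfLinearIndependentOfCardEqFinrank h2 (by simp [hV]), ?_, ?_⟩
  · simp only [coe_basisOfLinearIndependentOfCardEqFinrank]
    rfl
  · intro i hi
    simp only [coe_basisOfLinearIndependentOfCardEqFinrank]
    induction i using Fin.cases with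
    | zero => exact hvK
    | succ i =>
      induction i using Fin.cases with
      | zero => exact absurd rfl hi
      | succ i => exact (bC i : LinearMap.ker N).2

/-- two bases can be matched by a determinant one map, after rescaling one vector -/
theorem exists_det_one {F V ι : Type*} [Field F] [AddCommGroup V] [Module F V] [Fintype ι] [DecidableEq ι]
    (b b' : Basis ι F V) (i₀ : ι) :
    ∃ (g : V ≃ₗ[F] V) (c : F), c ≠ 0 ∧ LinearMap.det (g : V →ₗ[F] V) = 1 ∧ g (b i₀) = c • b' i₀ ∧
      ∀ i, i ≠ i₀ → g (b i) = b' i := by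
  have hu : IsUnit (b.det b') := b.isUnit_det b'
  obtain ⟨d, hd⟩ := hu
  let c : ι → Fˣ := Function.update 1 i₀ d⁻¹
  let g := b.equiv (b'.unitsSMul c) (Equiv.refl _)
  have hg : ∀ i, g (b i) = (c i : F) • b' i := by
    intro i
    simp [g, Basis.equiv_apply, Basis.unitsSMul_apply, Units.smul_def]
  refine ⟨g, (d⁻¹ : Fˣ), Units.ne_zero _, ?_, ?_, ?_⟩
  · have h1 : LinearMap.det (g : V →ₗ[F] V) = b.det ((g : V →ₗ[F] V) ∘ b) := by
      rw [Basis.det_comp, Basis.det_self, mul_one]
    rw [h1]
    have h2 : ((g : V →ₗ[F] V) ∘ b) = fun i => (c i : F) • b' i := funext hg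
    rw [h2, AlternatingMap.map_smul_univ, ← hd]
    have h3 : ∏ i, (c i : F) = (d⁻¹ : Fˣ) := by
      rw [← Units.coe_prod]
      congr 1
      simp [c, Finset.prod_update_of_mem]
    rw [h3, smul_eq_mul, ← Units.val_mul]
    simp
  · rw [hg]; simp [c]
  · intro i hi
    rw [hg]; simp [c, Function.update_of_ne hi]

end Cfsg.Agent.Lib.Helper15
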