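import Mathlib
import Cfsg.Agent.Lib.Helper15.AutPO5
import Cfsg.Agent.Lib.Helper2.DihedralHom

set_option autoImplicit false

namespace Cfsg.Agent.Lib.Helper15

open Matrix QuadraticMap Module

universe u

theorem surjective_units_prod' {G : Type*} [Group G] (ψ : G →* ℤˣ × ℤˣ) (t r : G) (ht : ψ t = (1, -1))
    (hr : (ψ r).1 = -1) : Function.Surjective ψ := by
  have key : ∀ b : ℤˣ, ∃ g, (ψ g).1 = b := by
    intro b
    rcases Int.units_eq_one_or b with rfl | rfl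
    · exact ⟨1, by simp⟩
    · exact ⟨r, hr⟩
  rintro ⟨a, b⟩
  obtain ⟨g, hg⟩ := key a
  by_cases h : (ψ g).2 = b
  · exact ⟨g, Prod.ext hg h⟩
  · refine ⟨t * g, ?_⟩
    rw [map_mul, ht]
    apply Prod.ext
    · show 1 * (ψ g).1 = a
      rw [one_mul, hg]
    · show -1 * (ψ g).2 = b
      rcases Int.units_eq_one_or b with rfl | rfl <;> rcases Int.units_eq_one_or (ψ g).2 with h' | h' <;> simp_all

theorem exists_hom_of_closure_equiv {G B : Type*} [Group G] [Group B] (N : Subgroup G) [N.Normal]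
    (C : Subgroup (G ⧸ N)) (hC : ∀ g, QuotientGroup.mk' N g ∈ C) (e : C ≃* B) :
    ∃ ψ : G →* B, Function.Surjective ψ ∧ ∀ g, ψ g = 1 ↔ g ∈ N := by
  refine ⟨e.toMonoidHom.comp ((QuotientGroup.mk' N).codRestrict C hC), ?_, ?_⟩
  · intro b
    obtain ⟨g, hg⟩ := QuotientGroup.mk'_surjective N (e.symm b : G ⧸ N)
    refine ⟨g, ?_⟩
    rw [MonoidHom.comp_apply]
    have : (QuotientGroup.mk' N).codRestrict C hC g = e.symm b := Subtype.ext hg
    rw [this]
    exact e.apply_symm_apply b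
  · intro x
    rw [MonoidHom.comp_apply]
    refine (e.map_eq_one_iff).trans ?_
    rw [← QuotientGroup.eq_one_iff]
    exact ⟨fun h => congrArg Subtype.val h, fun h => Subtype.ext h⟩

section bundled

variable {ι : Type} [Fintype ι] [DecidableEq ι] {F : Type u} [Field F] [Fintype F] [DecidableEq F]
  (Q : QuadraticForm F (ι → F))

theorem omegaGL_le_SO (h2 : (2 : F) ≠ 0) (hcard : 2 ≤ Fintype.card ι) (hQ : (polarBilin Q).Nondegenerate) :
    Cfsg.Geo.omegaGL ⇑Q ≤ Cfsg.specialIsometryGL F ⇑Q := by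
  rintro _ ⟨s, hs, rfl⟩
  refine ⟨s.2, Units.ext ?_⟩
  show ((s : GL ι F) : Matrix ι ι F).det = 1
  rw [← spin_fst_eq_one_iff Q h2 hcard hQ]
  have h1 : s ∈ (spin Q h2 hcard hQ).ker := by rw [spin_ker]; exact hs
  rw [MonoidHom.mem_ker.1 h1]
  rfl

/-- `PGO/Inn` is a four-group if `-1 ∉ Ω` -/
theorem pgo_mod_inn_klein (h2 : (2 : F) ≠ 0) (hQ : (polarBilin Q).Nondegenerate) (hn : 5 ≤ Fintype.card ι)
    (heven : Even (Fintype.card ι)) (hneg : negIso Q ∉ Cfsg.Omega F ⇑Q) :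
    ∃ φ : ↥(Cfsg.pgoAut F ⇑Q) →* Multiplicative (ZMod 2 × ZMod 2), Function.Surjective φ ∧
      φ.ker = (Cfsg.Inn (Cfsg.POmega F ⇑Q)).subgroupOf (Cfsg.pgoAut F ⇑Q) := by
  obtain ⟨k, hk⟩ := id heven
  have hk' : Fintype.card ι = 2 * k := by omega
  apply exists_hom_aut Q hQ hn _ _ le_rfl (omegaGL_le_GO ⇑Q)
    (kleinEquiv.toMonoidHom.comp (psi1 Q h2 hQ (by omega) k hk')) _ _ _ _ (pgoAut_eq Q) (Inn_eq_map ⇑Q)
  · exact kleinEquiv.surjective.comp (psi1_surjective Q h2 hQ (by omega) k hk')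
  · intro x
    rw [MonoidHom.comp_apply]
    refine (kleinEquiv.map_eq_one_iff).trans ?_
    rw [psi1_eq_one_iff Q h2 hQ (by omega) k hk']
    constructor
    · rintro ⟨y, hy, hz⟩
      obtain ⟨y', hy', hz'⟩ := proj_mem_of_det Q h2 (by omega) hQ heven hneg ⟨y, hy.1⟩ (congrArg Units.val hy.2)
      refine ⟨y', hy', ?_⟩
      have := Subgroup.mul_mem _ hz hz'
      simpa [mul_assoc] using this
    · rintro ⟨y, hy, hz⟩
      exact ⟨y, omegaGL_le_SO Q h2 (by omega) hQ hy, hz⟩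

/-- the similarities inducing inner automorphisms -/
noncomputable def innGO : Subgroup (Cfsg.Geo.quadSimilarityGroup ⇑Q) := (Cfsg.Inn (Cfsg.POmega F ⇑Q)).comap (cj ⇑Q)

instance innGO_normal : (innGO Q).Normal := Subgroup.Normal.comap (Cfsg.innNormal _) _

theorem mem_innGO (hQ : (polarBilin Q).Nondegenerate) (hn : 5 ≤ Fintype.card ι)
    (g : Cfsg.Geo.quadSimilarityGroup ⇑Q) :
    g ∈ innGO Q ↔ ∃ y ∈ Cfsg.Geo.omegaGL ⇑Q, (g : GL ι F) * y⁻¹ ∈ Cfsg.Geo.scalars ι F := by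
  unfold innGO
  rw [Subgroup.mem_comap, Inn_eq_map]
  constructor
  · rintro ⟨k, hk, h1⟩
    exact ⟨k, hk, (cj_eq_iff Q hQ hn _ _).1 h1.symm⟩
  · rintro ⟨y, hy, h1⟩
    exact ⟨⟨y, omegaGL_le_GO ⇑Q hy⟩, hy, ((cj_eq_iff Q hQ hn _ _).2 h1).symm⟩

theorem isoToGO_mem_innGO (hQ : (polarBilin Q).Nondegenerate) (hn : 5 ≤ Fintype.card ι)
    (hneg : negIso Q ∈ Cfsg.Omega F ⇑Q) (s : Cfsg.isometryGroup F ⇑Q) :
    isoToGO Q s ∈ innGO Q ↔ s ∈ Cfsg.Omega F ⇑Q := by
  rw [mem_innGO Q hQ hn, isoToGO_coe, proj_mem_iff Q hQ (by omega), Subgroup.mul_mem_cancel_left _ hneg, or_self]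

theorem sqs_mult_of_mem_innGO (hQ : (polarBilin Q).Nondegenerate) (hn : 5 ≤ Fintype.card ι)
    (g : Cfsg.Geo.quadSimilarityGroup ⇑Q) (hg : g ∈ innGO Q) : sqs (mult Q g : F) = 1 := by
  obtain ⟨y, hy, hz⟩ := (mem_innGO Q hQ hn g).1 hg
  obtain ⟨c, hc⟩ := exists_sc_of_mem hz
  rw [mult_sc_mul Q hQ (by omega) g c y (omegaGL_le_iso ⇑Q hy) (mul_inv_eq_iff_eq_mul.1 hc), sqs_eq_one_iff]
  exact ⟨(c : F), by simp⟩

theorem Q_mulVec_ne_zero (d : Cfsg.Geo.quadSimilarityGroup ⇑Q) {v : ι → F} (hv : Q v ≠ 0) :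
    Q (((d : GL ι F) : Matrix ι ι F) *ᵥ v) ≠ 0 := by
  rw [mult_spec]
  exact mul_ne_zero (mult Q d).ne_zero hv

theorem mul_refl_GO (d : Cfsg.Geo.quadSimilarityGroup ⇑Q) (v : ι → F) (hv : Q v ≠ 0) :
    d * isoToGO Q (refl Q v hv) = isoToGO Q (refl Q _ (Q_mulVec_ne_zero Q d hv)) * d := by
  apply Subtype.ext
  apply Units.ext
  apply Matrix.ext_of_mulVec_single
  intro i
  rw [Subgroup.coe_mul, Subgroup.coe_mul, Units.val_mul, Units.val_mul, ← Matrix.mulVec_mulVec,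
    ← Matrix.mulVec_mulVec, isoToGO_coe, isoToGO_coe]
  have h1 := act_refl Q v hv (Pi.single i 1)
  have h3 := act_refl Q _ (Q_mulVec_ne_zero Q d hv) (((d : GL ι F) : Matrix ι ι F) *ᵥ Pi.single i 1)
  unfold act at h1 h3
  rw [h1, h3, Matrix.mulVec_sub, Matrix.mulVec_smul, polar_mult, mult_spec]
  congr 2
  have := (mult Q d).ne_zero
  field_simp

theorem scalar_mem_innGO (hQ : (polarBilin Q).Nondegenerate) (hn : 5 ≤ Fintype.card ι)
    (z : Cfsg.Geo.quadSimilarityGroup ⇑Q) (hz : (z : GL ι F) ∈ Cfsg.Geo.scalars ι F) : z ∈ innGO Q :=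
  (mem_innGO Q hQ hn z).2 ⟨1, Subgroup.one_mem _, by simpa using hz⟩

theorem mk_eq_of_scalar (hQ : (polarBilin Q).Nondegenerate) (hn : 5 ≤ Fintype.card ι)
    (g : Cfsg.Geo.quadSimilarityGroup ⇑Q) (y : Cfsg.isometryGroup F ⇑Q)
    (hz : (g : GL ι F) * (y : GL ι F)⁻¹ ∈ Cfsg.Geo.scalars ι F) :
    QuotientGroup.mk' (innGO Q) g = QuotientGroup.mk' (innGO Q) (isoToGO Q y) := by
  have h1 : g * (isoToGO Q y)⁻¹ ∈ innGO Q := scalar_mem_innGO Q hQ hn _ hz
  have h3 : QuotientGroup.mk' (innGO Q) (g * (isoToGO Q y)⁻¹) = 1 := (QuotientGroup.eq_one_iff _).2 h1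
  rw [map_mul, map_inv, mul_inv_eq_one] at h3
  exact h3

/-- `PGO/Inn` is dihedral of order eight if `-1 ∈ Ω` -/
theorem pgo_mod_inn_dihedral (h2 : (2 : F) ≠ 0) (hQ : (polarBilin Q).Nondegenerate) (hn : 5 ≤ Fintype.card ι)
    (heven : Even (Fintype.card ι)) (hneg : negIso Q ∈ Cfsg.Omega F ⇑Q) :
    ∃ φ : ↥(Cfsg.pgoAut F ⇑Q) →* DihedralGroup 4, Function.Surjective φ ∧
      φ.ker = (Cfsg.Inn (Cfsg.POmega F ⇑Q)).subgroupOf (Cfsg.pgoAut F ⇑Q) := by
  obtain ⟨k, hk⟩ := id heven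
  have hk' : Fintype.card ι = 2 * k := by omega
  have hcard : 2 ≤ Fintype.card ι := by omega
  have hc1 : 1 ≤ Fintype.card ι := by omega
  obtain ⟨v, hv⟩ := exists_nonsingular Q hQ hc1
  obtain ⟨ν, hν⟩ := exists_nonsquare' (F := F) h2
  have hν0 : ν ≠ 0 := by
    rintro rfl
    exact hν ⟨0, by simp⟩
  have hsν : sqs ν = -1 := by
    rcases Int.units_eq_one_or (sqs ν) with h | h
    · exact absurd ((sqs_eq_one_iff ν).1 h) hν
    · exact h
  set r := isoToGO Q (refl Q v hv) with hr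
  set π := QuotientGroup.mk' (innGO Q) with hπ
  have hπ1 : ∀ g, π g = 1 ↔ g ∈ innGO Q := fun g => QuotientGroup.eq_one_iff g
  have hπs : ∀ s : Cfsg.isometryGroup F ⇑Q, π (isoToGO Q s) = 1 ↔ spin Q h2 hcard hQ s = 1 := by
    intro s
    rw [hπ1, isoToGO_mem_innGO Q hQ hn hneg, ← spin_ker Q h2 hcard hQ, MonoidHom.mem_ker]
  have hmul : ∀ a : ℤˣ, a * a = 1 := Int.units_mul_self
  have hspr : ∀ d : Cfsg.Geo.quadSimilarityGroup ⇑Q, sqs (mult Q d : F) = -1 →
      spin Q h2 hcard hQ (refl Q _ (Q_mulVec_ne_zero Q d hv)) = (-1, - sqs (Q v)) := by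
    intro d hd
    rw [spin_refl, mult_spec, sqs_mul h2 (mult Q d).ne_zero hv, hd, neg_one_mul]
  have hmultmul : ∀ g h : Cfsg.Geo.quadSimilarityGroup ⇑Q, mult Q (g * h) = mult Q g * mult Q h :=
    fun g h => map_mul (multHom Q hQ hc1) g h
  -- the second involution
  obtain ⟨d, hd, hdd⟩ : ∃ d : Cfsg.Geo.quadSimilarityGroup ⇑Q, sqs (mult Q d : F) = -1 ∧ π (d * d) = 1 := by
    obtain ⟨d, hd⟩ := exists_similitude Q hQ hcard heven (Units.mk0 ν hν0)
    have hd' : sqs (mult Q d : F) = -1 := by rw [hd]; exact hsν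
    have h1 : psi1 Q h2 hQ hc1 k hk' (d * d) = 1 := by
      rw [map_mul]
      exact Prod.ext (hmul _) (hmul _)
    obtain ⟨y, hy, hz⟩ := (psi1_eq_one_iff Q h2 hQ hc1 k hk' (d * d)).1 h1
    have hs1 : (spin Q h2 hcard hQ ⟨y, hy.1⟩).1 = 1 :=
      (spin_fst_eq_one_iff Q h2 hcard hQ ⟨y, hy.1⟩).2 (congrArg Units.val hy.2)
    have hπdd : π (d * d) = π (isoToGO Q ⟨y, hy.1⟩) := mk_eq_of_scalar Q hQ hn _ ⟨y, hy.1⟩ hz
    rcases Int.units_eq_one_or (spin Q h2 hcard hQ ⟨y, hy.1⟩).2 with h | h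
    · refine ⟨d, hd', ?_⟩
      rw [hπdd, hπs]
      exact Prod.ext hs1 h
    · refine ⟨d * r, ?_, ?_⟩
      · rw [hmultmul, hr, mult_isoToGO Q hQ hc1, mul_one]
        exact hd'
      · have e1 : d * r * (d * r) = isoToGO Q (refl Q _ (Q_mulVec_ne_zero Q d hv)) * (d * d) * r := by
          have e0 := congrArg (· * (d * r)) (mul_refl_GO Q d v hv)
          simp only [← hr] at e0
          rw [e0]
          group
        rw [e1, map_mul, map_mul, hπdd, ← map_mul, ← map_mul, hr, ← map_mul, ← map_mul, hπs, map_mul, map_mul,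
          hspr d hd', spin_refl]
        apply Prod.ext
        · show -1 * (spin Q h2 hcard hQ ⟨y, hy.1⟩).1 * -1 = 1
          rw [hs1]; simp
        · show - sqs (Q v) * (spin Q h2 hcard hQ ⟨y, hy.1⟩).2 * sqs (Q v) = 1
          rw [h]
          simp [hmul]
  set t := refl Q v hv * refl Q _ (Q_mulVec_ne_zero Q d hv) with ht
  have hspt : spin Q h2 hcard hQ t = (1, -1) := by
    rw [ht, map_mul, spin_refl, hspr d hd]
    apply Prod.ext
    · show (-1 : ℤˣ) * -1 = 1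
      simp
    · show sqs (Q v) * - sqs (Q v) = -1
      simp [hmul]
  have hxy2 : (π r * π d) ^ 2 = π (isoToGO Q t) := by
    have e1 : r * d * (r * d) = isoToGO Q t * (d * d) := by
      rw [ht, map_mul, mul_assoc r d, ← mul_assoc d r d, hr, mul_refl_GO]
      group
    rw [_root_.sq, ← map_mul, ← map_mul, e1, map_mul, hdd, mul_one]
  have hx : orderOf (π r) = 2 := by
    apply orderOf_eq_prime
    · rw [_root_.sq, ← map_mul, hr, ← map_mul, refl_mul_self, map_one, map_one]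
    · rw [hr, Ne, hπs, spin_refl]
      intro h
      have h' : (-1 : ℤˣ) = 1 := congrArg Prod.fst h
      exact absurd h' (by decide)
  have hy : orderOf (π d) = 2 := by
    apply orderOf_eq_prime
    · rw [_root_.sq, ← map_mul, hdd]
    · rw [Ne, hπ1]
      intro h
      have := sqs_mult_of_mem_innGO Q hQ hn d h
      rw [hd] at this
      revert this
      decide
  have hxy : orderOf (π r * π d) = 4 := by
    have := orderOf_eq_prime_pow (p := 2) (n := 1) (x := π r * π d) (by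
      rw [pow_one, hxy2, hπs, hspt]
      decide) (by
      rw [show 2 ^ (1 + 1) = 2 * 2 from rfl, pow_mul, hxy2, _root_.sq, ← map_mul, ← map_mul, hπs, map_mul, hspt]
      decide)
    simpa using this
  -- generation
  have hC : ∀ g, π g ∈ Subgroup.closure ({π r, π d} : Set (Cfsg.Geo.quadSimilarityGroup ⇑Q ⧸ innGO Q)) := by
    set C := Subgroup.closure ({π r, π d} : Set (Cfsg.Geo.quadSimilarityGroup ⇑Q ⧸ innGO Q)) with hCdef
    have hrC : π r ∈ C := Subgroup.subset_closure (by simp)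
    have hdC : π d ∈ C := Subgroup.subset_closure (by simp)
    have htC : π (isoToGO Q t) ∈ C := by
      rw [← hxy2]
      exact Subgroup.pow_mem _ (Subgroup.mul_mem _ hrC hdC) 2
    have hiso : ∀ s : Cfsg.isometryGroup F ⇑Q, π (isoToGO Q s) ∈ C := by
      intro s
      let C' : Subgroup (Cfsg.isometryGroup F ⇑Q) := C.comap (π.comp (isoToGO Q))
      have hsurj : Function.Surjective ((spin Q h2 hcard hQ).comp C'.subtype) :=
        surjective_units_prod' _ ⟨t, htC⟩ ⟨refl Q v hv, hrC⟩ hspt (by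
          show (spin Q h2 hcard hQ (refl Q v hv)).1 = -1
          rw [spin_refl])
      obtain ⟨⟨p, hp⟩, hp'⟩ := hsurj (spin Q h2 hcard hQ s)
      have h1 : spin Q h2 hcard hQ (s * p⁻¹) = 1 := by
        rw [map_mul, map_inv, mul_inv_eq_one]
        exact hp'.symm
      rw [← hπs, map_mul, map_mul, map_inv, map_inv, mul_inv_eq_one] at h1
      rw [h1]
      exact hp
    have hsq : ∀ g, sqs (mult Q g : F) = 1 → π g ∈ C := by
      intro g hg
      obtain ⟨c, hc, hmem⟩ := exists_sc_mul_of_isSquare Q g ((sqs_eq_one_iff _).1 hg)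
      rw [mk_eq_of_scalar Q hQ hn g ⟨_, hmem⟩ (by
        show (g : GL ι F) * ((sc ι c)⁻¹ * (g : GL ι F))⁻¹ ∈ _
        rw [_root_.mul_inv_rev, inv_inv, mul_inv_cancel_left]
        exact sc_mem c)]
      exact hiso _
    intro g
    rcases Int.units_eq_one_or (sqs (mult Q g : F)) with h | h
    · exact hsq g h
    · have h1 : π (d * g) ∈ C := by
        apply hsq
        rw [hmultmul, Units.val_mul, sqs_mul h2 (mult Q d).ne_zero (mult Q g).ne_zero, hd, h]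
        simp
      rw [map_mul] at h1
      exact (Subgroup.mul_mem_cancel_left _ hdC).1 h1
  obtain ⟨e⟩ := Cfsg.Agent.Lib.Helper2.nonempty_closure_pair_mulEquiv_dihedral hx hy
  rw [hxy] at e
  obtain ⟨ψ, hψ, hψ1⟩ := exists_hom_of_closure_equiv (innGO Q) _ hC e
  exact exists_hom_aut Q hQ hn _ _ le_rfl (omegaGL_le_GO ⇑Q) ψ hψ
    (fun x => (hψ1 x).trans (mem_innGO Q hQ hn x)) _ _ (pgoAut_eq Q) (Inn_eq_map ⇑Q)

end bundled

end Cfsg.Agent.Lib.Helper15
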