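import Mathlib
import Cfsg.Agent.Lib.Helper15.AutPO6
import Cfsg.Agent.Lib.Helper15.GeoBridge
import Cfsg.Agent.Lib.Helper15.Families2

set_option autoImplicit false

namespace Cfsg.Agent.Lib.Helper15

open Matrix QuadraticMap Module

universe u

section bundled

variable {ι : Type} [Fintype ι] [DecidableEq ι] {F : Type u} [Field F] [Fintype F] [DecidableEq F]
  (Q : QuadraticForm F (ι → F))

theorem ts_map_GO (g : Cfsg.Geo.quadSimilarityGroup ⇑Q) (U : Submodule F (ι → F)) (hU : ∀ u ∈ U, Q u = 0) :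
    ∀ u ∈ U.map (Matrix.mulVecLin ((g : GL ι F) : Matrix ι ι F)), Q u = 0 := by
  rintro _ ⟨u, hu, rfl⟩
  rw [Matrix.mulVecLin_apply, mult_spec, hU u hu, mul_zero]

theorem finrank_inf_map_GL (g : GL ι F) (U W : Submodule F (ι → F)) :
    finrank F (U.map (Matrix.mulVecLin (g : Matrix ι ι F)) ⊓ W.map (Matrix.mulVecLin (g : Matrix ι ι F)) :
      Submodule F (ι → F)) = finrank F (U ⊓ W : Submodule F (ι → F)) := by
  rw [← Submodule.map_inf _ (mulVec_injective_GL g), finrank_map_GL]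

/-- the parity of the codimension of `U ∩ gU` in `U` does not depend on `U` -/
theorem parity_indep (hQ : (polarBilin Q).Nondegenerate) {m : ℕ} (hcard : Fintype.card ι = 2 * m)
    (g : Cfsg.Geo.quadSimilarityGroup ⇑Q) (U W : Submodule F (ι → F)) (hU : ∀ u ∈ U, Q u = 0)
    (hW : ∀ u ∈ W, Q u = 0) (hUm : finrank F U = m) (hWm : finrank F W = m) :
    Even ((m - finrank F (U ⊓ U.map (Matrix.mulVecLin ((g : GL ι F) : Matrix ι ι F)) : Submodule F (ι → F)))
      + (m - finrank F (W ⊓ W.map (Matrix.mulVecLin ((g : GL ι F) : Matrix ι ι F)) : Submodule F (ι → F)))) := by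
  have hV : finrank F (ι → F) = 2 * m := by rw [finrank_fintype_fun_eq_card, hcard]
  have hND := nd_of_nondegenerate hQ
  set T := Matrix.mulVecLin ((g : GL ι F) : Matrix ι ι F) with hT
  have hTU := ts_map_GO Q g U hU
  have hTW := ts_map_GO Q g W hW
  have hTUm : finrank F (U.map T) = m := by rw [hT, finrank_map_GL, hUm]
  have hTWm : finrank F (W.map T) = m := by rw [hT, finrank_map_GL, hWm]
  obtain ⟨a, ha⟩ := even_three Q hND hV U W (W.map T) hU hW hTW hUm hWm hTWm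
  obtain ⟨b, hb⟩ := even_three Q hND hV U (U.map T) (W.map T) hU hTU hTW hUm hTUm hTWm
  rw [hT, finrank_inf_map_GL, ← hT] at hb
  exact ⟨a + b - (m - finrank F (U ⊓ W : Submodule F (ι → F))) - (m - finrank F (U ⊓ W.map T : Submodule F (ι → F))),
    by omega⟩

end bundled

section plus

variable {m : ℕ} {F : Type u} [Field F] [Fintype F] [DecidableEq F]

/-- `diag(c, 1)` -/
noncomputable def ddGL (m : ℕ) {F : Type u} [Field F] (c : Fˣ) : GL (Fin m ⊕ Fin m) F :=
  ⟨Matrix.diagonal (Sum.elim (fun _ => (c : F)) (fun _ => 1)),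
    Matrix.diagonal (Sum.elim (fun _ => ((c⁻¹ : Fˣ) : F)) (fun _ => 1)),
    by
      rw [Matrix.diagonal_mul_diagonal, ← Matrix.diagonal_one]
      congr 1
      funext j
      rcases j with j | j <;> simp,
    by
      rw [Matrix.diagonal_mul_diagonal, ← Matrix.diagonal_one]
      congr 1
      funext j
      rcases j with j | j <;> simp⟩

omit [Fintype F] [DecidableEq F] in
theorem ddGL_mulVec (c : Fˣ) (v : Fin m ⊕ Fin m → F) :
    (ddGL m c : Matrix (Fin m ⊕ Fin m) (Fin m ⊕ Fin m) F) *ᵥ v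
      = Sum.elim (fun i => (c : F) * v (Sum.inl i)) (fun i => v (Sum.inr i)) := by
  funext j
  show (Matrix.diagonal (Sum.elim (fun _ => (c : F)) (fun _ => 1)) *ᵥ v) j = _
  rw [Matrix.mulVec_diagonal]
  rcases j with j | j <;> simp

omit [Fintype F] [DecidableEq F] in
theorem ddGL_spec (c : Fˣ) (v : Fin m ⊕ Fin m → F) :
    plusQ m F ((ddGL m c : Matrix (Fin m ⊕ Fin m) (Fin m ⊕ Fin m) F) *ᵥ v) = (c : F) * plusQ m F v := by
  rw [ddGL_mulVec, plusQ_apply, plusQ_apply]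
  unfold Cfsg.quadFormPlus
  rw [Finset.mul_sum]
  apply Finset.sum_congr rfl
  intro i _
  simp [mul_assoc]

/-- `diag(c, 1)` as a similarity -/
noncomputable def ddGO (m : ℕ) {F : Type u} [Field F] (c : Fˣ) : Cfsg.Geo.quadSimilarityGroup ⇑(plusQ m F) :=
  ⟨ddGL m c, c, ddGL_spec c⟩

omit [DecidableEq F] in
theorem mult_ddGO (hm : 1 ≤ m) (c : Fˣ) : mult (plusQ m F) (ddGO m c) = c :=
  mult_unique _ (plusQ_nondegenerate m) (by simp; omega) _ c (ddGL_spec c)

omit [Fintype F] [DecidableEq F] in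
theorem det_ddGL (c : Fˣ) : Matrix.GeneralLinearGroup.det (ddGL m c) = c ^ m := by
  apply Units.ext
  rw [Matrix.GeneralLinearGroup.val_det_apply]
  show (Matrix.diagonal (Sum.elim (fun _ => (c : F)) (fun _ => 1))).det = _
  rw [Matrix.det_diagonal, Fintype.prod_sum_type]
  simp

omit [Fintype F] [DecidableEq F] in
theorem map_ddGL_plusTS (c : Fˣ) :
    (plusTS m F).map (Matrix.mulVecLin (ddGL m c : Matrix (Fin m ⊕ Fin m) (Fin m ⊕ Fin m) F)) = plusTS m F := by
  apply Submodule.eq_of_le_of_finrank_eq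
  · rintro _ ⟨v, hv, rfl⟩
    rw [SetLike.mem_coe, mem_plusTS] at hv
    rw [Matrix.mulVecLin_apply, ddGL_mulVec, mem_plusTS]
    intro i
    exact hv i
  · rw [finrank_map_GL]

omit [DecidableEq F] in
theorem isMaxTS_iff (U : Submodule F (Fin m ⊕ Fin m → F)) :
    Cfsg.IsMaxTotallySingular ⇑(plusQ m F) U ↔ (∀ u ∈ U, plusQ m F u = 0) ∧ finrank F U = m := by
  have hV : finrank F (Fin m ⊕ Fin m → F) = 2 * m := by simp; ring
  constructor
  · rintro ⟨h1, h3⟩
    refine ⟨h1, ?_⟩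
    obtain ⟨W, hle, hW, hWm⟩ := exists_half_ts_ge (plusQ m F) (nd_of_nondegenerate (plusQ_nondegenerate m)) hV
      (plusTS m F) (fun u hu => by rw [plusQ_apply]; exact plusTS_ts m u hu) (finrank_plusTS m) U h1
    rw [← h3 W hW hle, hWm]
  · rintro ⟨h1, h3⟩
    refine ⟨h1, fun W hW hle => ?_⟩
    symm
    apply Submodule.eq_of_le_of_finrank_le hle
    rw [h3]
    exact plus_ts_le m W (fun u hu => by rw [← plusQ_apply]; exact hW u hu)

theorem preserves_iff (h2 : (2 : F) ≠ 0) (hm : 1 ≤ m) (g : Cfsg.Geo.quadSimilarityGroup ⇑(plusQ m F)) :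
    Cfsg.PreservesSingularClasses ⇑(plusQ m F) ((g : GL (Fin m ⊕ Fin m) F) : Matrix (Fin m ⊕ Fin m) (Fin m ⊕ Fin m) F) ↔
      Matrix.GeneralLinearGroup.det (g : GL (Fin m ⊕ Fin m) F) = mult (plusQ m F) g ^ m := by
  have hQ := plusQ_nondegenerate (F := F) m
  have hcard : Fintype.card (Fin m ⊕ Fin m) = 2 * m := by simp; ring
  have hc1 : 1 ≤ Fintype.card (Fin m ⊕ Fin m) := by omega
  have hmult : mult (plusQ m F) (g⁻¹ * ddGO m (mult (plusQ m F) g)) = 1 := by
    have h1 := map_mul (multHom (plusQ m F) hQ hc1) g⁻¹ (ddGO m (mult (plusQ m F) g))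
    rw [map_inv, multHom_apply, multHom_apply, multHom_apply, mult_ddGO hm, inv_mul_cancel] at h1
    exact h1
  have hs' : ((g⁻¹ * ddGO m (mult (plusQ m F) g) : Cfsg.Geo.quadSimilarityGroup ⇑(plusQ m F)) : GL (Fin m ⊕ Fin m) F)
      ∈ Cfsg.isometryGroup F ⇑(plusQ m F) := by
    rw [mem_iso]
    intro v
    rw [mult_spec, hmult]
    simp
  obtain ⟨vs, hvs, hs⟩ := cartan_dieudonne (plusQ m F) hQ (Or.inl (card_ne_two h2)) ⟨_, hs'⟩
  have hU₀ : ∀ u ∈ plusTS m F, plusQ m F u = 0 := fun u hu => by rw [plusQ_apply]; exact plusTS_ts m u hu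
  have hsM : ((((vs.map (reflT (plusQ m F))).prod : Cfsg.isometryGroup F ⇑(plusQ m F)) : GL (Fin m ⊕ Fin m) F))
      = (g : GL (Fin m ⊕ Fin m) F)⁻¹ * ddGL m (mult (plusQ m F) g) := by
    rw [← hs]; rfl
  set W := (plusTS m F).map (Matrix.mulVecLin ((((vs.map (reflT (plusQ m F))).prod :
    Cfsg.isometryGroup F ⇑(plusQ m F)) : GL (Fin m ⊕ Fin m) F) : Matrix (Fin m ⊕ Fin m) (Fin m ⊕ Fin m) F)) with hWdef
  have hgW : W.map (Matrix.mulVecLin ((g : GL (Fin m ⊕ Fin m) F) : Matrix (Fin m ⊕ Fin m) (Fin m ⊕ Fin m) F))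
      = plusTS m F := by
    rw [hWdef, ← Submodule.map_comp, ← Matrix.mulVecLin_mul, ← Units.val_mul, hsM, mul_inv_cancel_left]
    exact map_ddGL_plusTS _
  have hWts : ∀ u ∈ W, plusQ m F u = 0 := by
    rintro _ ⟨u, hu, rfl⟩
    rw [Matrix.mulVecLin_apply]
    exact (Q_act _ u).trans (hU₀ u hu)
  have hWm : finrank F W = m := by rw [hWdef, finrank_map_GL, finrank_plusTS]
  have hpar : Even (m - finrank F (W ⊓ W.map (Matrix.mulVecLin ((g : GL (Fin m ⊕ Fin m) F) :
      Matrix (Fin m ⊕ Fin m) (Fin m ⊕ Fin m) F)) : Submodule F (Fin m ⊕ Fin m → F))) ↔ Even vs.length := by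
    rw [hgW, inf_comm]
    exact even_codim_iff (plusQ m F) hQ hcard (plusTS m F) hU₀ (finrank_plusTS m) vs hvs
  have hdet : Matrix.GeneralLinearGroup.det (g : GL (Fin m ⊕ Fin m) F) = mult (plusQ m F) g ^ m ↔ Even vs.length := by
    have h1 := congrArg Matrix.GeneralLinearGroup.det hsM
    rw [map_mul, map_inv, det_ddGL] at h1
    have h3 : ((Matrix.GeneralLinearGroup.det ((((vs.map (reflT (plusQ m F))).prod :
        Cfsg.isometryGroup F ⇑(plusQ m F)) : GL (Fin m ⊕ Fin m) F)) : Fˣ) : F) = (-1) ^ vs.length := by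
      rw [Matrix.GeneralLinearGroup.val_det_apply, coe_prod_reflT _ vs hvs, det_prod_refl _ vs hvs]
    have hne : (-1 : F) ≠ 1 := by
      intro h
      apply h2
      linear_combination -h
    rw [← neg_one_pow_eq_one_iff_even hne, ← h3, h1, Units.val_eq_one, inv_mul_eq_one]
  rw [hdet, ← hpar]
  constructor
  · intro h
    have := h W ((isMaxTS_iff W).2 ⟨hWts, hWm⟩)
    unfold Cfsg.SameParityClass Cfsg.imageSubmodule at this
    rw [hWm] at this
    exact this
  · intro h U hU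
    obtain ⟨hUts, hUm⟩ := (isMaxTS_iff U).1 hU
    unfold Cfsg.SameParityClass Cfsg.imageSubmodule
    rw [hUm]
    have h1 := parity_indep (plusQ m F) hQ hcard g U W hUts hWts hUm hWm
    exact (Nat.even_add.1 h1).2 h

end plus

end Cfsg.Agent.Lib.Helper15
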