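import Mathlib

set_option autoImplicit false

namespace Cfsg.Agent.Lib.Helper15

theorem exists_hom_of_quotient_equiv {R B : Type*} [Group R] [Group B] (N : Subgroup R) [N.Normal]
    (e : R ⧸ N ≃* B) : ∃ φ : R →* B, Function.Surjective φ ∧ φ.ker = N := by
  refine ⟨e.toMonoidHom.comp (QuotientGroup.mk' N), e.surjective.comp (QuotientGroup.mk'_surjective N), ?_⟩
  ext x
  rw [MonoidHom.mem_ker, MonoidHom.comp_apply]
  refine (e.map_eq_one_iff).trans ?_
  exact QuotientGroup.eq_one_iff x

theorem exists_hom_zmod_four {R : Type*} [Group R] (N : Subgroup R) [N.Normal] (hN : N.index = 4)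
    (x : R) (hx : x ^ 2 ∉ N) :
    ∃ φ : R →* Multiplicative (ZMod 4), Function.Surjective φ ∧ φ.ker = N := by
  have hcard : Nat.card (R ⧸ N) = 4 := hN
  have : Finite (R ⧸ N) := Nat.finite_of_card_ne_zero (by rw [hcard]; norm_num)
  have hord : orderOf (QuotientGroup.mk' N x) = 4 := by
    have := orderOf_eq_prime_pow (p := 2) (n := 1) (x := QuotientGroup.mk' N x) (by
      rw [pow_one, ← map_pow]
      exact fun h => hx ((QuotientGroup.eq_one_iff _).1 h)) (by
      have h1 : (QuotientGroup.mk' N x) ^ Nat.card (R ⧸ N) = 1 := pow_card_eq_one'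
      rw [hcard] at h1
      exact h1)
    simpa using this
  have hcyc : IsCyclic (R ⧸ N) := isCyclic_of_orderOf_eq_card _ (by rw [hord, hcard])
  exact exists_hom_of_quotient_equiv N (mulEquivOfCyclicCardEq (by rw [hcard]; simp))

theorem exists_hom_klein {R : Type*} [Group R] (N : Subgroup R) [N.Normal] (hN : N.index = 4)
    (x y : R) (hx : x ∉ N) (hy : y ∉ N) (hxy : x⁻¹ * y ∉ N) (hx2 : x ^ 2 ∈ N) (hy2 : y ^ 2 ∈ N) :
    ∃ φ : R →* Multiplicative (ZMod 2 × ZMod 2), Function.Surjective φ ∧ φ.ker = N := by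
  have hcard : Nat.card (R ⧸ N) = 4 := hN
  have : Finite (R ⧸ N) := Nat.finite_of_card_ne_zero (by rw [hcard]; norm_num)
  have hcomm : ∀ a b : R ⧸ N, a * b = b * a := by
    have := IsPGroup.isMulCommutative_of_card_eq_prime_sq (p := 2) (G := R ⧸ N) (by rw [hcard]; norm_num)
    exact fun a b => mul_comm' a b
  let K : Subgroup (R ⧸ N) :=
    { carrier := {a | a ^ 2 = 1}
      one_mem' := by simp
      mul_mem' := by
        intro a b ha hb
        have ha' : a ^ 2 = 1 := ha
        have hb' : b ^ 2 = 1 := hb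
        show (a * b) ^ 2 = 1
        rw [(show Commute a b from hcomm a b).mul_pow, ha', hb', one_mul]
      inv_mem' := by
        intro a ha
        have ha' : a ^ 2 = 1 := ha
        show (a⁻¹) ^ 2 = 1
        rw [inv_pow, ha', inv_one] }
  set X := QuotientGroup.mk' N x with hX
  set Y := QuotientGroup.mk' N y with hY
  have hX1 : X ≠ 1 := fun h => hx ((QuotientGroup.eq_one_iff _).1 h)
  have hY1 : Y ≠ 1 := fun h => hy ((QuotientGroup.eq_one_iff _).1 h)
  have hXY : X ≠ Y := by
    intro h
    apply hxy
    rw [← QuotientGroup.eq_one_iff]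
    show QuotientGroup.mk' N (x⁻¹ * y) = 1
    rw [map_mul, map_inv, ← hX, ← hY, h, inv_mul_cancel]
  have hXK : X ∈ K := by
    show X ^ 2 = 1
    rw [hX, ← map_pow]
    exact (QuotientGroup.eq_one_iff _).2 hx2
  have hYK : Y ∈ K := by
    show Y ^ 2 = 1
    rw [hY, ← map_pow]
    exact (QuotientGroup.eq_one_iff _).2 hy2
  have hK3 : 3 ≤ Nat.card K := by
    let f : Fin 3 → K := ![1, ⟨X, hXK⟩, ⟨Y, hYK⟩]
    have hf : Function.Injective f := by
      intro i j hij
      fin_cases i <;> fin_cases j <;> simp [f, Subtype.ext_iff] at hij ⊢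
      · exact hX1 hij.symm
      · exact hY1 hij.symm
      · exact hX1 hij
      · exact hXY hij
      · exact hY1 hij
      · exact hXY hij.symm
    have := Nat.card_le_card_of_injective f hf
    simpa using this
  have hKdvd : Nat.card K ∣ 4 := hcard ▸ Subgroup.card_subgroup_dvd_card K
  have hK4 : Nat.card K = 4 := by
    have hle := Nat.le_of_dvd (by norm_num) hKdvd
    interval_cases h : Nat.card K
    · omega
    · rfl
  have hKtop : K = ⊤ := Subgroup.eq_top_of_card_eq K (by rw [hK4, hcard])
  have hklein : IsKleinFour (R ⧸ N) :=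
    { card_four := hcard
      exponent_two := by
        have h1 : Monoid.exponent (R ⧸ N) ∣ 2 := by
          apply Monoid.exponent_dvd_of_forall_pow_eq_one
          intro a
          have : a ∈ K := by rw [hKtop]; trivial
          exact this
        rcases (Nat.dvd_prime Nat.prime_two).1 h1 with h | h
        · exfalso
          have := Monoid.exp_eq_one_iff.1 h
          exact hX1 (Subsingleton.elim _ _)
        · exact h }
  exact exists_hom_of_quotient_equiv N (IsKleinFour.nonempty_mulEquiv).some

end Cfsg.Agent.Lib.Helper15
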