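import Mathlib
import Cfsg.Agent.Lib.Helper15.AutPO7
import Cfsg.Agent.Lib.Helper15.OrderFour

set_option autoImplicit false

namespace Cfsg.Agent.Lib.Helper15

open Matrix QuadraticMap Module

universe u

section bundled

variable {ι : Type} [Fintype ι] [DecidableEq ι] {F : Type u} [Field F] [Fintype F] [DecidableEq F]
  (Q : QuadraticForm F (ι → F))

/-- the similarities with `det = μ^k`, as a subgroup of `GL` -/
noncomputable def GOz (h2 : (2 : F) ≠ 0) (hQ : (polarBilin Q).Nondegenerate) (hcard : 1 ≤ Fintype.card ι) (k : ℕ)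
    (hk : Fintype.card ι = 2 * k) : Subgroup (GL ι F) :=
  (dsign Q h2 hQ hcard k hk).ker.map (Subgroup.subtype _)

theorem GOz_le (h2 : (2 : F) ≠ 0) (hQ : (polarBilin Q).Nondegenerate) (hcard : 1 ≤ Fintype.card ι) (k : ℕ)
    (hk : Fintype.card ι = 2 * k) : GOz Q h2 hQ hcard k hk ≤ Cfsg.Geo.quadSimilarityGroup ⇑Q := by
  rintro _ ⟨g, _, rfl⟩
  exact g.2

theorem mem_GOz (h2 : (2 : F) ≠ 0) (hQ : (polarBilin Q).Nondegenerate) (hcard : 1 ≤ Fintype.card ι) (k : ℕ)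
    (hk : Fintype.card ι = 2 * k) (g : Cfsg.Geo.quadSimilarityGroup ⇑Q) :
    (g : GL ι F) ∈ GOz Q h2 hQ hcard k hk ↔ dsign Q h2 hQ hcard k hk g = 1 := by
  constructor
  · rintro ⟨g', hg', h⟩
    have : g' = g := Subtype.ext h
    rw [← this]
    exact hg'
  · intro h
    exact ⟨g, h, rfl⟩

theorem dsign_of_proj_SO (h2 : (2 : F) ≠ 0) (hQ : (polarBilin Q).Nondegenerate) (hcard : 1 ≤ Fintype.card ι) (k : ℕ)
    (hk : Fintype.card ι = 2 * k) (g : Cfsg.Geo.quadSimilarityGroup ⇑Q)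
    (h : ∃ y ∈ Cfsg.specialIsometryGL F ⇑Q, (g : GL ι F) * y⁻¹ ∈ Cfsg.Geo.scalars ι F) :
    dsign Q h2 hQ hcard k hk g = 1 :=
  congrArg Prod.fst ((psi1_eq_one_iff Q h2 hQ hcard k hk g).2 h)

theorem omegaGL_le_GOz (h2 : (2 : F) ≠ 0) (hQ : (polarBilin Q).Nondegenerate) (hcard : 2 ≤ Fintype.card ι) (k : ℕ)
    (hk : Fintype.card ι = 2 * k) : Cfsg.Geo.omegaGL ⇑Q ≤ GOz Q h2 hQ (by omega) k hk := by
  intro y hy
  have := (mem_GOz Q h2 hQ (by omega) k hk ⟨y, omegaGL_le_GO ⇑Q hy⟩).2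
    (dsign_of_proj_SO Q h2 hQ (by omega) k hk _ ⟨y, omegaGL_le_SO Q h2 hcard hQ hy, by
      rw [mul_inv_cancel]; exact Subgroup.one_mem _⟩)
  exact this

/-- the automorphisms induced by `GOz` -/
noncomputable def pgozAut (h2 : (2 : F) ≠ 0) (hQ : (polarBilin Q).Nondegenerate) (hcard : 1 ≤ Fintype.card ι) (k : ℕ)
    (hk : Fintype.card ι = 2 * k) : Subgroup (MulAut (Cfsg.POmega F ⇑Q)) :=
  ((GOz Q h2 hQ hcard k hk).subgroupOf (Cfsg.Geo.quadSimilarityGroup ⇑Q)).map (cj ⇑Q)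

theorem relIndex_pgoz_pgo (h2 : (2 : F) ≠ 0) (hQ : (polarBilin Q).Nondegenerate) (hn : 5 ≤ Fintype.card ι) (k : ℕ)
    (hk : Fintype.card ι = 2 * k) :
    (pgozAut Q h2 hQ (by omega) k hk).relIndex (Cfsg.pgoAut F ⇑Q) = 2 := by
  obtain ⟨φ, hφ, hker⟩ := exists_hom_aut Q hQ hn _ _ le_rfl (GOz_le Q h2 hQ (by omega) k hk)
    (dsign Q h2 hQ (by omega) k hk) (by
      intro b
      obtain ⟨g, hg⟩ := psi1_surjective Q h2 hQ (by omega) k hk (b, 1)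
      exact ⟨g, congrArg Prod.fst hg⟩) (by
      intro x
      constructor
      · intro h
        exact ⟨x, (mem_GOz Q h2 hQ (by omega) k hk x).2 h, by rw [mul_inv_cancel]; exact Subgroup.one_mem _⟩
      · rintro ⟨y, hy, hz⟩
        have hy' := (mem_GOz Q h2 hQ (by omega) k hk ⟨y, GOz_le Q h2 hQ (by omega) k hk hy⟩).1 hy
        have h1 : dsign Q h2 hQ (by omega) k hk (x * (⟨y, GOz_le Q h2 hQ (by omega) k hk hy⟩ :
            Cfsg.Geo.quadSimilarityGroup ⇑Q)⁻¹) = 1 :=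
          dsign_of_proj_SO Q h2 hQ (by omega) k hk _ ⟨1, Subgroup.one_mem _, by simpa using hz⟩
        rw [map_mul, map_inv, hy', inv_one, mul_one] at h1
        exact h1) _ (pgozAut Q h2 hQ (by omega) k hk) (pgoAut_eq Q) rfl
  rw [relIndex_of_hom _ _ φ hφ hker]
  simp

theorem inn_le_pgoz (h2 : (2 : F) ≠ 0) (hQ : (polarBilin Q).Nondegenerate) (hcard : 2 ≤ Fintype.card ι) (k : ℕ)
    (hk : Fintype.card ι = 2 * k) : Cfsg.Inn (Cfsg.POmega F ⇑Q) ≤ pgozAut Q h2 hQ (by omega) k hk := by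
  rw [Inn_eq_map]
  apply Subgroup.map_mono
  intro x hx
  exact omegaGL_le_GOz Q h2 hQ hcard k hk hx

theorem pgoz_le_pgo (h2 : (2 : F) ≠ 0) (hQ : (polarBilin Q).Nondegenerate) (hcard : 1 ≤ Fintype.card ι) (k : ℕ)
    (hk : Fintype.card ι = 2 * k) : pgozAut Q h2 hQ hcard k hk ≤ Cfsg.pgoAut F ⇑Q := by
  rw [pgoAut_eq]
  apply Subgroup.map_mono
  intro x _
  exact x.2

theorem relIndex_inn_pgoz (h2 : (2 : F) ≠ 0) (hQ : (polarBilin Q).Nondegenerate) (hn : 5 ≤ Fintype.card ι) (k : ℕ)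
    (hk : Fintype.card ι = 2 * k) (hneg : negIso Q ∈ Cfsg.Omega F ⇑Q) :
    (Cfsg.Inn (Cfsg.POmega F ⇑Q)).relIndex (pgozAut Q h2 hQ (by omega) k hk) = 4 := by
  obtain ⟨φ, hφ, hker⟩ := pgo_mod_inn_dihedral Q h2 hQ hn ⟨k, by omega⟩ hneg
  have h8 := relIndex_of_hom _ _ φ hφ hker
  rw [DihedralGroup.nat_card] at h8
  have h := Subgroup.relIndex_mul_relIndex _ _ _ (inn_le_pgoz Q h2 hQ (by omega) k hk)
    (pgoz_le_pgo Q h2 hQ (by omega) k hk)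
  rw [relIndex_pgoz_pgo Q h2 hQ hn k hk, h8] at h
  omega

theorem psi1_eq_one_iff_omega (h2 : (2 : F) ≠ 0) (hQ : (polarBilin Q).Nondegenerate) (hcard : 2 ≤ Fintype.card ι)
    (k : ℕ) (hk : Fintype.card ι = 2 * k) (hneg : negIso Q ∉ Cfsg.Omega F ⇑Q)
    (g : Cfsg.Geo.quadSimilarityGroup ⇑Q) :
    psi1 Q h2 hQ (by omega) k hk g = 1 ↔
      ∃ y ∈ Cfsg.Geo.omegaGL ⇑Q, (g : GL ι F) * y⁻¹ ∈ Cfsg.Geo.scalars ι F := by
  rw [psi1_eq_one_iff Q h2 hQ (by omega) k hk]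
  constructor
  · rintro ⟨y, hy, hz⟩
    obtain ⟨y', hy', hz'⟩ := proj_mem_of_det Q h2 hcard hQ ⟨k, by omega⟩ hneg ⟨y, hy.1⟩ (congrArg Units.val hy.2)
    refine ⟨y', hy', ?_⟩
    have := Subgroup.mul_mem _ hz hz'
    simpa [mul_assoc] using this
  · rintro ⟨y, hy, hz⟩
    exact ⟨y, omegaGL_le_SO Q h2 hcard hQ hy, hz⟩

/-- elements of `pgozAut` -/
noncomputable def toR (h2 : (2 : F) ≠ 0) (hQ : (polarBilin Q).Nondegenerate) (hcard : 1 ≤ Fintype.card ι) (k : ℕ)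
    (hk : Fintype.card ι = 2 * k) (g : Cfsg.Geo.quadSimilarityGroup ⇑Q) (hg : dsign Q h2 hQ hcard k hk g = 1) :
    pgozAut Q h2 hQ hcard k hk :=
  ⟨cj ⇑Q g, ⟨g, (mem_GOz Q h2 hQ hcard k hk g).2 hg, rfl⟩⟩

theorem toR_mem_iff (h2 : (2 : F) ≠ 0) (hQ : (polarBilin Q).Nondegenerate) (hcard : 1 ≤ Fintype.card ι) (k : ℕ)
    (hk : Fintype.card ι = 2 * k) (g : Cfsg.Geo.quadSimilarityGroup ⇑Q) (hg : dsign Q h2 hQ hcard k hk g = 1) :
    toR Q h2 hQ hcard k hk g hg ∈ (Cfsg.Inn (Cfsg.POmega F ⇑Q)).subgroupOf (pgozAut Q h2 hQ hcard k hk)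
      ↔ g ∈ innGO Q := Iff.rfl

theorem toR_sq_mem_iff (h2 : (2 : F) ≠ 0) (hQ : (polarBilin Q).Nondegenerate) (hcard : 1 ≤ Fintype.card ι) (k : ℕ)
    (hk : Fintype.card ι = 2 * k) (g : Cfsg.Geo.quadSimilarityGroup ⇑Q) (hg : dsign Q h2 hQ hcard k hk g = 1) :
    toR Q h2 hQ hcard k hk g hg ^ 2 ∈ (Cfsg.Inn (Cfsg.POmega F ⇑Q)).subgroupOf (pgozAut Q h2 hQ hcard k hk)
      ↔ g ^ 2 ∈ innGO Q := by
  unfold innGO
  rw [Subgroup.mem_subgroupOf, Subgroup.mem_comap, map_pow]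
  rfl

theorem toR_inv_mul_mem_iff (h2 : (2 : F) ≠ 0) (hQ : (polarBilin Q).Nondegenerate) (hcard : 1 ≤ Fintype.card ι)
    (k : ℕ) (hk : Fintype.card ι = 2 * k) (g h : Cfsg.Geo.quadSimilarityGroup ⇑Q)
    (hg : dsign Q h2 hQ hcard k hk g = 1) (hh : dsign Q h2 hQ hcard k hk h = 1) :
    (toR Q h2 hQ hcard k hk g hg)⁻¹ * toR Q h2 hQ hcard k hk h hh
      ∈ (Cfsg.Inn (Cfsg.POmega F ⇑Q)).subgroupOf (pgozAut Q h2 hQ hcard k hk) ↔ g⁻¹ * h ∈ innGO Q := by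
  unfold innGO
  rw [Subgroup.mem_subgroupOf, Subgroup.mem_comap, map_mul, map_inv]
  rfl

theorem mem_innGO_iff_of_scalar (hQ : (polarBilin Q).Nondegenerate) (hn : 5 ≤ Fintype.card ι)
    (hneg : negIso Q ∈ Cfsg.Omega F ⇑Q) (g : Cfsg.Geo.quadSimilarityGroup ⇑Q) (y : Cfsg.isometryGroup F ⇑Q)
    (hz : (g : GL ι F) * (y : GL ι F)⁻¹ ∈ Cfsg.Geo.scalars ι F) : g ∈ innGO Q ↔ y ∈ Cfsg.Omega F ⇑Q := by
  rw [← isoToGO_mem_innGO Q hQ hn hneg, ← QuotientGroup.eq_one_iff, ← QuotientGroup.eq_one_iff]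
  have := mk_eq_of_scalar Q hQ hn g y hz
  simp only [QuotientGroup.mk'_apply] at this
  rw [this]

end bundled

section plus

variable {m : ℕ} {F : Type u} [Field F] [Fintype F] [DecidableEq F]

theorem dsign_ddGO (h2 : (2 : F) ≠ 0) (hm : 1 ≤ m) (hc : 1 ≤ Fintype.card (Fin m ⊕ Fin m))
    (hk : Fintype.card (Fin m ⊕ Fin m) = 2 * m) (c : Fˣ) :
    dsign (plusQ m F) h2 (plusQ_nondegenerate m) hc m hk (ddGO m c) = 1 := by
  rw [dsign_eq_one_iff, mult_ddGO hm]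
  exact det_ddGL c

theorem ddGO_sq (c : Fˣ) : ((ddGO m c ^ 2 : Cfsg.Geo.quadSimilarityGroup ⇑(plusQ m F)) : GL (Fin m ⊕ Fin m) F)
    * ((levi m F (sc (Fin m) c) : Cfsg.isometryGroup F ⇑(plusQ m F)) : GL (Fin m ⊕ Fin m) F)⁻¹
      = sc (Fin m ⊕ Fin m) c := by
  rw [mul_inv_eq_iff_eq_mul]
  apply Units.ext
  apply Matrix.ext_of_mulVec_single
  intro i
  rw [_root_.sq, Subgroup.coe_mul, Units.val_mul, Units.val_mul, ← Matrix.mulVec_mulVec, ← Matrix.mulVec_mulVec]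
  have h1 := act_levi (sc (Fin m) c) (Pi.single i (1 : F))
  unfold act at h1
  rw [h1, sc_mulVec]
  show (ddGL m c : Matrix (Fin m ⊕ Fin m) (Fin m ⊕ Fin m) F) *ᵥ ((ddGL m c : Matrix (Fin m ⊕ Fin m) (Fin m ⊕ Fin m) F) *ᵥ _) = _
  rw [ddGL_mulVec, ddGL_mulVec, sc_mulVec, ← map_inv, sc_coe, Matrix.transpose_smul, Matrix.transpose_one,
    Matrix.smul_mulVec, Matrix.one_mulVec]
  funext j
  rcases j with j | j
  · simp
  · simp

theorem isSquare_pow_iff (h2 : (2 : F) ≠ 0) (ν : Fˣ) (hν : sqs (ν : F) = -1) (n : ℕ) :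
    IsSquare ((ν : F) ^ n) ↔ Even n := by
  rw [← sqs_eq_one_iff, ← Units.val_pow_eq_pow_val, ← sqsHom_apply h2, map_pow, sqsHom_apply, hν,
    neg_one_pow_eq_one_iff_even (by decide)]

theorem ddGO_sq_mem_iff (h2 : (2 : F) ≠ 0) (hm : 3 ≤ m)
    (hneg : negIso (plusQ m F) ∈ Cfsg.Omega F ⇑(plusQ m F)) (ν : Fˣ) (hν : sqs (ν : F) = -1) :
    ddGO m ν ^ 2 ∈ innGO (plusQ m F) ↔ Even m := by
  rw [mem_innGO_iff_of_scalar (plusQ m F) (plusQ_nondegenerate m) (by simp; omega) hneg _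
    (levi m F (sc (Fin m) ν)) (by rw [ddGO_sq]; exact sc_mem ν),
    levi_mem_Omega_iff (by omega) (Or.inr (by omega)), sc_det, Fintype.card_fin, isSquare_pow_iff h2 ν hν]

end plus

end Cfsg.Agent.Lib.Helper15
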