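import Mathlib
import Cfsg.Agent.Lib.Helper15.CD3
import Cfsg.Agent.Lib.Helper15.CDMat

set_option autoImplicit false

open Module QuadraticMap

namespace Cfsg.Agent.Lib.Helper15

variable {F : Type*} [Field F] {V : Type*} [AddCommGroup V] [Module F V]

section char2

variable [CharP F 2]

/-- **Cartan–Dieudonné** in characteristic two (finite fields), assuming the midpoint property. -/
theorem cartan_dieudonne_two' [Finite F] [FiniteDimensional F V] (Q : QuadraticForm F V) (hQ : ND Q)
    (hmid : ∀ u v : V, Q u = Q v → Q v ≠ 0 → u ≠ v → polar Q u v = 0 →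
      ∃ w, Q w = Q v ∧ polar Q u w ≠ 0 ∧ polar Q v w ≠ 0) (g : Module.End F V) (hg : ∀ x, Q (g x) = Q x) : IsRP Q g := by
  have h2 : (2 : F) = 0 := CharTwo.two_eq_zero
  have hperf : ∀ a : F, ∃ b, b * b = a := by
    intro a
    have := Fintype.ofFinite F
    obtain ⟨b, hb⟩ := FiniteField.isSquare_of_char_two (ringChar.eq F 2) a
    exact ⟨b, hb.symm⟩
  by_cases hall : ∀ v, Q v = 0
  · have : g = 1 := by
      apply LinearMap.ext
      intro x
      have h0 : ∀ x : V, x = 0 := by
        intro x
        apply hQ
        intro y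
        unfold polar
        rw [hall, hall, hall]; simp
      rw [h0 (g x), h0 ((1 : Module.End F V) x)]
    rw [this]; exact IsRP.one Q
  push Not at hall
  obtain ⟨v, hv⟩ := hall
  have hv0 : v ≠ 0 := by rintro rfl; simp at hv
  obtain ⟨y₀, hy₀⟩ := exists_polar_eq_one Q hQ hv0
  have hiso : ∀ (w : V) (g : Module.End F V), Q w ≠ 0 → (∀ x, Q (g x) = Q x) → ∀ x, Q ((rL Q w * g) x) = Q x := by
    intro w g hw hg x
    rw [Module.End.mul_apply, Q_rL Q hw, hg]
  have key0 : ∀ g : Module.End F V, (∀ x, Q (g x) = Q x) → (∀ u, polar Q v u = 0 → g u = u) → IsRP Q g := by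
    clear hg g
    intro g hg hfix
    obtain ⟨c, hc⟩ := eq_smul_of_ker_le Q hQ (a := g y₀ - y₀) hv0 (by
      intro p hp
      rw [polar_sub_left]
      conv_lhs => rw [← hfix p hp]
      rw [polar_of_isometry hg, hfix p hp, sub_self])
    have hgy : g y₀ = y₀ + c • v := by rw [← hc]; abel
    have hgx : ∀ x, g x = x + (polar Q v x * c) • v := by
      intro x
      have h1 := hfix (x - polar Q v x • y₀) (by rw [polar_sub_right, polar_smul_right, hy₀]; simp)
      rw [map_sub, map_smul, hgy, smul_add, smul_smul] at h1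
      rw [← sub_eq_zero] at h1 ⊢
      rw [← h1]; abel
    have hcc : c * (c * Q v + 1) = 0 := by
      have := hg y₀
      rw [hgy, QuadraticMap.map_add Q, QuadraticMap.map_smul, polar_smul_right, polar_comm Q y₀ v, hy₀] at this
      simp only [smul_eq_mul] at this
      linear_combination this
    rcases mul_eq_zero.1 hcc with h | h
    · have : g = 1 := by
        apply LinearMap.ext
        intro x
        rw [hgx, h]; simp
      rw [this]; exact IsRP.one Q
    · have : g = rL Q v := by
        apply LinearMap.ext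
        intro x
        rw [hgx, rL_apply, sub_eq_add_neg, ← neg_smul]
        congr 2
        have : c = (Q v)⁻¹ := by
          field_simp
          linear_combination h - h2
        rw [this]
        linear_combination ((Q v)⁻¹ * polar Q v x) * h2
      rw [this]; exact IsRP.rL Q hv
  have key1 : ∀ g : Module.End F V, (∀ x, Q (g x) = Q x) → g v = v → IsRP Q g := by
    clear hg g
    intro g hg hgv
    set U : Submodule F V := LinearMap.ker (polarBilin Q v) with hU
    have hmemU : ∀ x, x ∈ U ↔ polar Q v x = 0 := fun x => by rw [hU, LinearMap.mem_ker]; rfl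
    have hgU : ∀ x ∈ U, g x ∈ U := by
      intro x hx
      rw [hmemU] at hx ⊢
      rw [← hx]
      conv_lhs => rw [← hgv]
      exact polar_of_isometry hg v x
    have hvU : v ∈ U := (hmemU v).2 (polar_self_two Q v)
    obtain ⟨vs, h1, h3⟩ := cd_defective hperf _ (Q.comp U.subtype) ⟨v, hvU⟩ hv
      (fun y => by rw [polar_comp_subtype, polar_comm]; exact (hmemU y).1 y.2)
      (by
        intro x hx
        obtain ⟨c, hc⟩ := eq_smul_of_ker_le Q hQ (a := (x : V)) hv0 (fun p hp => hx ⟨p, (hmemU p).2 hp⟩)
        exact Submodule.mem_span_singleton.2 ⟨c, Subtype.ext hc.symm⟩)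
      rfl (g.restrict hgU) (fun x => hg x) (Subtype.ext hgv)
    have hvs : ∀ w ∈ vs.map Subtype.val, Q w ≠ 0 := by
      intro w hw
      obtain ⟨w', hw', rfl⟩ := List.mem_map.1 hw
      exact h1 w' hw'
    have ht' : IsRP Q (((vs.map Subtype.val).reverse.map (rL Q)).prod) :=
      ⟨_, fun w hw => hvs w (List.mem_reverse.1 hw), rfl⟩
    apply IsRP.of_mul ht'
    apply key0
    · intro x
      rw [Module.End.mul_apply, ht'.isometry, hg]
    · intro u hu
      have e := prod_rL_sub Q U vs ⟨u, (hmemU u).2 hu⟩
      rw [← h3] at e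
      have e' : g u = ((vs.map Subtype.val).map (rL Q)).prod u := by
        rw [List.map_map]; exact e.symm
      rw [Module.End.mul_apply, e', ← Module.End.mul_apply, prod_rL_reverse Q _ hvs]
      rfl
  by_cases h : Q (g v - v) ≠ 0
  · apply IsRP.of_rL_mul h
    apply key1 _ (hiso _ _ h hg)
    rw [Module.End.mul_apply, rL_sub Q (hg v) h]
  · push Not at h
    rw [Q_sub_two Q (hg v)] at h
    by_cases hgv : g v = v
    · exact key1 g hg hgv
    obtain ⟨w, hw1, hw2, hw3⟩ := hmid (g v) v (hg v) hv hgv h
    have h1 : Q (g v - w) ≠ 0 := by rw [Q_sub_two Q ((hg v).trans hw1.symm)]; exact hw2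
    have h3 : Q (w - v) ≠ 0 := by rw [Q_sub_two Q hw1, polar_comm]; exact hw3
    apply IsRP.of_rL_mul h1
    apply IsRP.of_rL_mul h3
    apply key1 _ (hiso _ _ h3 (hiso _ _ h1 hg))
    rw [Module.End.mul_apply, Module.End.mul_apply, rL_sub Q ((hg v).trans hw1.symm) h1, rL_sub Q hw1 h3]

/-- the midpoint property over the field with two elements when the Witt index is at most one -/
theorem exists_mid_minus [Finite F] [FiniteDimensional F V] (Q : QuadraticForm F V) (hQ : ND Q)
    (hq : Nat.card F = 2) (hw : ∀ U : Submodule F V, (∀ u ∈ U, Q u = 0) → finrank F U ≤ 1)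
    (u v : V) (huv : Q u = Q v) (hv : Q v ≠ 0) (hne : u ≠ v)
    (hp : polar Q u v = 0) : ∃ w, Q w = Q v ∧ polar Q u w ≠ 0 ∧ polar Q v w ≠ 0 := by
  have h2 : (2 : F) = 0 := CharTwo.two_eq_zero
  obtain ⟨p, hvp, hup⟩ := exists_sep Q hQ huv hv hne
  obtain ⟨p', hup', hvp'⟩ := exists_sep Q hQ huv.symm (huv ▸ hv) hne.symm
  have h01 := two_elems hq
  set w₀ := p + p' with hw₀
  have h1 : polar Q u w₀ = 1 := by
    rw [hw₀, polar_add_right, hup, hup']; simp
  have h3 : polar Q v w₀ = 1 := by
    rw [hw₀, polar_add_right, hvp, hvp']; simp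
  by_cases hQw : Q w₀ = 0
  · exfalso
    have hQz : Q (u + v) = 0 := by
      rw [QuadraticMap.map_add Q, hp, huv]
      linear_combination Q v * h2
    have hzw : polar Q (u + v) w₀ = 0 := by
      rw [polar_add_left, h1, h3]
      linear_combination h2
    have hli : LinearIndependent F ![u + v, w₀] := by
      rw [LinearIndependent.pair_iff]
      intro a b hab
      have e1 : polar Q u (a • (u + v) + b • w₀) = 0 := by rw [hab]; simp
      rw [polar_add_right, polar_smul_right, polar_smul_right, polar_add_right, polar_self_two, hp, h1] at e1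
      have hb : b = 0 := by simpa using e1
      rw [hb, zero_smul, add_zero] at hab
      rcases smul_eq_zero.1 hab with h | h
      · exact ⟨h, hb⟩
      · exfalso
        apply hne
        have : u = -v := eq_neg_of_add_eq_zero_left h
        rw [this, ← neg_one_smul F v, CharTwo.neg_eq, one_smul]
    have hfr := finrank_span_eq_card hli
    have := hw (Submodule.span F (Set.range ![u + v, w₀])) (by
      intro x hx
      rw [Matrix.range_cons, Matrix.range_cons, Matrix.range_empty, Set.union_empty, Set.singleton_union,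
        Submodule.mem_span_pair] at hx
      obtain ⟨a, b, rfl⟩ := hx
      rw [QuadraticMap.map_add Q, QuadraticMap.map_smul, QuadraticMap.map_smul, polar_smul_left, polar_smul_right,
        hQz, hQw, hzw]
      simp)
    rw [hfr] at this
    simp at this
  · refine ⟨w₀, ?_, by rw [h1]; exact one_ne_zero, by rw [h3]; exact one_ne_zero⟩
    rw [(h01 (Q w₀)).resolve_left hQw, (h01 (Q v)).resolve_left hv]

end char2

end Cfsg.Agent.Lib.Helper15
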