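import Mathlib
import Cfsg.Agent.Lib.Helper15.AutPO5

set_option autoImplicit false

namespace Cfsg.Agent.Lib.Helper15

open Matrix QuadraticMap Module

universe u

section bundled

variable {ι : Type} [Fintype ι] [DecidableEq ι] {F : Type u} [Field F] [Fintype F] [DecidableEq F]
  (Q : QuadraticForm F (ι → F))

theorem eq_of_mem_center_Omega (hQ : (polarBilin Q).Nondegenerate) (hn : 5 ≤ Fintype.card ι)
    (z : Cfsg.Omega F ⇑Q) (hz : z ∈ Subgroup.center (Cfsg.Omega F ⇑Q)) :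
    (z : Cfsg.isometryGroup F ⇑Q) = 1 ∨ (z : Cfsg.isometryGroup F ⇑Q) = negIso Q := by
  have h1 : cj ⇑Q ⟨((z : Cfsg.isometryGroup F ⇑Q) : GL ι F), iso_le_GO ⇑Q z.1.2⟩ = 1 := by
    rw [cj_of_Omega, (QuotientGroup.eq_one_iff z).2 hz, map_one]
  have h3 := (cj_eq_one_iff Q hQ hn _).1 h1
  obtain ⟨c, hc⟩ := exists_sc_of_mem h3
  have hc' : ((z : Cfsg.isometryGroup F ⇑Q) : GL ι F) = sc ι c := hc
  have hmem : sc ι c ∈ Cfsg.isometryGroup F ⇑Q := by rw [← hc']; exact z.1.2
  rcases sc_mem_iso Q hQ (by omega) c hmem with rfl | rfl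
  · left
    apply Subtype.ext
    rw [hc', map_one]; rfl
  · right
    apply Subtype.ext
    rw [hc']; rfl

theorem negIso_comm (g : Cfsg.isometryGroup F ⇑Q) : g * negIso Q = negIso Q * g := by
  apply Subtype.ext
  apply Units.ext
  show ((g : GL ι F) : Matrix ι ι F) * (sc ι (-1 : Fˣ) : Matrix ι ι F) = (sc ι (-1 : Fˣ) : Matrix ι ι F) * ((g : GL ι F) : Matrix ι ι F)
  rw [sc_coe]
  simp

theorem card_center_Omega_of_neg (h2 : (2 : F) ≠ 0) (hQ : (polarBilin Q).Nondegenerate) (hn : 5 ≤ Fintype.card ι)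
    (hneg : negIso Q ∈ Cfsg.Omega F ⇑Q) : Nat.card (Subgroup.center (Cfsg.Omega F ⇑Q)) = 2 := by
  have hmem : (⟨negIso Q, hneg⟩ : Cfsg.Omega F ⇑Q) ∈ Subgroup.center (Cfsg.Omega F ⇑Q) := by
    rw [Subgroup.mem_center_iff]
    intro g
    apply Subtype.ext
    exact negIso_comm Q g
  rw [Nat.card_eq_two_iff]
  refine ⟨1, ⟨⟨negIso Q, hneg⟩, hmem⟩, ?_, ?_⟩
  · intro h
    have h1 : (1 : GL ι F) = sc ι (-1) := congrArg (fun z : Subgroup.center (Cfsg.Omega F ⇑Q) =>
      (((z : Cfsg.Omega F ⇑Q) : Cfsg.isometryGroup F ⇑Q) : GL ι F)) h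
    obtain ⟨i⟩ : Nonempty ι := Fintype.card_pos_iff.1 (by omega)
    have h3 := congrArg (fun M : GL ι F => (M : Matrix ι ι F) i i) h1
    simp only [sc_coe] at h3
    simp at h3
    apply h2
    linear_combination h3
  · ext z
    simp only [Set.mem_insert_iff, Set.mem_singleton_iff, Set.mem_univ, iff_true]
    rcases eq_of_mem_center_Omega Q hQ hn z.1 z.2 with h | h
    · left
      apply Subtype.ext
      apply Subtype.ext
      exact h
    · right
      apply Subtype.ext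
      apply Subtype.ext
      exact h

theorem card_center_Omega_of_not (hQ : (polarBilin Q).Nondegenerate) (hn : 5 ≤ Fintype.card ι)
    (hneg : negIso Q ∉ Cfsg.Omega F ⇑Q ∨ (2 : F) = 0) : Nat.card (Subgroup.center (Cfsg.Omega F ⇑Q)) = 1 := by
  rw [Nat.card_eq_one_iff_unique]
  refine ⟨⟨fun a b => ?_⟩, ⟨1⟩⟩
  have key : ∀ z : Subgroup.center (Cfsg.Omega F ⇑Q), ((z : Cfsg.Omega F ⇑Q) : Cfsg.isometryGroup F ⇑Q) = 1 := by
    intro z
    rcases eq_of_mem_center_Omega Q hQ hn z.1 z.2 with h | h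
    · exact h
    · rcases hneg with h' | h'
      · exfalso
        apply h'
        rw [← h]
        exact z.1.2
      · rw [h]
        apply Subtype.ext
        apply Units.ext
        show (sc ι (-1 : Fˣ) : Matrix ι ι F) = 1
        rw [sc_coe]
        have : (-1 : F) = 1 := by linear_combination -h'
        simp [this]
  apply Subtype.ext
  apply Subtype.ext
  rw [key a, key b]

/-- `|PΩ| · |Z(Ω)| · |O : Ω| = |O|` -/
theorem card_POmega_mul : Nat.card (Cfsg.POmega F ⇑Q) * Nat.card (Subgroup.center (Cfsg.Omega F ⇑Q))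
    * (Cfsg.Omega F ⇑Q).index = Nat.card (Cfsg.isometryGroup F ⇑Q) := by
  rw [← Subgroup.card_eq_card_quotient_mul_card_subgroup, Subgroup.card_mul_index]

end bundled

end Cfsg.Agent.Lib.Helper15
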