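import Mathlib
import Cfsg.Agent.Lib.Helper15.Nilp

set_option autoImplicit false

open Module LinearMap Polynomial

namespace Cfsg.Agent.Lib.Helper15

variable {K V : Type*} [Field K] [AddCommGroup V] [Module K V] [FiniteDimensional K V]

theorem ker_pow_mono (N : Module.End K V) {i j : ℕ} (h : i ≤ j) : ker (N ^ i) ≤ ker (N ^ j) := by
  intro x hx
  rw [LinearMap.mem_ker] at hx ⊢
  obtain ⟨k, rfl⟩ := Nat.exists_eq_add_of_le h
  rw [add_comm, pow_add, Module.End.mul_apply, hx, map_zero]

theorem cyclic_vec (N : Module.End K V) (hN : finrank K (ker N) ≤ 1) (hnil : N ^ (finrank K V) = 0)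
    (v : V) (hv : v ∉ ker (N ^ (finrank K V - 1))) (w : V) : ∃ p : K[X], w = aeval N p v := by
  let Φ : K[X] →ₗ[K] V := (LinearMap.applyₗ v) ∘ₗ (aeval N).toLinearMap
  have hΦ : ∀ p, Φ p = aeval N p v := fun p => rfl
  have hinv : ∀ x ∈ range Φ, N x ∈ range Φ := by
    rintro _ ⟨p, rfl⟩
    refine ⟨X * p, ?_⟩
    rw [hΦ, hΦ, map_mul, aeval_X, Module.End.mul_apply]
  have hW := invariant_eq_ker_pow N hN hnil (range Φ) hinv
  have hvW : v ∈ range Φ := ⟨1, by rw [hΦ]; simp⟩
  have hfr : finrank K V ≤ finrank K (range Φ) := by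
    by_contra hlt
    push Not at hlt
    apply hv
    rw [hW] at hvW
    exact ker_pow_mono N (by omega) hvW
  have htop : range Φ = ⊤ := Submodule.eq_top_of_finrank_eq (le_antisymm (Submodule.finrank_le _) hfr)
  have : w ∈ range Φ := by rw [htop]; trivial
  obtain ⟨p, hp⟩ := this
  exact ⟨p, hp.symm⟩

theorem comm_pow' (N g : Module.End K V) (hg : g * N = N * g) (n : ℕ) (x : V) :
    g ((N ^ n) x) = (N ^ n) (g x) := by
  have h1 : Commute g (N ^ n) := Commute.pow_right hg n
  exact congrArg (fun f => f x) h1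

theorem comm_aeval (N g : Module.End K V) (hg : g * N = N * g) (p : K[X]) (x : V) :
    g (aeval N p x) = aeval N p (g x) := by
  rw [aeval_endomorphism, aeval_endomorphism, Polynomial.sum, Polynomial.sum, map_sum]
  simp [comm_pow' N g hg]

theorem eq_zero_of_apply_cyclic (N : Module.End K V) (hN : finrank K (ker N) ≤ 1) (hnil : N ^ (finrank K V) = 0)
    (v : V) (hv : v ∉ ker (N ^ (finrank K V - 1))) (g : Module.End K V) (hg : g * N = N * g) (hgv : g v = 0) :
    g = 0 := by
  ext w
  obtain ⟨p, rfl⟩ := cyclic_vec N hN hnil v hv w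
  rw [comm_aeval N g hg, hgv]; simp

theorem ker_eq_bot_of_cyclic (N : Module.End K V) (hN : finrank K (ker N) ≤ 1) (hnil : N ^ (finrank K V) = 0)
    (hpos : 1 ≤ finrank K V)
    (v : V) (g : Module.End K V) (hg : g * N = N * g)
    (hgv : g v ∉ ker (N ^ (finrank K V - 1))) : ker g = ⊥ := by
  have hinv : ∀ x ∈ ker g, N x ∈ ker g := by
    intro x hx
    rw [LinearMap.mem_ker] at hx ⊢
    have : g (N x) = N (g x) := congrArg (fun f => f x) hg
    rw [this, hx, map_zero]
  have hW := invariant_eq_ker_pow N hN hnil (ker g) hinv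
  by_contra hne
  have hj : 1 ≤ finrank K (ker g) := by
    rw [Nat.one_le_iff_ne_zero]
    intro h0
    exact hne (Submodule.finrank_eq_zero.1 h0)
  apply hgv
  rw [LinearMap.mem_ker, ← comm_pow' N g hg, ← LinearMap.mem_ker, hW]
  apply ker_pow_mono N hj
  rw [pow_one, LinearMap.mem_ker, ← Module.End.mul_apply, ← pow_succ', Nat.sub_add_cancel hpos, hnil]
  rfl

theorem apply_not_mem_of_injective (N : Module.End K V)
    (v : V) (hv : v ∉ ker (N ^ (finrank K V - 1))) (g : Module.End K V) (hg : g * N = N * g)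
    (hinj : Function.Injective g) : g v ∉ ker (N ^ (finrank K V - 1)) := by
  intro h
  apply hv
  rw [LinearMap.mem_ker] at h ⊢
  rw [← comm_pow' N g hg] at h
  exact hinj (by rw [h, map_zero])

theorem card_compl_submodule [Fintype K] (W : Submodule K V) :
    Nat.card {w : V // w ∉ W} = Fintype.card K ^ finrank K V - Fintype.card K ^ finrank K W := by
  classical
  have : Finite V := Module.finite_of_finite K
  have h1 := Nat.card_congr (Equiv.sumCompl (· ∈ W))
  rw [Nat.card_sum] at h1
  have h2 : Nat.card V = Fintype.card K ^ finrank K V := by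
    rw [Module.natCard_eq_pow_finrank (K := K), Nat.card_eq_fintype_card]
  have h3 : Nat.card W = Fintype.card K ^ finrank K W := by
    rw [Module.natCard_eq_pow_finrank (K := K), Nat.card_eq_fintype_card]
  have h4 : Nat.card {a // a ∈ W} = Nat.card W := rfl
  omega


end Cfsg.Agent.Lib.Helper15
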