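import Mathlib
import Cfsg.Agent.Lib.Helper15.GeoBridge
import Cfsg.Agent.Lib.Helper15.Frame

/-!
Over the field with three elements: orthogonal decompositions into small blocks having an orthogonal frame of
constant norm are stabilised by a non-maximal subgroup of `Ω`.
-/

set_option autoImplicit false

namespace Cfsg.Agent.Lib.Helper15

open Matrix QuadraticMap Module

section gen

variable {F V : Type*} [Field F] [AddCommGroup V] [Module F V] (Q : QuadraticForm F V)

theorem Q_sum_orth' {κ : Type*} (s : Finset κ) (y : κ → V) (h : ∀ i j, i ≠ j → polar Q (y i) (y j) = 0) :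
    Q (∑ j ∈ s, y j) = ∑ j ∈ s, Q (y j) := by
  classical
  induction s using Finset.induction_on with
  | empty => simp
  | insert a s ha ih =>
    rw [Finset.sum_insert ha, Finset.sum_insert ha, QuadraticMap.map_add Q, ih]
    have : polar Q (y a) (∑ j ∈ s, y j) = 0 := by
      have e : polar Q (y a) (∑ j ∈ s, y j) = polarBilin Q (y a) (∑ j ∈ s, y j) := rfl
      rw [e, map_sum]
      apply Finset.sum_eq_zero
      intro j hj
      exact h a j (fun h' => ha (h' ▸ hj))
    rw [this, add_zero]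

theorem Q_sub_orth (x y : V) (h : polar Q x y = 0) : Q (x - y) = Q x + Q y := by
  rw [sub_eq_add_neg, QuadraticMap.map_add Q, QuadraticMap.map_neg, polar_neg_right, h]; ring

theorem Q_add_orth (x y : V) (h : polar Q x y = 0) : Q (x + y) = Q x + Q y := by
  rw [QuadraticMap.map_add Q, h]; ring

theorem f3_three [Fintype F] (hq : Fintype.card F = 3) : (3 : F) = 0 := by
  have := Nat.cast_card_eq_zero F
  rw [hq] at this
  exact_mod_cast this

theorem f3_two_ne [Fintype F] (hq : Fintype.card F = 3) : (2 : F) ≠ 0 := by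
  intro h
  have h3 := f3_three hq
  have : (1 : F) = 0 := by linear_combination h3 - h
  exact one_ne_zero this

theorem f3_cases [Fintype F] (hq : Fintype.card F = 3) (x : F) : x = 0 ∨ x = 1 ∨ x = -1 := by
  have h := FiniteField.pow_card x
  rw [hq] at h
  have h' : x * ((x - 1) * (x + 1)) = 0 := by linear_combination h
  rcases mul_eq_zero.1 h' with h0 | h1
  · exact Or.inl h0
  · rcases mul_eq_zero.1 h1 with h1 | h1
    · exact Or.inr (Or.inl (sub_eq_zero.1 h1))
    · exact Or.inr (Or.inr (eq_neg_of_add_eq_zero_left h1))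

/-- a sum of at most three squares equal to one has exactly one non-zero term -/
theorem f3_sum_sq [Fintype F] (hq : Fintype.card F = 3) {k : ℕ} (hk : k ≤ 3) (x : Fin k → F)
    (h : ∑ j, x j * x j = 1) : ∃ j, (x j = 1 ∨ x j = -1) ∧ ∀ l, l ≠ j → x l = 0 := by
  classical
  have h3 := f3_three hq
  have e1 : ∀ j, x j * x j = if x j ≠ 0 then 1 else 0 := by
    intro j
    rcases f3_cases hq (x j) with h0 | h0 | h0 <;> rw [h0] <;> simp
  rw [Finset.sum_congr rfl (fun j _ => e1 j), Finset.sum_boole] at h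
  have hle : (Finset.univ.filter (fun j => x j ≠ 0)).card ≤ 3 := by
    calc _ ≤ (Finset.univ : Finset (Fin k)).card := Finset.card_filter_le _ _
      _ = k := by simp
      _ ≤ 3 := hk
  have hone : (Finset.univ.filter (fun j => x j ≠ 0)).card = 1 := by
    generalize (Finset.univ.filter (fun j => x j ≠ 0)).card = n at h hle
    interval_cases n
    · simp at h
    · rfl
    · exfalso
      have : (1 : F) = 0 := by
        push_cast at h
        linear_combination h
      exact one_ne_zero this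
    · exfalso
      have : (1 : F) = 0 := by
        push_cast at h
        linear_combination h3 - h
      exact one_ne_zero this
  obtain ⟨j, hj⟩ := Finset.card_eq_one.1 hone
  have hmem : ∀ l, x l ≠ 0 ↔ l = j := by
    intro l
    have := Finset.ext_iff.1 hj l
    simpa using this
  refine ⟨j, ?_, ?_⟩
  · rcases f3_cases hq (x j) with h0 | h0
    · exact absurd h0 ((hmem j).2 rfl)
    · exact h0
  · intro l hl
    by_contra h0
    exact hl ((hmem l).1 h0)

theorem exists_unit_frame [Fintype F] [FiniteDimensional F V] (h2 : (2 : F) ≠ 0) (k : ℕ) (W : Submodule F V)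
    (hk : finrank F W = k) (hnd : NDOn Q W) :
    ∃ vs : Fin k → V, (∀ i, vs i ∈ W) ∧ (∀ i, Q (vs i) ≠ 0) ∧ (∀ i j, i ≠ j → polar Q (vs i) (vs j) = 0) ∧
      ∀ i : Fin k, (i : ℕ) + 2 ≤ k → Q (vs i) = 1 := by
  obtain ⟨vs, h1, h3, h4, h5⟩ := exists_frame Q h2 (fun _ => True)
    (fun k w => 2 ≤ k → Q w = 1) (by
      intro W _ hnd hne
      by_cases hk : 2 ≤ finrank F W
      · obtain ⟨v, hv⟩ := exists_represent_nd (Q.comp W.subtype) (by
          intro x hx
          apply Subtype.ext
          apply hnd x x.2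
          intro y hy
          exact hx ⟨y, hy⟩) hk 1
        exact ⟨v, v.2, by rw [show Q (v : V) = 1 from hv]; exact one_ne_zero, fun _ => hv, trivial⟩
      · obtain ⟨w, hwW, hw⟩ := exists_nonsingular_mem Q W hnd hne
        exact ⟨w, hwW, hw, fun h => absurd h hk, trivial⟩) k W hk trivial hnd
  exact ⟨vs, h1, h3, h4, fun i hi => h5 i (by omega)⟩

theorem exists_f3_frame3 [Fintype F] [FiniteDimensional F V] (hq : Fintype.card F = 3) (W : Submodule F V)
    (hk : finrank F W = 3) (hnd : NDOn Q W) :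
    ∃ c : F, c ≠ 0 ∧ ∃ e : Fin 3 → V, (∀ i, e i ∈ W) ∧ (∀ i, Q (e i) = c) ∧
      (∀ i j, i ≠ j → polar Q (e i) (e j) = 0) := by
  have h3 := f3_three hq
  obtain ⟨vs, h1, h2, h4, h5⟩ := exists_unit_frame Q (f3_two_ne hq) 3 W hk hnd
  have q0 : Q (vs 0) = 1 := h5 0 (by simp)
  have q1 : Q (vs 1) = 1 := h5 1 (by simp)
  rcases f3_cases hq (Q (vs 2)) with h0 | h0 | h0
  · exact absurd h0 (h2 2)
  · refine ⟨1, one_ne_zero, vs, h1, ?_, h4⟩
    intro i
    fin_cases i
    · exact q0
    · exact q1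
    · exact h0
  · have p01 : polar Q (vs 0) (vs 1) = 0 := h4 0 1 (by decide)
    have p02 : polar Q (vs 0) (vs 2) = 0 := h4 0 2 (by decide)
    have p12 : polar Q (vs 1) (vs 2) = 0 := h4 1 2 (by decide)
    have p10 : polar Q (vs 1) (vs 0) = 0 := h4 1 0 (by decide)
    have pp0 : polar Q (vs 0) (vs 0) = 2 := by rw [polar_self, q0]; simp
    have pp1 : polar Q (vs 1) (vs 1) = 2 := by rw [polar_self, q1]; simp
    refine ⟨-1, neg_ne_zero.2 one_ne_zero, ![vs 0 + vs 1, vs 0 - vs 1, vs 2], ?_, ?_, ?_⟩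
    · intro i
      fin_cases i
      · exact W.add_mem (h1 0) (h1 1)
      · exact W.sub_mem (h1 0) (h1 1)
      · exact h1 2
    · intro i
      fin_cases i
      · show Q (vs 0 + vs 1) = -1
        rw [Q_add_orth Q _ _ p01, q0, q1]; linear_combination h3
      · show Q (vs 0 - vs 1) = -1
        rw [Q_sub_orth Q _ _ p01, q0, q1]; linear_combination h3
      · exact h0
    · have a1 : polar Q (vs 0 + vs 1) (vs 0 - vs 1) = 0 := by
        rw [polar_add_left, polar_sub_right, polar_sub_right, pp0, pp1, p01, p10]; ring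
      have a2 : polar Q (vs 0 + vs 1) (vs 2) = 0 := by rw [polar_add_left, p02, p12]; ring
      have a3 : polar Q (vs 0 - vs 1) (vs 2) = 0 := by rw [polar_sub_left, p02, p12]; ring
      intro i j hij
      fin_cases i <;> fin_cases j
      · exact absurd rfl hij
      · exact a1
      · exact a2
      · show polar Q (vs 0 - vs 1) (vs 0 + vs 1) = 0
        rw [polar_comm]; exact a1
      · exact absurd rfl hij
      · exact a3
      · show polar Q (vs 2) (vs 0 + vs 1) = 0
        rw [polar_comm]; exact a2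
      · show polar Q (vs 2) (vs 0 - vs 1) = 0
        rw [polar_comm]; exact a3
      · exact absurd rfl hij

theorem exists_f3_frame2 [Fintype F] [FiniteDimensional F V] (hq : Fintype.card F = 3) (W : Submodule F V)
    (hk : finrank F W = 2) (hnd : NDOn Q W) (han : ∀ w ∈ W, Q w = 0 → w = 0) :
    ∃ c : F, c ≠ 0 ∧ ∃ e : Fin 2 → V, (∀ i, e i ∈ W) ∧ (∀ i, Q (e i) = c) ∧
      (∀ i j, i ≠ j → polar Q (e i) (e j) = 0) := by
  obtain ⟨vs, h1, h2, h4, h5⟩ := exists_unit_frame Q (f3_two_ne hq) 2 W hk hnd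
  have q0 : Q (vs 0) = 1 := h5 0 (by simp)
  have p01 : polar Q (vs 0) (vs 1) = 0 := h4 0 1 (by decide)
  rcases f3_cases hq (Q (vs 1)) with h0 | h0 | h0
  · exact absurd h0 (h2 1)
  · refine ⟨1, one_ne_zero, vs, h1, ?_, h4⟩
    intro i
    fin_cases i
    · exact q0
    · exact h0
  · exfalso
    have hz := han (vs 0 + vs 1) (W.add_mem (h1 0) (h1 1)) (by rw [Q_add_orth Q _ _ p01, q0, h0]; ring)
    have : polar Q (vs 0) (vs 0 + vs 1) = 0 := by rw [hz]; simp
    rw [polar_add_right, p01, polar_self, q0] at this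
    simp at this
    exact f3_two_ne hq this

/-- an orthogonal family of non-singular vectors of the right size spans -/
theorem exists_coord_of_frame [FiniteDimensional F V] (h2 : (2 : F) ≠ 0) {κ : Type*} [Fintype κ] (W : Submodule F V)
    (hk : finrank F W = Fintype.card κ) (e : κ → V) (he : ∀ i, e i ∈ W) (hQe : ∀ i, Q (e i) ≠ 0)
    (ho : ∀ i j, i ≠ j → polar Q (e i) (e j) = 0) : ∀ v ∈ W, ∃ x : κ → F, v = ∑ j, x j • e j := by
  have hli : LinearIndependent F e := by
    apply LinearMap.BilinForm.linearIndependent_of_iIsOrtho (B := polarBilin Q)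
    · intro i j hij
      exact ho i j hij
    · intro i h
      exact polar_self_ne_zero Q h2 (hQe i) h
  have hspan : Submodule.span F (Set.range e) = W := by
    apply Submodule.eq_of_le_of_finrank_eq
    · rw [Submodule.span_le]
      rintro _ ⟨i, rfl⟩
      exact he i
    · rw [finrank_span_eq_card hli, hk]
  intro v hv
  rw [← hspan] at hv
  obtain ⟨x, hx⟩ := (Submodule.mem_span_range_iff_exists_fun F).1 hv
  exact ⟨x, hx.symm⟩

end gen

section main

variable {ι : Type} [Fintype ι] [DecidableEq ι] {F : Type*} [Field F] [Fintype F] (Q : QuadraticForm F (ι → F))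

theorem not_maximal_of_frames (hq : Fintype.card F = 3) (hQ : (polarBilin Q).Nondegenerate) {t k : ℕ}
    (D : Fin t → Submodule F (ι → F)) (ht : 5 ≤ t) (hk2 : 2 ≤ k) (hk3 : k ≤ 3) (c : F) (hc : c ≠ 0)
    (e : Fin t → Fin k → ι → F) (he : ∀ i j, e i j ∈ D i) (hQe : ∀ i j, Q (e i j) = c)
    (ho : ∀ i j j', j ≠ j' → polar Q (e i j) (e i j') = 0)
    (hsp : ∀ i, ∀ v ∈ D i, ∃ x : Fin k → F, v = ∑ j, x j • e i j)
    (hD : ∀ i i', i ≠ i' → ∀ u ∈ D i, ∀ v ∈ D i', polar Q u v = 0) :
    ∃ K : Subgroup (GL ι F), Cfsg.Geo.decompositionStabilizer D ⊓ Cfsg.Geo.omegaGL ⇑Q < K ∧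
      K < Cfsg.Geo.omegaGL ⇑Q := by
  classical
  have h3 := f3_three hq
  have h2 := f3_two_ne hq
  have h2c : 2 * c ≠ 0 := mul_ne_zero h2 hc
  let S : Set (ι → F) := {v | ∃ i, v ∈ D i ∧ Q v = c}
  let ee : Fin t × Fin k → ι → F := fun s => e s.1 s.2
  have hpol : ∀ s s', s ≠ s' → polar Q (ee s) (ee s') = 0 := by
    intro s s' hss
    by_cases h1 : s.1 = s'.1
    · obtain ⟨i, j⟩ := s
      obtain ⟨i', j'⟩ := s'
      simp only at h1
      subst h1
      exact ho i j j' (fun h => hss (by rw [h]))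
    · exact hD _ _ h1 _ (he _ _) _ (he _ _)
  have hself : ∀ s, polar Q (ee s) (ee s) = 2 * c := by
    intro s
    rw [polar_self, hQe]; simp
  have heS : ∀ s, ee s ∈ S := fun s => ⟨s.1, he _ _, hQe _ _⟩
  have hnegS : ∀ v, v ∈ S → -v ∈ S := by
    rintro v ⟨i, hv, hQv⟩
    exact ⟨i, (D i).neg_mem hv, by rw [QuadraticMap.map_neg, hQv]⟩
  -- classification of S
  have hcls : ∀ v ∈ S, ∃ s, v = ee s ∨ v = - ee s := by
    rintro v ⟨i, hv, hQv⟩
    obtain ⟨x, rfl⟩ := hsp i v hv
    rw [Q_sum_orth' Q] at hQv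
    · have h1 : ∑ j, x j * x j = 1 := by
        have : ∑ j, Q (x j • e i j) = (∑ j, x j * x j) * c := by
          rw [Finset.sum_mul]
          apply Finset.sum_congr rfl
          intro j _
          rw [QuadraticMap.map_smul, hQe, smul_eq_mul]
        rw [this] at hQv
        exact mul_right_cancel₀ hc (by rw [hQv, one_mul])
      obtain ⟨j, hj, hl⟩ := f3_sum_sq hq hk3 x h1
      refine ⟨(i, j), ?_⟩
      have h4 : ∑ l, x l • e i l = x j • e i j := by
        apply Finset.sum_eq_single j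
        · intro l _ hlj
          rw [hl l hlj, zero_smul]
        · intro h; exact absurd (Finset.mem_univ _) h
      rw [h4]
      rcases hj with hj | hj
      · left; rw [hj, one_smul]
      · right; rw [hj, neg_smul, one_smul]
    · intro j j' hjj
      rw [polar_smul_left, polar_smul_right, ho i j j' hjj]; simp
  -- separation
  have hsep : ∀ s i, ee s ∈ D i → i = s.1 := by
    intro s i hi
    by_contra hne
    have := hD i s.1 hne _ hi _ (he s.1 s.2)
    rw [hself] at this
    exact h2c this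
  -- transposition reflections
  have hQa : ∀ p q, p ≠ q → Q (ee p - ee q) = 2 * c := by
    intro p q hpq
    rw [Q_sub_orth Q _ _ (hpol p q hpq), hQe, hQe]; ring
  have hQa' : ∀ p q, p ≠ q → Q (ee p - ee q) ≠ 0 := fun p q hpq => by rw [hQa p q hpq]; exact h2c
  have hrefl : ∀ p q (hpq : p ≠ q) s, act Q (refl Q (ee p - ee q) (hQa' p q hpq)) (ee s) = ee (Equiv.swap p q s) := by
    intro p q hpq s
    rw [act_refl, hQa p q hpq, polar_sub_left]
    by_cases hsp' : s = p
    · subst hsp'
      rw [hself, hpol q s hpq.symm, Equiv.swap_apply_left, sub_zero, inv_mul_cancel₀ h2c, one_smul]; abel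
    · by_cases hsq : s = q
      · subst hsq
        rw [hself, hpol p s hpq, Equiv.swap_apply_right, zero_sub, mul_neg, inv_mul_cancel₀ h2c, neg_smul, one_smul]
        abel
      · rw [hpol p s (Ne.symm hsp'), hpol q s (Ne.symm hsq), Equiv.swap_apply_of_ne_of_ne hsp' hsq]
        simp
  have hreflS1 : ∀ p q (hpq : p ≠ q) v, v ∈ S → act Q (refl Q (ee p - ee q) (hQa' p q hpq)) v ∈ S := by
    intro p q hpq v hv
    obtain ⟨s, rfl | rfl⟩ := hcls v hv
    · rw [hrefl p q hpq]; exact heS _
    · rw [show act Q (refl Q (ee p - ee q) (hQa' p q hpq)) (- ee s)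
        = - act Q (refl Q (ee p - ee q) (hQa' p q hpq)) (ee s) from Matrix.mulVec_neg _ _, hrefl p q hpq]
      exact hnegS _ (heS _)
  have hreflS : ∀ p q (hpq : p ≠ q) v, v ∈ S ↔ act Q (refl Q (ee p - ee q) (hQa' p q hpq)) v ∈ S := by
    intro p q hpq v
    refine ⟨hreflS1 p q hpq v, fun h => ?_⟩
    have := hreflS1 p q hpq _ h
    rwa [← act_mul, refl_mul_self, act_one] at this
  let K : Subgroup (GL ι F) := Cfsg.stabilizing (Cfsg.glToMat ι F) S ⊓ Cfsg.Geo.omegaGL ⇑Q
  have hKmem : ∀ g : Cfsg.isometryGroup F ⇑Q, ((g : GL ι F) ∈ Cfsg.stabilizing (Cfsg.glToMat ι F) S) ↔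
      ∀ v, v ∈ S ↔ act Q g v ∈ S := fun g => Iff.rfl
  -- indices
  let j0 : Fin k := ⟨0, by omega⟩
  let j1 : Fin k := ⟨1, by omega⟩
  let i0 : Fin t := ⟨0, by omega⟩
  let i1 : Fin t := ⟨1, by omega⟩
  let i2 : Fin t := ⟨2, by omega⟩
  let i3 : Fin t := ⟨3, by omega⟩
  let i4 : Fin t := ⟨4, by omega⟩
  have hne : ∀ (a b : ℕ) (ha : a < t) (hb : b < t), a ≠ b → ((⟨a, ha⟩ : Fin t), j0) ≠ ((⟨b, hb⟩ : Fin t), j0) := by
    intro a b ha hb hab h
    simp only [Prod.mk.injEq, Fin.mk.injEq, and_true] at h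
    exact hab h
  refine ⟨K, ?_, ?_⟩
  · rw [SetLike.lt_iff_le_and_exists]
    constructor
    · rintro g ⟨⟨σ, hσ⟩, hgΩ⟩
      refine ⟨?_, hgΩ⟩
      obtain ⟨g', -, rfl⟩ := (mem_omegaGL _ _).1 hgΩ
      apply (hKmem g').2
      intro v
      constructor
      · rintro ⟨i, hv, hQv⟩
        refine ⟨σ i, ?_, by rw [Q_act, hQv]⟩
        rw [← hσ i]
        exact ⟨v, hv, by rw [Matrix.toLin'_apply]⟩
      · rintro ⟨i, hv, hQv⟩
        refine ⟨σ.symm i, ?_, by rw [← hQv, Q_act]⟩
        have h5 := hσ (σ.symm i)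
        rw [Equiv.apply_symm_apply] at h5
        rw [← h5] at hv
        obtain ⟨w, hw, hwv⟩ := hv
        rw [Matrix.toLin'_apply] at hwv
        rw [← mulVec_injective_GL _ hwv]
        exact hw
    · have n01 := hne 0 1 (by omega) (by omega) (by omega)
      have n23 := hne 2 3 (by omega) (by omega) (by omega)
      let g₁ : Cfsg.isometryGroup F ⇑Q := refl Q _ (hQa' _ _ n01) * refl Q _ (hQa' _ _ n23)
      refine ⟨(g₁ : GL ι F), ⟨?_, ?_⟩, ?_⟩
      · apply (hKmem g₁).2
        intro v
        rw [act_mul, ← hreflS _ _ n01, ← hreflS _ _ n23]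
      · exact (mem_omegaGL _ _).2 ⟨g₁, refl_mul_refl_mem Q hQ _ _ _ _ (by rw [hQa _ _ n01, hQa _ _ n23]), rfl⟩
      · rintro ⟨⟨σ, hσ⟩, -⟩
        have hmap : ∀ s : Fin t × Fin k, s.1 = i0 → act Q g₁ (ee s) ∈ D (σ i0) := by
          intro s hs
          rw [← hσ i0]
          exact ⟨ee s, by rw [← hs]; exact he _ _, by rw [Matrix.toLin'_apply]⟩
        have m1 := hmap (i0, j0) rfl
        have m2 := hmap (i0, j1) rfl
        rw [act_mul, hrefl _ _ n23, hrefl _ _ n01] at m1 m2
        have e1 := hsep _ _ m1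
        have e2 := hsep _ _ m2
        rw [Equiv.swap_apply_of_ne_of_ne (hne 0 2 (by omega) (by omega) (by omega))
          (hne 0 3 (by omega) (by omega) (by omega)), Equiv.swap_apply_left] at e1
        have hj01 : ∀ i i' : Fin t, (i, j1) ≠ (i', j0) := by
          intro i i' h
          simp only [Prod.mk.injEq, j0, j1, Fin.mk.injEq] at h
          omega
        rw [Equiv.swap_apply_of_ne_of_ne (hj01 _ _) (hj01 _ _),
          Equiv.swap_apply_of_ne_of_ne (hj01 _ _) (hj01 _ _)] at e2
        rw [e1] at e2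
        simp [i0] at e2
  · rw [SetLike.lt_iff_le_and_exists]
    refine ⟨inf_le_right, ?_⟩
    set E0 := ee (i0, j0) with hE0
    set E1 := ee (i1, j0) with hE1
    set E2 := ee (i2, j0) with hE2
    set E3 := ee (i3, j0) with hE3
    set E4 := ee (i4, j0) with hE4
    have p01 : polar Q E0 E1 = 0 := hpol _ _ (hne 0 1 (by omega) (by omega) (by omega))
    have p02 : polar Q E0 E2 = 0 := hpol _ _ (hne 0 2 (by omega) (by omega) (by omega))
    have p03 : polar Q E0 E3 = 0 := hpol _ _ (hne 0 3 (by omega) (by omega) (by omega))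
    have p12 : polar Q E1 E2 = 0 := hpol _ _ (hne 1 2 (by omega) (by omega) (by omega))
    have p13 : polar Q E1 E3 = 0 := hpol _ _ (hne 1 3 (by omega) (by omega) (by omega))
    have p23 : polar Q E2 E3 = 0 := hpol _ _ (hne 2 3 (by omega) (by omega) (by omega))
    have p40 : polar Q E4 E0 = 0 := hpol _ _ (hne 4 0 (by omega) (by omega) (by omega))
    have p00 : polar Q E0 E0 = 2 * c := hself _
    have p11 : polar Q E1 E1 = 2 * c := hself _
    have p22 : polar Q E2 E2 = 2 * c := hself _
    have hQA : Q (E0 + E1 + E2 + E3) = c := by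
      rw [Q_add_orth Q _ _ (by rw [polar_add_left, polar_add_left, p03, p13, p23]; ring),
        Q_add_orth Q _ _ (by rw [polar_add_left, p02, p12]; ring), Q_add_orth Q _ _ p01]
      simp only [hE0, hE1, hE2, hE3, ee, hQe]
      linear_combination c * h3
    have hQA' : Q (E0 + E1 + E2 + E3) ≠ 0 := by rw [hQA]; exact hc
    have hQ4 : Q E4 = c := hQe _ _
    have hQ4' : Q E4 ≠ 0 := by rw [hQ4]; exact hc
    let h : Cfsg.isometryGroup F ⇑Q := refl Q _ hQA' * refl Q _ hQ4'
    refine ⟨(h : GL ι F), (mem_omegaGL _ _).2 ⟨h, refl_mul_refl_mem Q hQ _ _ _ _ (by rw [hQA, hQ4]), rfl⟩, ?_⟩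
    rintro ⟨hst, -⟩
    obtain ⟨j, hj, -⟩ := ((hKmem h).1 hst E0).1 (heS _)
    have hval : act Q h E0 = E0 - (2 : F) • (E0 + E1 + E2 + E3) := by
      rw [act_mul, act_refl Q E4, p40, mul_zero, zero_smul, sub_zero, act_refl, hQA, polar_add_left, polar_add_left,
        polar_add_left, p00, polar_comm Q E1, p01, polar_comm Q E2, p02, polar_comm Q E3, p03]
      congr 2
      field_simp
      ring
    rw [hval] at hj
    have hc4 : (2 : F) * (2 * c) ≠ 0 := mul_ne_zero h2 h2c
    by_cases hj1 : j = i1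
    · have := hD j i2 (by rw [hj1]; simp [i1, i2]) _ hj E2 (he _ _)
      rw [polar_sub_left, polar_smul_left, polar_add_left, polar_add_left, polar_add_left, p02, p12, p22,
        polar_comm Q E3, p23] at this
      apply hc4
      simp only [smul_eq_mul] at this
      linear_combination -this
    · have := hD j i1 hj1 _ hj E1 (he _ _)
      rw [polar_sub_left, polar_smul_left, polar_add_left, polar_add_left, polar_add_left, p01, p11,
        polar_comm Q E2, p12, polar_comm Q E3, p13] at this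
      apply hc4
      simp only [smul_eq_mul] at this
      linear_combination -this

end main

end Cfsg.Agent.Lib.Helper15
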