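import Mathlib
import Cfsg.Agent.Lib.Helper15.F3Frame

/-!
Three pairwise orthogonal isometric blocks: a subgroup of `Ω` acting "diagonally" on them is not maximal.
-/

set_option autoImplicit false

namespace Cfsg.Agent.Lib.Helper15

open Matrix QuadraticMap Module

variable {ι : Type} [Fintype ι] [DecidableEq ι] {F : Type*} [Field F] [Fintype F] (Q : QuadraticForm F (ι → F))

theorem not_maximal_of_three_blocks (h2 : (2 : F) ≠ 0) (hQ : (polarBilin Q).Nondegenerate)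
    {W : Type*} [AddCommGroup W] [Module F W] (τ : Fin 3 → W →ₗ[F] (ι → F)) (β : W → W → F)
    (hτ : ∀ i j w w', polar Q (τ i w) (τ j w') = if i = j then β w w' else 0)
    (hβ : ∀ w, (∀ w', β w w' = 0) → w = 0)
    (w₀ w₁ : W) (hw₀ : β w₀ w₀ ≠ 0) (hw₁ : w₁ ≠ 0) (h01 : β w₀ w₁ = 0)
    (T : Subgroup (GL ι F))
    (hT : ∀ g ∈ T ⊓ Cfsg.Geo.omegaGL ⇑Q, ∃ (σ : Fin 3 → Fin 3) (s : Fin 3 → F) (b : W → W),
      ∀ i w, (g : Matrix ι ι F) *ᵥ τ i w = s i • τ (σ i) (b w)) :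
    ∃ K : Subgroup (GL ι F), T ⊓ Cfsg.Geo.omegaGL ⇑Q < K ∧ K < Cfsg.Geo.omegaGL ⇑Q := by
  classical
  let S : Set (ι → F) := {v | ∃ i w, v = τ i w}
  have hw₀0 : w₀ ≠ 0 := by
    rintro rfl
    apply hw₀
    have := hτ 0 0 0 0
    rw [map_zero, if_pos rfl] at this
    rw [← this]; simp
  -- separation
  have hsep : ∀ i j w w', w ≠ 0 → τ i w = τ j w' → i = j ∧ w = w' := by
    intro i j w w' hw h
    have hij : i = j := by
      by_contra hij
      apply hw
      apply hβ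
      intro w''
      have h1 := hτ i i w w''
      rw [if_pos rfl, h, hτ j i, if_neg (Ne.symm hij)] at h1
      exact h1.symm
    subst hij
    refine ⟨rfl, ?_⟩
    rw [← sub_eq_zero]
    apply hβ
    intro w''
    have h1 := hτ i i (w - w') w''
    rw [if_pos rfl, map_sub, h, sub_self] at h1
    rw [← h1]; simp
  have hQτ : ∀ i w, 2 * Q (τ i w) = β w w := by
    intro i w
    have h1 := hτ i i w w
    rw [if_pos rfl, polar_self] at h1
    rw [← h1]; simp
  have hQeq : ∀ i j w, Q (τ i w) = Q (τ j w) := by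
    intro i j w
    apply mul_left_cancel₀ h2
    rw [hQτ, hQτ]
  have hQne : ∀ i, Q (τ i w₀) ≠ 0 := by
    intro i h
    have := hQτ i w₀
    rw [h, mul_zero] at this
    exact hw₀ this.symm
  have hfix : ∀ v (hv : Q v ≠ 0) x, polar Q v x = 0 → act Q (refl Q v hv) x = x := by
    intro v hv x h
    rw [act_refl, h, mul_zero, zero_smul, sub_zero]
  -- reflections in block vectors preserve S
  have hrS1 : ∀ i w (hw : Q (τ i w) ≠ 0) v, v ∈ S → act Q (refl Q (τ i w) hw) v ∈ S := by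
    rintro i w hw _ ⟨j, w', rfl⟩
    rw [act_refl]
    by_cases hij : i = j
    · subst hij
      exact ⟨i, w' - ((Q (τ i w))⁻¹ * polar Q (τ i w) (τ i w')) • w, by rw [map_sub, map_smul]⟩
    · rw [hτ, if_neg hij, mul_zero, zero_smul, sub_zero]
      exact ⟨j, w', rfl⟩
  have hrS : ∀ i w (hw : Q (τ i w) ≠ 0) v, v ∈ S ↔ act Q (refl Q (τ i w) hw) v ∈ S := by
    intro i w hw v
    refine ⟨hrS1 i w hw v, fun h => ?_⟩
    have := hrS1 i w hw _ h
    rwa [← act_mul, refl_mul_self, act_one] at this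
  let K : Subgroup (GL ι F) := Cfsg.stabilizing (Cfsg.glToMat ι F) S ⊓ Cfsg.Geo.omegaGL ⇑Q
  have hKmem : ∀ g : GL ι F, (g ∈ Cfsg.stabilizing (Cfsg.glToMat ι F) S) ↔
      ∀ v, v ∈ S ↔ (g : Matrix ι ι F) *ᵥ v ∈ S := fun g => Iff.rfl
  have hTS : ∀ g ∈ T ⊓ Cfsg.Geo.omegaGL ⇑Q, ∀ v ∈ S, (g : Matrix ι ι F) *ᵥ v ∈ S := by
    rintro g hg _ ⟨i, w, rfl⟩
    obtain ⟨σ, s, b, h⟩ := hT g hg
    exact ⟨σ i, s i • b w, by rw [h, map_smul]⟩
  refine ⟨K, ?_, ?_⟩
  · rw [SetLike.lt_iff_le_and_exists]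
    constructor
    · intro g hg
      refine ⟨(hKmem g).2 fun v => ⟨hTS g hg v, fun h => ?_⟩, hg.2⟩
      have := hTS g⁻¹ (inv_mem hg) _ h
      rwa [Matrix.mulVec_mulVec, ← Units.val_mul, inv_mul_cancel, Units.val_one, Matrix.one_mulVec] at this
    · let h₁ : Cfsg.isometryGroup F ⇑Q := refl Q _ (hQne 0) * refl Q _ (hQne 1)
      have hΩ : (h₁ : GL ι F) ∈ Cfsg.Geo.omegaGL ⇑Q :=
        (mem_omegaGL _ _).2 ⟨h₁, refl_mul_refl_mem Q hQ _ _ _ _ (hQeq 0 1 w₀), rfl⟩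
      refine ⟨(h₁ : GL ι F), ⟨(hKmem _).2 fun v => ?_, hΩ⟩, ?_⟩
      · show v ∈ S ↔ act Q h₁ v ∈ S
        rw [act_mul, ← hrS, ← hrS]
      · intro hmem
        obtain ⟨σ, s, b, h⟩ := hT _ ⟨hmem.1, hΩ⟩
        have a2 : ∀ w, act Q h₁ (τ 2 w) = τ 2 w := by
          intro w
          rw [act_mul, hfix (τ 1 w₀) _ (τ 2 w) (by rw [hτ, if_neg (by decide)]),
            hfix _ _ _ (by rw [hτ, if_neg (by decide)])]
        have a0 : act Q h₁ (τ 0 w₀) = τ 0 (-w₀) := by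
          rw [act_mul, hfix (τ 1 w₀) _ (τ 0 w₀) (by rw [hτ, if_neg (by decide)]), act_refl, polar_self, map_neg]
          have : (Q (τ 0 w₀))⁻¹ * (2 • Q (τ 0 w₀)) = 2 := by
            rw [nsmul_eq_mul]; field_simp [hQne 0]; norm_num
          rw [this, two_smul]; abel
        have a1 : act Q h₁ (τ 0 w₁) = τ 0 w₁ := by
          rw [act_mul, hfix (τ 1 w₀) _ (τ 0 w₁) (by rw [hτ, if_neg (by decide)]),
            hfix _ _ _ (by rw [hτ, if_pos rfl, h01])]
        have b2 : ∀ w, w ≠ 0 → w = s 2 • b w := by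
          intro w hw
          have h3 : τ 2 w = τ (σ 2) (s 2 • b w) := by rw [map_smul, ← h]; exact (a2 w).symm
          exact (hsep _ _ _ _ hw h3).2
        have c0 : -w₀ = s 0 • b w₀ := by
          have h3 : τ 0 (-w₀) = τ (σ 0) (s 0 • b w₀) := by rw [map_smul, ← h]; exact a0.symm
          exact (hsep _ _ _ _ (neg_ne_zero.2 hw₀0) h3).2
        have c1 : w₁ = s 0 • b w₁ := by
          have h3 : τ 0 w₁ = τ (σ 0) (s 0 • b w₁) := by rw [map_smul, ← h]; exact a1.symm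
          exact (hsep _ _ _ _ hw₁ h3).2
        have d0 : s 2 • (-w₀) = s 0 • w₀ := by
          rw [c0, smul_comm, ← b2 w₀ hw₀0]
        have d1 : s 2 • w₁ = s 0 • w₁ := by
          conv_lhs => rw [c1]
          rw [smul_comm, ← b2 w₁ hw₁]
        have e0 : s 0 = - s 2 := by
          have : (s 0 + s 2) • w₀ = 0 := by rw [add_smul, ← d0, smul_neg]; abel
          rcases smul_eq_zero.1 this with h5 | h5
          · exact eq_neg_of_add_eq_zero_left h5
          · exact absurd h5 hw₀0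
        have e1 : s 0 = s 2 := by
          have : (s 0 - s 2) • w₁ = 0 := by rw [sub_smul, ← d1, sub_self]
          rcases smul_eq_zero.1 this with h5 | h5
          · exact sub_eq_zero.1 h5
          · exact absurd h5 hw₁
        have s20 : s 2 = 0 := by
          have : 2 * s 2 = 0 := by linear_combination e0 - e1
          exact (mul_eq_zero.1 this).resolve_left h2
        apply hw₁
        rw [b2 w₁ hw₁, s20, zero_smul]
  · rw [SetLike.lt_iff_le_and_exists]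
    refine ⟨inf_le_right, ?_⟩
    have p01 : polar Q (τ 0 w₀) (τ 1 w₀) = 0 := by rw [hτ, if_neg (by decide)]
    have p12 : polar Q (τ 1 w₀) (τ 2 w₀) = 0 := by rw [hτ, if_neg (by decide)]
    have hQa : Q (τ 0 w₀ + τ 1 w₀) = β w₀ w₀ := by
      rw [Q_add_orth Q _ _ p01, hQeq 1 0, ← hQτ 0 w₀]; ring
    have hQb : Q (τ 1 w₀ + τ 2 w₀) = β w₀ w₀ := by
      rw [Q_add_orth Q _ _ p12, hQeq 1 0, hQeq 2 0, ← hQτ 0 w₀]; ring
    have hQa' : Q (τ 0 w₀ + τ 1 w₀) ≠ 0 := by rw [hQa]; exact hw₀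
    have hQb' : Q (τ 1 w₀ + τ 2 w₀) ≠ 0 := by rw [hQb]; exact hw₀
    let h₂ : Cfsg.isometryGroup F ⇑Q := refl Q _ hQa' * refl Q _ hQb'
    refine ⟨(h₂ : GL ι F), (mem_omegaGL _ _).2 ⟨h₂, refl_mul_refl_mem Q hQ _ _ _ _ (by rw [hQa, hQb]), rfl⟩, ?_⟩
    rintro ⟨hst, -⟩
    obtain ⟨j, w, hj⟩ := ((hKmem _).1 hst (τ 0 (w₀ + w₁))).1 ⟨0, _, rfl⟩
    have hval : act Q h₂ (τ 0 (w₀ + w₁)) = τ 0 w₁ - τ 1 w₀ := by
      rw [act_mul, hfix (τ 1 w₀ + τ 2 w₀) _ (τ 0 (w₀ + w₁))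
          (by rw [polar_add_left, hτ, if_neg (by decide), hτ, if_neg (by decide), add_zero]),
        act_refl, hQa, polar_add_left, hτ 1 0, if_neg (by decide), add_zero, map_add,
        polar_add_right, hτ, hτ, if_pos rfl, if_pos rfl, h01, add_zero, inv_mul_cancel₀ hw₀, one_smul]
      abel
    have hj' : τ 0 w₁ - τ 1 w₀ = τ j w := by rw [← hval]; exact hj
    by_cases hj0 : j = 0
    · have h5 := congrArg (fun v => polar Q v (τ 1 w₀)) hj'
      rw [polar_sub_left, hτ, hτ, hτ, if_neg (by decide), if_pos rfl, hj0, if_neg (by decide)] at h5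
      apply hw₀
      linear_combination -h5
    · apply hw₁
      apply hβ
      intro w''
      have h5 := congrArg (fun v => polar Q v (τ 0 w'')) hj'
      rw [polar_sub_left, hτ, hτ, hτ, if_pos rfl, if_neg (by decide), if_neg hj0] at h5
      linear_combination h5

end Cfsg.Agent.Lib.Helper15
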