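import Mathlib
import Cfsg.Agent.Lib.Helper15.NF2
import Cfsg.Agent.Lib.Helper15.Invol2

set_option autoImplicit false

namespace Cfsg.Agent.Lib.Helper15

open Matrix QuadraticMap Module

variable {ι : Type} [Fintype ι] [DecidableEq ι] {F : Type*} [Field F]
  {Q : QuadraticForm F (ι → F)}

/-- `t - 1` as a linear map -/
def nilL (t : Cfsg.isometryGroup F ⇑Q) : (ι → F) →ₗ[F] (ι → F) :=
  Matrix.mulVecLin ((t : GL ι F) : Matrix ι ι F) - LinearMap.id

theorem nilL_apply (t : Cfsg.isometryGroup F ⇑Q) (x : ι → F) : nilL t x = act Q t x - x := rfl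

theorem nilRange_eq_range (t : Cfsg.isometryGroup F ⇑Q) : nilRange t = LinearMap.range (nilL t) := rfl

theorem nilL_adj {t : Cfsg.isometryGroup F ⇑Q} (ht : t * t = 1) (x y : ι → F) :
    polarBilin Q (nilL t x) y = polarBilin Q x (nilL t y) := polar_nil ht x y

/-- the symmetric form `B(x, (t-1) y)` -/
abbrev betaT (t : Cfsg.isometryGroup F ⇑Q) : LinearMap.BilinForm F (ι → F) :=
  LinearMap.BilinForm.compRight (polarBilin Q) (nilL t)

theorem betaT_apply (t : Cfsg.isometryGroup F ⇑Q) (x y : ι → F) : betaT t x y = polar Q x (act Q t y - y) := rfl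

theorem betaT_self [CharP F 2] (t : Cfsg.isometryGroup F ⇑Q) (x : ι → F) : betaT t x x = Q (act Q t x - x) := by
  rw [betaT_apply, Q_nil, polar_sub_right, polar_self, two_smul, CharTwo.add_self_eq_zero, sub_zero, polar_comm]

theorem betaT_symm {t : Cfsg.isometryGroup F ⇑Q} (ht : t * t = 1) (x y : ι → F) : betaT t x y = betaT t y x := by
  rw [betaT_apply, betaT_apply, ← polar_nil ht, polar_comm]

theorem nd_left (hQ : (polarBilin Q).Nondegenerate) (x : ι → F) (h : ∀ y, polarBilin Q x y = 0) : x = 0 := hQ.1 x h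

theorem isConj_of_std [Finite F] [CharP F 2] (hQ : (polarBilin Q).Nondegenerate) {t s : Cfsg.isometryGroup F ⇑Q}
    (ht : t * t = 1) (hs : s * s = 1) {κ : Type*} [Fintype κ] [DecidableEq κ] {σ : κ → κ}
    (hσ : Function.Involutive σ) (v v' : κ → ι → F) (hv : StdGram (betaT t) σ v)
    (hp : ∀ x, (∀ i, betaT t (v i) x = 0) → ∀ y, betaT t x y = 0) (hv' : StdGram (betaT s) σ v')
    (hp' : ∀ x, (∀ i, betaT s (v' i) x = 0) → ∀ y, betaT s x y = 0) : IsConj t s := by
  have hli := nil_li hσ hv
  have hli' := nil_li hσ hv'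
  have hQsum : ∀ (t : Cfsg.isometryGroup F ⇑Q) (v : κ → ι → F), StdGram (betaT t) σ v → ∀ c : κ → F,
      Q (∑ j, c j • nilL t (v j)) = ∑ i, c i * c (σ i) := by
    intro t v hv c
    rw [← hv.sum_sum hσ c, betaT_self, ← nilL_apply, map_sum (nilL t)]
    simp only [map_smul]
  let b := Basis.span hli
  let b' := Basis.span hli'
  obtain ⟨h, hh1, hh2⟩ := Cfsg.Agent.S0750.result Q hQ _ _ (b.equiv b' (Equiv.refl κ)) (by
    intro x
    have e1 : x = ∑ j, b.repr x j • b j := (b.sum_repr x).symm
    have e2 : (x : ι → F) = ∑ j, b.repr x j • nilL t (v j) := by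
      conv_lhs => rw [e1]
      rw [Submodule.coe_sum]
      apply Finset.sum_congr rfl
      intro j _
      rw [Submodule.coe_smul, Basis.span_apply]
    have e3 : ((b.equiv b' (Equiv.refl κ) x : _) : ι → F) = ∑ j, b.repr x j • nilL s (v' j) := by
      conv_lhs => rw [e1]
      rw [map_sum, Submodule.coe_sum]
      apply Finset.sum_congr rfl
      intro j _
      rw [map_smul, Basis.equiv_apply, Submodule.coe_smul, Basis.span_apply]
      rfl
    rw [e2, e3, hQsum t v hv, hQsum s v' hv'])
  have hh3 : ∀ j, h (nilL t (v j)) = nilL s (v' j) := by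
    intro j
    have := hh2 (b j)
    rw [Basis.equiv_apply, Basis.span_apply, Basis.span_apply] at this
    exact this
  have hpol : ∀ u v, polar Q (h u) (h v) = polar Q u v := by
    intro u v
    unfold polar
    rw [← map_add, hh1, hh1, hh1]
  rw [isConj_iff]
  refine ⟨ofIsometry Q h hh1, ?_⟩
  rw [mul_inv_eq_iff_eq_mul]
  apply iso_ext
  intro x
  rw [act_mul, act_mul, act_ofIsometry, act_ofIsometry]
  have f1 := nil_formula (nd_left hQ) (nilL_adj ht) hσ hv hp x
  have f2 := nil_formula (nd_left hQ) (nilL_adj hs) hσ hv' hp' (h x)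
  have e1 : act Q t x = x + nilL t x := by rw [nilL_apply]; abel
  have e2 : act Q s (h x) = h x + nilL s (h x) := by rw [nilL_apply]; abel
  rw [e1, e2, map_add, f1, f2, map_sum]
  congr 1
  apply Finset.sum_congr rfl
  intro j _
  rw [map_smul, hh3, ← hh3 (σ j)]
  congr 1
  exact (hpol _ _).symm

theorem finrank_nilRange_conj {t s c : Cfsg.isometryGroup F ⇑Q} (h : c * t * c⁻¹ = s) :
    finrank F (nilRange s) = finrank F (nilRange t) := by
  rw [nilRange_conj h]
  exact LinearEquiv.finrank_map_eq (glEquiv (c : GL ι F)) (nilRange t)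

theorem ts_nilRange_conj {t s c : Cfsg.isometryGroup F ⇑Q} (h : c * t * c⁻¹ = s)
    (hts : ∀ y ∈ nilRange t, Q y = 0) : ∀ y ∈ nilRange s, Q y = 0 := by
  rw [nilRange_conj h]
  rintro _ ⟨x, hx, rfl⟩
  have : Q (act Q c x) = Q x := Q_act c x
  rw [← hts x hx, ← this]
  rfl

/-- classification of the involutions of an orthogonal group in characteristic two -/
theorem isConj_iff_invol [Finite F] [CharP F 2] (hQ : (polarBilin Q).Nondegenerate) {t s : Cfsg.isometryGroup F ⇑Q}
    (ht : t * t = 1) (hs : s * s = 1) :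
    IsConj t s ↔ finrank F (nilRange t) = finrank F (nilRange s) ∧
      ((∀ y ∈ nilRange t, Q y = 0) ↔ ∀ y ∈ nilRange s, Q y = 0) := by
  constructor
  · intro h
    obtain ⟨c, hc⟩ := isConj_iff.1 h
    refine ⟨(finrank_nilRange_conj hc).symm, ts_nilRange_conj hc, ?_⟩
    apply ts_nilRange_conj (c := c⁻¹)
    rw [← hc]; group
  · rintro ⟨hr, hty⟩
    have hperf : ∀ a : F, ∃ b, b * b = a := by
      intro a
      have := Fintype.ofFinite F
      obtain ⟨b, hb⟩ := FiniteField.isSquare_of_char_two (ringChar.eq F 2) a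
      exact ⟨b, hb.symm⟩
    by_cases hτ : ∀ y ∈ nilRange t, Q y = 0
    · have halt : ∀ t : Cfsg.isometryGroup F ⇑Q, (∀ y ∈ nilRange t, Q y = 0) → (betaT t).IsAlt := by
        intro t h x
        rw [betaT_self]
        exact h _ ((mem_nilRange t _).2 ⟨x, rfl⟩)
      obtain ⟨k, v, hv, hp⟩ := exists_hyperbolic (halt t hτ)
      obtain ⟨k', v', hv', hp'⟩ := exists_hyperbolic (halt s (hty.1 hτ))
      have e1 := nil_finrank (nd_left hQ) (nilL_adj ht) Sum.swap_swap hv hp
      have e2 := nil_finrank (nd_left hQ) (nilL_adj hs) Sum.swap_swap hv' hp'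
      rw [← nilRange_eq_range] at e1 e2
      have : k = k' := by
        simp only [Fintype.card_sum, Fintype.card_fin] at e1 e2
        omega
      subst this
      exact isConj_of_std hQ ht hs Sum.swap_swap v v' hv hp hv' hp'
    · have hna : ∀ t : Cfsg.isometryGroup F ⇑Q, (¬ ∀ y ∈ nilRange t, Q y = 0) → ∃ x, betaT t x x ≠ 0 := by
        intro t h
        push Not at h
        obtain ⟨y, hy, hy0⟩ := h
        obtain ⟨x, rfl⟩ := (mem_nilRange t y).1 hy
        exact ⟨x, by rw [betaT_self]; exact hy0⟩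
      obtain ⟨k, v, hv, hp⟩ := exists_orthonormal hperf (betaT_symm ht) (hna t hτ)
      obtain ⟨k', v', hv', hp'⟩ := exists_orthonormal hperf (betaT_symm hs) (hna s (fun h => hτ (hty.2 h)))
      have e1 := nil_finrank (nd_left hQ) (nilL_adj ht) (fun _ => rfl) hv hp
      have e2 := nil_finrank (nd_left hQ) (nilL_adj hs) (fun _ => rfl) hv' hp'
      rw [← nilRange_eq_range] at e1 e2
      have : k = k' := by
        simp only [Fintype.card_fin] at e1 e2
        omega
      subst this
      exact isConj_of_std hQ ht hs (fun _ => rfl) v v' hv hp hv' hp'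

end Cfsg.Agent.Lib.Helper15
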