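import Mathlib
import Cfsg.Agent.Lib.Helper15.NF3

set_option autoImplicit false

namespace Cfsg.Agent.Lib.Helper15

open Matrix QuadraticMap Module

variable {ι : Type} [Fintype ι] [DecidableEq ι] {F : Type*} [Field F]
  {Q : QuadraticForm F (ι → F)}

theorem Q_sum_orth {κ : Type*} (s : Finset κ) (y : κ → ι → F) (h : ∀ i j, polar Q (y i) (y j) = 0) :
    Q (∑ j ∈ s, y j) = ∑ j ∈ s, Q (y j) := by
  classical
  induction s using Finset.induction_on with
  | empty => simp
  | insert a s ha ih =>
    rw [Finset.sum_insert ha, Finset.sum_insert ha, QuadraticMap.map_add Q, ih]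
    have : polar Q (y a) (∑ j ∈ s, y j) = 0 := by
      have e : polar Q (y a) (∑ j ∈ s, y j) = polarBilin Q (y a) (∑ j ∈ s, y j) := rfl
      rw [e, map_sum]
      apply Finset.sum_eq_zero
      intro j _
      exact h a j
    rw [this, add_zero]

theorem exists_invol_of_family [CharP F 2] (hQ : (polarBilin Q).Nondegenerate) {κ : Type*} [Fintype κ]
    [DecidableEq κ] (σ : κ → κ) (hσ : Function.Involutive σ) (w d : κ → ι → F)
    (hww : ∀ i j, polar Q (w i) (w j) = 0) (hwd : ∀ i j, polar Q (w i) (d j) = if i = j then 1 else 0)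
    (hQw : ∀ j, Q (w j) = if σ j = j then 1 else 0) :
    ∃ t : Cfsg.isometryGroup F ⇑Q, t * t = 1 ∧ finrank F (nilRange t) = Fintype.card κ ∧
      ((∀ y ∈ nilRange t, Q y = 0) ↔ ∀ j, σ j ≠ j) := by
  let N : (ι → F) →ₗ[F] (ι → F) := ∑ j, (polarBilin Q (w (σ j))).smulRight (w j)
  have hN : ∀ x, N x = ∑ j, polar Q (w (σ j)) x • w j := by
    intro x
    simp only [N, LinearMap.sum_apply, LinearMap.smulRight_apply, polarBilin_apply_apply]
  have hNw : ∀ l, N (w l) = 0 := by
    intro l
    rw [hN]
    apply Finset.sum_eq_zero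
    intro j _
    rw [hww, zero_smul]
  have hNN : ∀ x, N (N x) = 0 := by
    intro x
    conv_lhs => rw [hN x]
    rw [map_sum]
    apply Finset.sum_eq_zero
    intro j _
    rw [map_smul, hNw, smul_zero]
  have hQN : ∀ x, Q (N x) = ∑ j, polar Q (w (σ j)) x * polar Q (w (σ j)) x * Q (w j) := by
    intro x
    rw [hN, Q_sum_orth]
    · apply Finset.sum_congr rfl
      intro j _
      rw [QuadraticMap.map_smul, smul_eq_mul]
    · intro i j
      rw [polar_smul_left, polar_smul_right, hww]; simp
  have hpN : ∀ x, polar Q x (N x) = ∑ j, polar Q (w (σ j)) x * polar Q (w j) x := by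
    intro x
    have e : polar Q x (N x) = polarBilin Q x (N x) := rfl
    rw [e, hN, map_sum]
    apply Finset.sum_congr rfl
    intro j _
    rw [map_smul, smul_eq_mul, polarBilin_apply_apply, polar_comm Q x]
  have hQT : ∀ x, Q (x + N x) = Q x := by
    intro x
    rw [QuadraticMap.map_add Q, hQN, hpN, add_assoc, ← Finset.sum_add_distrib]
    have : ∑ j, (polar Q (w (σ j)) x * polar Q (w (σ j)) x * Q (w j) + polar Q (w (σ j)) x * polar Q (w j) x) = 0 := by
      apply Finset.sum_involution (fun j _ => σ j)
      · intro j _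
        rw [hσ j, hQw, hQw, hσ j]
        by_cases hj : σ j = j
        · rw [if_pos hj, if_pos (by rw [hj]), hj]
          linear_combination (2 * polar Q (w j) x * polar Q (w j) x) * (CharTwo.two_eq_zero (R := F))
        · rw [if_neg hj, if_neg (fun h => hj h.symm)]
          linear_combination (polar Q (w j) x * polar Q (w (σ j)) x) * (CharTwo.two_eq_zero (R := F))
      · intro j _ hne hj
        apply hne
        rw [hQw, if_pos hj, hj]
        linear_combination (polar Q (w j) x * polar Q (w j) x) * (CharTwo.two_eq_zero (R := F))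
      · intro j _; exact Finset.mem_univ _
      · intro j _; exact hσ j
    rw [this, add_zero]
  let T : (ι → F) →ₗ[F] (ι → F) := LinearMap.id + N
  have hT : ∀ x, T x = x + N x := fun x => rfl
  have hTT : Function.Involutive T := by
    intro x
    rw [hT, hT, map_add, hNN, add_zero, add_assoc]
    have : N x + N x = 0 := by
      rw [← two_smul F, CharTwo.two_eq_zero, zero_smul]
    rw [this, add_zero]
  let t : Cfsg.isometryGroup F ⇑Q := ofIsometry Q (LinearEquiv.ofInvolutive T hTT) (fun x => hQT x)
  have hact : ∀ x, act Q t x = x + N x := fun x => act_ofIsometry Q _ _ x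
  have htt : t * t = 1 := by
    apply iso_ext
    intro x
    rw [act_mul, act_one, hact, hact]
    exact hTT x
  have hnil : ∀ x, nilL t x = N x := by
    intro x
    rw [nilL_apply, hact]; abel
  have hNd : ∀ j, N (d j) = w (σ j) := by
    intro j
    rw [hN, Finset.sum_eq_single (σ j)]
    · rw [hσ j, hwd, if_pos rfl, one_smul]
    · intro l _ hl
      rw [hwd, if_neg, zero_smul]
      intro h
      apply hl
      rw [← h, hσ l]
    · intro h; exact absurd (Finset.mem_univ _) h
  have hv : StdGram (betaT t) σ d := by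
    intro i j
    rw [betaT_apply, ← nilL_apply, hnil, hNd, polar_comm, hwd]
    simp only [eq_comm]
  have hp : ∀ x, (∀ i, betaT t (d i) x = 0) → ∀ y, betaT t x y = 0 := by
    intro x hx y
    have h0 : N x = 0 := by
      rw [hN]
      apply Finset.sum_eq_zero
      intro j _
      have h1 := hx j
      rw [betaT_apply, ← nilL_apply, hnil, hN] at h1
      have e : polar Q (d j) (∑ l, polar Q (w (σ l)) x • w l)
          = polarBilin Q (d j) (∑ l, polar Q (w (σ l)) x • w l) := rfl
      rw [e, map_sum, Finset.sum_eq_single j] at h1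
      · rw [map_smul, polarBilin_apply_apply, polar_comm Q (d j), hwd, if_pos rfl, smul_eq_mul, mul_one] at h1
        rw [h1, zero_smul]
      · intro l _ hl
        rw [map_smul, polarBilin_apply_apply, polar_comm Q (d j), hwd, if_neg hl, smul_zero]
      · intro h; exact absurd (Finset.mem_univ _) h
    rw [betaT_symm htt, betaT_apply, ← nilL_apply, hnil, h0]
    simp
  refine ⟨t, htt, ?_, ?_⟩
  · rw [nilRange_eq_range]
    exact nil_finrank (nd_left hQ) (nilL_adj htt) hσ hv hp
  · constructor
    · intro h j hj
      have h1 := h (w j) ((mem_nilRange t _).2 ⟨d (σ j), by rw [← nilL_apply, hnil, hNd, hσ j]⟩)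
      rw [hQw, if_pos hj] at h1
      exact one_ne_zero h1
    · intro h y hy
      obtain ⟨x, rfl⟩ := (mem_nilRange t y).1 hy
      rw [← nilL_apply, hnil, hQN]
      apply Finset.sum_eq_zero
      intro j _
      rw [hQw, if_neg (h j), mul_zero]

end Cfsg.Agent.Lib.Helper15
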