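import Mathlib
import Cfsg.Agent.Lib.Helper15.NF4
import Cfsg.Agent.Lib.Helper18.Symp1

set_option autoImplicit false

namespace Cfsg.Agent.Lib.Helper15

open Matrix QuadraticMap Module Cfsg.Agent.Lib.Helper18

theorem card_classes_eq {G β : Type*} [Group G] [DecidableEq β] (P : G → Prop) (inv : G → β) (S : Finset β)
    (h1 : ∀ g h, P g → P h → (IsConj g h ↔ inv g = inv h)) (h2 : ∀ g, P g → inv g ∈ S)
    (h3 : ∀ b ∈ S, ∃ g, P g ∧ inv g = b) :
    Nat.card {C : ConjClasses G // ∃ g, ConjClasses.mk g = C ∧ P g} = S.card := by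
  classical
  have hex : ∀ C : {C : ConjClasses G // ∃ g, ConjClasses.mk g = C ∧ P g}, ∃ g, ConjClasses.mk g = C.1 ∧ P g :=
    fun C => C.2
  choose rep hrep using hex
  let f : {C : ConjClasses G // ∃ g, ConjClasses.mk g = C ∧ P g} → S := fun C => ⟨inv (rep C), h2 _ (hrep C).2⟩
  have hf : Function.Bijective f := by
    constructor
    · intro C C' h
      have h4 : inv (rep C) = inv (rep C') := congrArg Subtype.val h
      have h5 := (h1 _ _ (hrep C).2 (hrep C').2).2 h4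
      apply Subtype.ext
      rw [← (hrep C).1, ← (hrep C').1]
      exact ConjClasses.mk_eq_mk_iff_isConj.2 h5
    · rintro ⟨b, hb⟩
      obtain ⟨g, hg, rfl⟩ := h3 b hb
      refine ⟨⟨ConjClasses.mk g, g, rfl, hg⟩, Subtype.ext ?_⟩
      show inv (rep _) = inv g
      apply (h1 _ _ (hrep _).2 hg).1
      exact ConjClasses.mk_eq_mk_iff_isConj.1 (hrep ⟨ConjClasses.mk g, g, rfl, hg⟩).1
  rw [Nat.card_congr (Equiv.ofBijective f hf), Nat.card_eq_fintype_card, Fintype.card_coe]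

theorem card_even_Icc (n : ℕ) : ((Finset.Icc 1 n).filter Even).card = n / 2 := by
  have : (Finset.Icc 1 n).filter Even = (Finset.Icc 1 (n / 2)).image (fun r => 2 * r) := by
    ext x
    simp only [Finset.mem_filter, Finset.mem_Icc, Finset.mem_image]
    constructor
    · rintro ⟨⟨h1, h2⟩, ⟨k, rfl⟩⟩
      exact ⟨k, ⟨by omega, by omega⟩, by omega⟩
    · rintro ⟨k, ⟨h1, h2⟩, rfl⟩
      exact ⟨⟨by omega, by omega⟩, ⟨k, by omega⟩⟩
  rw [this, Finset.card_image_of_injective _ (fun a b h => by simpa using h), Nat.card_Icc]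
  omega

/-- the invariants (rank, type) of the involution classes -/
def invSet (m ν : ℕ) : Finset (ℕ × Bool) :=
  (Finset.Icc 1 m).image (fun r => (r, false)) ∪ ((Finset.Icc 1 ν).filter Even).image (fun r => (r, true))

theorem card_invSet (m ν : ℕ) : (invSet m ν).card = m + ν / 2 := by
  unfold invSet
  rw [Finset.card_union_of_disjoint, Finset.card_image_of_injective _ (fun a b h => by simpa using h),
    Finset.card_image_of_injective _ (fun a b h => by simpa using h), card_even_Icc, Nat.card_Icc]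
  · omega
  · rw [Finset.disjoint_left]
    intro x hx hx'
    simp only [Finset.mem_image] at hx hx'
    obtain ⟨a, _, rfl⟩ := hx
    obtain ⟨b, _, hb⟩ := hx'
    simp at hb

theorem mem_invSet (m ν r : ℕ) (b : Bool) :
    (r, b) ∈ invSet m ν ↔ (b = false ∧ 1 ≤ r ∧ r ≤ m) ∨ (b = true ∧ 1 ≤ r ∧ r ≤ ν ∧ Even r) := by
  unfold invSet
  simp only [Finset.mem_union, Finset.mem_image, Finset.mem_Icc, Finset.mem_filter, Prod.mk.injEq]
  constructor
  · rintro (⟨a, ⟨h1, h2⟩, rfl, rfl⟩ | ⟨a, ⟨⟨h1, h2⟩, h3⟩, rfl, rfl⟩)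
    · exact Or.inl ⟨rfl, h1, h2⟩
    · exact Or.inr ⟨rfl, h1, h2, h3⟩
  · rintro (⟨rfl, h1, h2⟩ | ⟨rfl, h1, h2, h3⟩)
    · exact Or.inl ⟨r, ⟨h1, h2⟩, rfl, rfl⟩
    · exact Or.inr ⟨r, ⟨⟨h1, h2⟩, h3⟩, rfl, rfl⟩

variable {ι : Type} [Fintype ι] [DecidableEq ι] {F : Type*} [Field F] [Fintype F] [CharP F 2]
  {Q : QuadraticForm F (ι → F)}

theorem polarBilin_isAlt : LinearMap.BilinForm.IsAlt (polarBilin Q) := by
  intro x
  rw [polarBilin_apply_apply, polar_self, two_smul, CharTwo.add_self_eq_zero]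

/-- pairwise orthogonal vectors of norm one, with a dual family -/
theorem exists_unit_family : ∀ (j : ℕ) (U : Submodule F (ι → F)), SympGood (polarBilin Q) U j →
    ∃ w d : Fin j → ι → F, (∀ i, w i ∈ U ∧ d i ∈ U) ∧ (∀ i l, polar Q (w i) (w l) = 0) ∧
      (∀ i l, polar Q (w i) (d l) = if i = l then 1 else 0) ∧ ∀ i, Q (w i) = 1 := by
  intro j
  induction j with
  | zero =>
    intro U _
    exact ⟨Fin.elim0, Fin.elim0, fun i => i.elim0, fun i => i.elim0, fun i => i.elim0, fun i => i.elim0⟩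
  | succ j ih =>
    intro U hU
    have hne : ∃ x ∈ U, x ≠ 0 := by
      by_contra hcon
      push Not at hcon
      have h1 : Nat.card U = 1 := by
        rw [Nat.card_eq_one_iff_unique]
        exact ⟨⟨fun a b => Subtype.ext (by rw [hcon a a.2, hcon b b.2])⟩, ⟨0⟩⟩
      have h4 : 1 < Fintype.card F ^ (2 * (j + 1)) := Nat.one_lt_pow (by omega) Fintype.one_lt_card
      rw [hU.1] at h1
      omega
    obtain ⟨x₀, hx₀U, hx₀⟩ := hne
    obtain ⟨y₀, hy₀U, hy₀⟩ := hU.2 x₀ hx₀U hx₀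
    obtain ⟨x, hxU, hx⟩ : ∃ x ∈ U, Q x ≠ 0 := by
      by_contra hcon
      push Not at hcon
      apply hy₀
      rw [polarBilin_apply_apply]
      unfold polar
      rw [hcon _ (U.add_mem hx₀U hy₀U), hcon _ hx₀U, hcon _ hy₀U]; simp
    obtain ⟨b, hb⟩ := FiniteField.isSquare_of_char_two (ringChar.eq F 2) (Q x)
    have hb0 : b ≠ 0 := by rintro rfl; simp at hb; exact hx hb
    set w₀ := b⁻¹ • x with hw₀
    have hw₀U : w₀ ∈ U := U.smul_mem _ hxU
    have hQw₀ : Q w₀ = 1 := by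
      rw [hw₀, QuadraticMap.map_smul, hb, smul_eq_mul]; field_simp
    have hw₀0 : w₀ ≠ 0 := by
      intro h; rw [h] at hQw₀; simp at hQw₀
    obtain ⟨y, hyU, hy⟩ := hU.2 w₀ hw₀U hw₀0
    set d₀ := (polarBilin Q w₀ y)⁻¹ • y with hd₀
    have hd₀U : d₀ ∈ U := U.smul_mem _ hyU
    have hwd₀ : polarBilin Q w₀ d₀ = 1 := by rw [hd₀, map_smul, smul_eq_mul, inv_mul_cancel₀ hy]
    obtain ⟨w, d, h1, h2, h3, h4⟩ := ih _ (sympGood_perp polarBilin_isAlt hU w₀ d₀ hw₀U hd₀U hwd₀)
    have hp : ∀ i, polar Q w₀ (w i) = 0 ∧ polar Q d₀ (w i) = 0 ∧ polar Q w₀ (d i) = 0 := by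
      intro i
      have e1 := (mem_sympPerp _).1 (h1 i).1
      have e2 := (mem_sympPerp _).1 (h1 i).2
      exact ⟨e1.2.1, e1.2.2, e2.2.1⟩
    refine ⟨Fin.cons w₀ w, Fin.cons d₀ d, ?_, ?_, ?_, ?_⟩
    · intro i
      refine Fin.cases ?_ (fun i' => ?_) i
      · exact ⟨hw₀U, hd₀U⟩
      · exact ⟨((mem_sympPerp _).1 (h1 i').1).1, ((mem_sympPerp _).1 (h1 i').2).1⟩
    · intro i l
      refine Fin.cases ?_ (fun i' => ?_) i <;> refine Fin.cases ?_ (fun l' => ?_) l
      · simpa using polarBilin_isAlt (Q := Q) w₀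
      · simpa using (hp l').1
      · simp only [Fin.cons_zero, Fin.cons_succ]
        rw [polar_comm]; exact (hp i').1
      · simpa using h2 i' l'
    · intro i l
      refine Fin.cases ?_ (fun i' => ?_) i <;> refine Fin.cases ?_ (fun l' => ?_) l
      · simpa using hwd₀
      · simp only [Fin.cons_zero, Fin.cons_succ]
        rw [(hp l').2.2, if_neg (Fin.succ_ne_zero l').symm]
      · simp only [Fin.cons_zero, Fin.cons_succ]
        rw [polar_comm, (hp i').2.1, if_neg (Fin.succ_ne_zero i')]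
      · simp only [Fin.cons_succ]
        rw [h3 i' l']
        simp
    · intro i
      refine Fin.cases ?_ (fun i' => ?_) i
      · simpa using hQw₀
      · simpa using h4 i'

end Cfsg.Agent.Lib.Helper15
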