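import Mathlib
import Cfsg.Agent.Lib.Helper15.NF5

set_option autoImplicit false

namespace Cfsg.Agent.Lib.Helper15

open Matrix QuadraticMap Module Cfsg.Agent.Lib.Helper18

variable {ι : Type} [Fintype ι] [DecidableEq ι] {F : Type*} [Field F] [Fintype F] [CharP F 2]
  {Q : QuadraticForm F (ι → F)}

theorem mul_self_of_orderOf {G : Type*} [Group G] {g : G} (h : orderOf g = 2) : g * g = 1 := by
  have := pow_orderOf_eq_one g
  rw [h, _root_.sq] at this
  exact this

theorem ne_one_of_orderOf {G : Type*} [Group G] {g : G} (h : orderOf g = 2) : g ≠ 1 := by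
  rintro rfl
  simp at h

theorem orderOf_of_mul_self {G : Type*} [Group G] {g : G} (h : g * g = 1) (h1 : g ≠ 1) : orderOf g = 2 :=
  orderOf_eq_prime (by rw [_root_.sq, h]) h1

omit [Fintype F] [CharP F 2] in
theorem finrank_nilRange_pos {t : Cfsg.isometryGroup F ⇑Q} (ht : t ≠ 1) : 1 ≤ finrank F (nilRange t) := by
  by_contra h
  have h0 : finrank F (nilRange t) = 0 := by omega
  rw [Submodule.finrank_eq_zero] at h0
  apply ht
  apply iso_ext
  intro x
  have : act Q t x - x ∈ nilRange t := (mem_nilRange t _).2 ⟨x, rfl⟩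
  rw [h0, Submodule.mem_bot, sub_eq_zero] at this
  rw [this, act_one]

omit [Fintype F] [CharP F 2] in
theorem finrank_nilRange_one : finrank F (nilRange (1 : Cfsg.isometryGroup F ⇑Q)) = 0 := by
  rw [Submodule.finrank_eq_zero, eq_bot_iff]
  intro y hy
  obtain ⟨x, rfl⟩ := (mem_nilRange _ y).1 hy
  rw [act_one, sub_self]
  exact Submodule.zero_mem _

omit [Fintype F] in
theorem two_mul_finrank_nilRange_le {t : Cfsg.isometryGroup F ⇑Q} (ht : t * t = 1) :
    2 * finrank F (nilRange t) ≤ Fintype.card ι := by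
  have hle : nilRange t ≤ LinearMap.ker (nilL t) := by
    intro y hy
    obtain ⟨x, rfl⟩ := (mem_nilRange t y).1 hy
    rw [LinearMap.mem_ker]
    show act Q t (act Q t x - x) - (act Q t x - x) = 0
    rw [show act Q t (act Q t x - x) = act Q t (act Q t x) - act Q t x from Matrix.mulVec_sub _ _ _, ← act_mul, ht,
      act_one, nil_eq_add, sub_eq_zero]
    funext i
    rw [Pi.sub_apply, Pi.add_apply, CharTwo.sub_eq_add]
  have h2 := LinearMap.finrank_range_add_finrank_ker (nilL t)
  have h3 := Submodule.finrank_mono hle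
  rw [finrank_fintype_fun_eq_card, ← nilRange_eq_range] at h2
  omega

omit [Fintype F] in
theorem even_finrank_of_ts (hQ : (polarBilin Q).Nondegenerate) {t : Cfsg.isometryGroup F ⇑Q} (ht : t * t = 1)
    (hts : ∀ y ∈ nilRange t, Q y = 0) : Even (finrank F (nilRange t)) := by
  obtain ⟨k, v, hv, hp⟩ := exists_hyperbolic (β := betaT t) (by
    intro x
    rw [betaT_self]
    exact hts _ ((mem_nilRange t _).2 ⟨x, rfl⟩))
  have e1 := nil_finrank (nd_left hQ) (nilL_adj ht) Sum.swap_swap hv hp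
  rw [← nilRange_eq_range] at e1
  rw [e1]
  simp

open Classical in
/-- the invariants of an involution -/
noncomputable def invO (t : Cfsg.isometryGroup F ⇑Q) : ℕ × Bool :=
  (finrank F (nilRange t), decide (∀ y ∈ nilRange t, Q y = 0))

theorem sympGood_top_polar (hQ : (polarBilin Q).Nondegenerate) {m : ℕ} (hcard : Fintype.card ι = 2 * m) :
    SympGood (polarBilin Q) (⊤ : Submodule F (ι → F)) m := by
  constructor
  · rw [Nat.card_congr (Submodule.topEquiv (R := F) (M := ι → F)).toEquiv, Nat.card_fun,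
      Nat.card_eq_fintype_card, Nat.card_eq_fintype_card, hcard]
  · intro x _ hx
    by_contra hcon
    push Not at hcon
    exact hx (hQ.1 x (fun y => hcon y trivial))

/-- existence of involutions with given invariants -/
theorem exists_invol_nonalt (hQ : (polarBilin Q).Nondegenerate) {m : ℕ} (hcard : Fintype.card ι = 2 * m)
    (r : ℕ) (h1 : 1 ≤ r) (hr : r ≤ m) :
    ∃ t : Cfsg.isometryGroup F ⇑Q, orderOf t = 2 ∧ finrank F (nilRange t) = r ∧ ¬ ∀ y ∈ nilRange t, Q y = 0 := by
  obtain ⟨w, d, -, hww, hwd, hQw⟩ := exists_unit_family m ⊤ (sympGood_top_polar hQ hcard)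
  obtain ⟨t, htt, hrk, hty⟩ := exists_invol_of_family hQ (κ := Fin r) id (fun _ => rfl)
    (fun i => w (Fin.castLE hr i)) (fun i => d (Fin.castLE hr i)) (fun i j => hww _ _)
    (fun i j => by rw [hwd]; simp) (fun j => by rw [hQw]; simp)
  rw [Fintype.card_fin] at hrk
  refine ⟨t, orderOf_of_mul_self htt ?_, hrk, ?_⟩
  · rintro rfl
    rw [finrank_nilRange_one] at hrk
    omega
  · intro h
    exact hty.1 h ⟨0, h1⟩ rfl

theorem exists_invol_alt (hQ : (polarBilin Q).Nondegenerate) {ν : ℕ} (E E' : Fin ν → ι → F)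
    (hEE : ∀ i j, polar Q (E i) (E j) = 0) (hEF : ∀ i j, polar Q (E i) (E' j) = if i = j then 1 else 0)
    (hQE : ∀ i, Q (E i) = 0) (r : ℕ) (h1 : 1 ≤ r) (hr : r ≤ ν) (hev : Even r) :
    ∃ t : Cfsg.isometryGroup F ⇑Q, orderOf t = 2 ∧ finrank F (nilRange t) = r ∧ ∀ y ∈ nilRange t, Q y = 0 := by
  obtain ⟨k, rfl⟩ := hev
  let emb : Fin k ⊕ Fin k → Fin ν := Sum.elim (fun i => ⟨i, by omega⟩) (fun i => ⟨k + i, by omega⟩)
  have hemb : Function.Injective emb := by
    rintro (a | a) (b | b) h
    · simp only [emb, Sum.elim_inl, Fin.mk.injEq] at h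
      rw [Fin.ext h]
    · simp only [emb, Sum.elim_inl, Sum.elim_inr, Fin.mk.injEq] at h
      omega
    · simp only [emb, Sum.elim_inl, Sum.elim_inr, Fin.mk.injEq] at h
      omega
    · simp only [emb, Sum.elim_inr, Fin.mk.injEq] at h
      rw [Fin.ext (by omega : (a : ℕ) = b)]
  obtain ⟨t, htt, hrk, hty⟩ := exists_invol_of_family hQ (κ := Fin k ⊕ Fin k) Sum.swap Sum.swap_swap
    (fun i => E (emb i)) (fun i => E' (emb i)) (fun i j => hEE _ _)
    (fun i j => by rw [hEF]; simp [hemb.eq_iff]) (fun j => by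
      rw [hQE, if_neg]
      rcases j with j | j <;> simp)
  rw [Fintype.card_sum, Fintype.card_fin] at hrk
  refine ⟨t, orderOf_of_mul_self htt ?_, hrk, ?_⟩
  · rintro rfl
    rw [finrank_nilRange_one] at hrk
    omega
  · apply hty.2
    rintro (j | j) <;> simp

/-- the number of classes of involutions of an orthogonal group in characteristic two -/
theorem card_invol_classes (hQ : (polarBilin Q).Nondegenerate) {m ν : ℕ} (hcard : Fintype.card ι = 2 * m)
    (E E' : Fin ν → ι → F)
    (hEE : ∀ i j, polar Q (E i) (E j) = 0) (hEF : ∀ i j, polar Q (E i) (E' j) = if i = j then 1 else 0)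
    (hQE : ∀ i, Q (E i) = 0) (hν : ∀ U : Submodule F (ι → F), (∀ u ∈ U, Q u = 0) → finrank F U ≤ ν) :
    Nat.card {C : ConjClasses (Cfsg.isometryGroup F ⇑Q) //
      ∃ g : Cfsg.isometryGroup F ⇑Q, ConjClasses.mk g = C ∧ orderOf g = 2} = m + ν / 2 := by
  classical
  rw [← card_invSet]
  apply card_classes_eq (fun g => orderOf g = 2) invO
  · intro g h hg hh
    rw [isConj_iff_invol hQ (mul_self_of_orderOf hg) (mul_self_of_orderOf hh)]
    unfold invO
    rw [Prod.mk.injEq, decide_eq_decide]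
  · intro g hg
    unfold invO
    rw [mem_invSet]
    have h1 := finrank_nilRange_pos (ne_one_of_orderOf hg)
    have h2 := two_mul_finrank_nilRange_le (mul_self_of_orderOf hg)
    by_cases hts : ∀ y ∈ nilRange g, Q y = 0
    · right
      exact ⟨decide_eq_true hts, h1, hν _ hts, even_finrank_of_ts hQ (mul_self_of_orderOf hg) hts⟩
    · left
      exact ⟨decide_eq_false hts, h1, by omega⟩
  · rintro ⟨r, b⟩ hb
    rw [mem_invSet] at hb
    rcases hb with ⟨rfl, h1, h2⟩ | ⟨rfl, h1, h2, h3⟩
    · obtain ⟨t, ht, hr, hty⟩ := exists_invol_nonalt hQ hcard r h1 h2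
      exact ⟨t, ht, by unfold invO; rw [hr, decide_eq_false hty]⟩
    · obtain ⟨t, ht, hr, hty⟩ := exists_invol_alt hQ E E' hEE hEF hQE r h1 h2 h3
      exact ⟨t, ht, by unfold invO; rw [hr, decide_eq_true hty]⟩

end Cfsg.Agent.Lib.Helper15
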