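import Mathlib
import Cfsg.Agent.Lib.Helper15.NF6
import Cfsg.Agent.Lib.Helper15.Families

set_option autoImplicit false

namespace Cfsg.Agent.Lib.Helper15

open Matrix QuadraticMap Module

variable {ι : Type} [Fintype ι] [DecidableEq ι] {F : Type*} [Field F] [Fintype F] [DecidableEq F] [CharP F 2]
  {Q : QuadraticForm F (ι → F)}

/-- every isometry is a product of reflections -/
def HCD (Q : QuadraticForm F (ι → F)) : Prop :=
  ∀ g : Cfsg.isometryGroup F ⇑Q, ∃ vs : List (ι → F), (∀ v ∈ vs, Q v ≠ 0) ∧ g = (vs.map (reflT Q)).prod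

theorem HCD.mul_mem (H : HCD Q) (hQ : (polarBilin Q).Nondegenerate) {g h : Cfsg.isometryGroup F ⇑Q}
    (hg : g ∉ Cfsg.Omega F ⇑Q) (hh : h ∉ Cfsg.Omega F ⇑Q) : g * h ∈ Cfsg.Omega F ⇑Q := by
  obtain ⟨vs, hvs, rfl⟩ := H g
  obtain ⟨ws, hws, rfl⟩ := H h
  rw [prod_mem_Omega_iff_two Q hQ _ hvs, Nat.not_even_iff_odd] at hg
  rw [prod_mem_Omega_iff_two Q hQ _ hws, Nat.not_even_iff_odd] at hh
  rw [← List.prod_append, ← List.map_append, prod_mem_Omega_iff_two Q hQ _ (by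
    intro v hv
    rcases List.mem_append.1 hv with h | h
    · exact hvs v h
    · exact hws v h), List.length_append]
  exact hg.add_odd hh

theorem HCD.mem_iff_even_rank (H : HCD Q) (hQ : (polarBilin Q).Nondegenerate) (g : Cfsg.isometryGroup F ⇑Q) :
    g ∈ Cfsg.Omega F ⇑Q ↔ Even (finrank F (nilRange g)) := by
  rw [finrank_nilRange]
  obtain ⟨vs, hvs, rfl⟩ := H g
  rw [even_rank_sub_one_iff Q hQ vs hvs, prod_mem_Omega_iff_two Q hQ vs hvs]

theorem HCD.exists_Omega_conj (H : HCD Q) (hQ : (polarBilin Q).Nondegenerate)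
    {t s : Cfsg.isometryGroup F ⇑Q} (hconj : IsConj t s)
    (x : ι → F) (hx : Q x ≠ 0) (htx : act Q t x = x) : ∃ g ∈ Cfsg.Omega F ⇑Q, g * t * g⁻¹ = s := by
  obtain ⟨c, hc⟩ := isConj_iff.1 hconj
  by_cases hcO : c ∈ Cfsg.Omega F ⇑Q
  · exact ⟨c, hcO, hc⟩
  · refine ⟨c * refl Q x hx, H.mul_mem hQ hcO (refl_not_mem_Omega_two Q hQ x hx), ?_⟩
    have h1 : t * refl Q x hx * t⁻¹ = refl Q x hx := by
      rw [conj_refl Q t x hx (by rw [htx]; exact hx)]
      congr 1
    have h2 : refl Q x hx * t * (refl Q x hx)⁻¹ = t := by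
      rw [mul_inv_eq_iff_eq_mul] at h1 ⊢
      exact h1.symm
    rw [_root_.mul_inv_rev, ← hc]
    calc c * refl Q x hx * t * ((refl Q x hx)⁻¹ * c⁻¹) = c * (refl Q x hx * t * (refl Q x hx)⁻¹) * c⁻¹ := by group
      _ = c * t * c⁻¹ := by rw [h2]

theorem HCD.mem_iff_even_inf (H : HCD Q) (hQ : (polarBilin Q).Nondegenerate) {m : ℕ} (hcard : Fintype.card ι = 2 * m)
    (hm : Even m) {t s c : Cfsg.isometryGroup F ⇑Q} (hc : c * t * c⁻¹ = s)
    (hrank : finrank F (nilRange t) = m) (hts : ∀ y ∈ nilRange t, Q y = 0) :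
    c ∈ Cfsg.Omega F ⇑Q ↔ Even (finrank F (nilRange t ⊓ nilRange s : Submodule F (ι → F))) := by
  rw [nilRange_conj hc]
  obtain ⟨vs, hvs, rfl⟩ := H c
  rw [prod_mem_Omega_iff_two Q hQ vs hvs, ← even_codim_iff Q hQ hcard (nilRange t) hts hrank vs hvs]
  have hle : finrank F (nilRange t ⊓ (nilRange t).map (Matrix.mulVecLin
      ((((vs.map (reflT Q)).prod : Cfsg.isometryGroup F ⇑Q) : GL ι F) : Matrix ι ι F)) : Submodule F (ι → F)) ≤ m := by
    rw [← hrank]; exact Submodule.finrank_mono inf_le_left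
  rw [Nat.even_sub hle]
  simp [hm]

open Classical in
/-- the invariants of an involution of `Ω` -/
noncomputable def invΩ (m : ℕ) (W₀ : Submodule F (ι → F)) (t : Cfsg.isometryGroup F ⇑Q) : ℕ × Bool × Bool :=
  (finrank F (nilRange t), decide (∀ y ∈ nilRange t, Q y = 0),
    decide ((finrank F (nilRange t) = m ∧ ∀ y ∈ nilRange t, Q y = 0) ∧
      Even (finrank F (nilRange t ⊓ W₀ : Submodule F (ι → F)))))

/-- parity transfer through a reference subspace -/
theorem even_inf_iff (hQ : (polarBilin Q).Nondegenerate) {m : ℕ} (hcard : Fintype.card ι = 2 * m) (hm : Even m)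
    (U W X : Submodule F (ι → F)) (hU : ∀ u ∈ U, Q u = 0) (hW : ∀ u ∈ W, Q u = 0) (hX : ∀ u ∈ X, Q u = 0)
    (hUm : finrank F U = m) (hWm : finrank F W = m) (hXm : finrank F X = m) :
    Even (finrank F (U ⊓ X : Submodule F (ι → F))) ↔
      (Even (finrank F (U ⊓ W : Submodule F (ι → F))) ↔ Even (finrank F (X ⊓ W : Submodule F (ι → F)))) := by
  have h := even_three Q (nd_of_nondegenerate hQ) (by rw [finrank_fintype_fun_eq_card, hcard]) U W X hU hW hX hUm hWm hXm
  have l1 : finrank F (U ⊓ W : Submodule F (ι → F)) ≤ m := hUm ▸ Submodule.finrank_mono inf_le_left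
  have l2 : finrank F (W ⊓ X : Submodule F (ι → F)) ≤ m := hWm ▸ Submodule.finrank_mono inf_le_left
  have l3 : finrank F (U ⊓ X : Submodule F (ι → F)) ≤ m := hUm ▸ Submodule.finrank_mono inf_le_left
  rw [inf_comm X W]
  rw [Nat.even_add, Nat.even_add, Nat.even_sub l1, Nat.even_sub l2, Nat.even_sub l3] at h
  simp only [hm, true_iff] at h
  tauto

end Cfsg.Agent.Lib.Helper15
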