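import Mathlib
import Cfsg.Agent.Lib.Helper15.OmegaCls

set_option autoImplicit false

namespace Cfsg.Agent.Lib.Helper15

open Matrix QuadraticMap Module

/-- the invariants of the classes of involutions of `Ω` -/
def invSetΩ (m ν : ℕ) : Finset (ℕ × Bool × Bool) :=
  ((Finset.Icc 1 m).filter Even).image (fun r => (r, false, false)) ∪
  (((Finset.Icc 1 ν).filter Even).image (fun r => (r, true, false)) ∪
  (if ν = m ∧ Even m ∧ 1 ≤ m then {(m, true, true)} else ∅))

theorem mem_invSetΩ (m ν r : ℕ) (b c : Bool) :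
    (r, b, c) ∈ invSetΩ m ν ↔ (b = false ∧ c = false ∧ 1 ≤ r ∧ r ≤ m ∧ Even r) ∨
      (b = true ∧ c = false ∧ 1 ≤ r ∧ r ≤ ν ∧ Even r) ∨
      (b = true ∧ c = true ∧ r = m ∧ ν = m ∧ Even m ∧ 1 ≤ m) := by
  unfold invSetΩ
  simp only [Finset.mem_union, Finset.mem_image, Finset.mem_Icc, Finset.mem_filter, Prod.mk.injEq]
  constructor
  · rintro (⟨a, ⟨⟨h1, h2⟩, h3⟩, rfl, rfl, rfl⟩ | ⟨a, ⟨⟨h1, h2⟩, h3⟩, rfl, rfl, rfl⟩ | h)
    · exact Or.inl ⟨rfl, rfl, h1, h2, h3⟩
    · exact Or.inr (Or.inl ⟨rfl, rfl, h1, h2, h3⟩)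
    · split_ifs at h with hc
      · simp only [Finset.mem_singleton, Prod.mk.injEq] at h
        exact Or.inr (Or.inr ⟨h.2.1, h.2.2, h.1, hc⟩)
      · simp at h
  · rintro (⟨rfl, rfl, h1, h2, h3⟩ | ⟨rfl, rfl, h1, h2, h3⟩ | ⟨rfl, rfl, rfl, hc⟩)
    · exact Or.inl ⟨r, ⟨⟨h1, h2⟩, h3⟩, rfl, rfl, rfl⟩
    · exact Or.inr (Or.inl ⟨r, ⟨⟨h1, h2⟩, h3⟩, rfl, rfl, rfl⟩)
    · right; right
      rw [if_pos hc]
      simp

theorem card_invSetΩ (m ν : ℕ) :
    (invSetΩ m ν).card = m / 2 + ν / 2 + (if ν = m ∧ Even m ∧ 1 ≤ m then 1 else 0) := by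
  unfold invSetΩ
  rw [Finset.card_union_of_disjoint, Finset.card_union_of_disjoint,
    Finset.card_image_of_injective _ (fun a b h => by simpa using h),
    Finset.card_image_of_injective _ (fun a b h => by simpa using h), card_even_Icc, card_even_Icc]
  · split_ifs <;> simp [add_assoc]
  · rw [Finset.disjoint_left]
    intro x hx hx'
    simp only [Finset.mem_image] at hx
    obtain ⟨a, _, rfl⟩ := hx
    split_ifs at hx' <;> simp at hx'
  · rw [Finset.disjoint_left]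
    intro x hx hx'
    simp only [Finset.mem_image] at hx
    obtain ⟨a, _, rfl⟩ := hx
    rw [Finset.mem_union] at hx'
    rcases hx' with hx' | hx'
    · simp at hx'
    · split_ifs at hx' <;> simp at hx'

theorem isConj_subgroup_iff {G : Type*} [Group G] (H : Subgroup G) (g h : H) :
    IsConj g h ↔ ∃ c ∈ H, c * (g : G) * c⁻¹ = h := by
  rw [isConj_iff]
  constructor
  · rintro ⟨c, hc⟩
    exact ⟨c, c.2, congrArg Subtype.val hc⟩
  · rintro ⟨c, hc, h1⟩
    exact ⟨⟨c, hc⟩, Subtype.ext h1⟩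

variable {ι : Type} [Fintype ι] [DecidableEq ι] {F : Type*} [Field F] [Fintype F] [DecidableEq F] [CharP F 2]
  {Q : QuadraticForm F (ι → F)}

/-- both families of involutions of maximal rank with totally singular range occur -/
theorem exists_invol_exc (H : HCD Q) (hQ : (polarBilin Q).Nondegenerate) {m : ℕ} (hcard : Fintype.card ι = 2 * m)
    (E E' : Fin m → ι → F)
    (hEE : ∀ i j, polar Q (E i) (E j) = 0) (hEF : ∀ i j, polar Q (E i) (E' j) = if i = j then 1 else 0)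
    (hQE : ∀ i, Q (E i) = 0) (hm : Even m) (hm1 : 1 ≤ m) (W₀ : Submodule F (ι → F)) (hW₀ : ∀ u ∈ W₀, Q u = 0)
    (hW₀m : finrank F W₀ = m) (p : Prop) :
    ∃ t : Cfsg.isometryGroup F ⇑Q, orderOf t = 2 ∧ finrank F (nilRange t) = m ∧ (∀ y ∈ nilRange t, Q y = 0) ∧
      (Even (finrank F (nilRange t ⊓ W₀ : Submodule F (ι → F))) ↔ p) := by
  obtain ⟨t, ht, hr, hts⟩ := exists_invol_alt hQ E E' hEE hEF hQE m hm1 le_rfl hm
  obtain ⟨x, hx⟩ := exists_nonsingular Q hQ (by omega)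
  set ρ := refl Q x hx with hρ
  set t' := ρ * t * ρ⁻¹ with ht'
  have hr' : finrank F (nilRange t') = m := by rw [finrank_nilRange_conj (t := t) (c := ρ) rfl, hr]
  have hts' : ∀ y ∈ nilRange t', Q y = 0 := ts_nilRange_conj (t := t) (c := ρ) rfl hts
  have ht2 : orderOf t' = 2 := by
    apply orderOf_of_mul_self
    · rw [ht']
      calc ρ * t * ρ⁻¹ * (ρ * t * ρ⁻¹) = ρ * (t * t) * ρ⁻¹ := by group
        _ = 1 := by rw [mul_self_of_orderOf ht]; group
    · intro h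
      rw [h, finrank_nilRange_one] at hr'
      omega
  have h1 := (H.mem_iff_even_inf hQ hcard hm (t := t) (c := ρ) rfl hr hts).not.1 (refl_not_mem_Omega_two Q hQ x hx)
  rw [even_inf_iff hQ hcard hm _ W₀ _ hts hW₀ hts' hr hW₀m hr'] at h1
  by_cases ha : Even (finrank F (nilRange t ⊓ W₀ : Submodule F (ι → F))) ↔ p
  · exact ⟨t, ht, hr, hts, ha⟩
  · exact ⟨t', ht2, hr', hts', by tauto⟩

/-- the number of classes of involutions of `Ω` in characteristic two -/
theorem card_invol_classes_Omega (H : HCD Q) (hQ : (polarBilin Q).Nondegenerate) {m ν : ℕ}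
    (hcard : Fintype.card ι = 2 * m) (hνm : ν ≤ m) (E E' : Fin ν → ι → F)
    (hEE : ∀ i j, polar Q (E i) (E j) = 0) (hEF : ∀ i j, polar Q (E i) (E' j) = if i = j then 1 else 0)
    (hQE : ∀ i, Q (E i) = 0) (hν : ∀ U : Submodule F (ι → F), (∀ u ∈ U, Q u = 0) → finrank F U ≤ ν)
    (W₀ : Submodule F (ι → F)) (hW₀ : ν = m → (∀ u ∈ W₀, Q u = 0) ∧ finrank F W₀ = m) :
    Nat.card {C : ConjClasses (Cfsg.Omega F ⇑Q) //
      ∃ g : Cfsg.Omega F ⇑Q, ConjClasses.mk g = C ∧ orderOf g = 2}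
      = m / 2 + ν / 2 + (if ν = m ∧ Even m ∧ 1 ≤ m then 1 else 0) := by
  classical
  rw [← card_invSetΩ]
  apply card_classes_eq (fun g : Cfsg.Omega F ⇑Q => orderOf g = 2) (fun g => invΩ m W₀ (g : Cfsg.isometryGroup F ⇑Q))
  · intro g h hg hh
    rw [← Subgroup.orderOf_coe] at hg hh
    have ht := mul_self_of_orderOf hg
    have hs := mul_self_of_orderOf hh
    set t := (g : Cfsg.isometryGroup F ⇑Q) with htdef
    set s := (h : Cfsg.isometryGroup F ⇑Q) with hsdef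
    have htO : t ∈ Cfsg.Omega F ⇑Q := g.2
    rw [isConj_subgroup_iff]
    unfold invΩ
    rw [Prod.mk.injEq, Prod.mk.injEq, decide_eq_decide, decide_eq_decide]
    -- facts in the exceptional case
    have hexc : (finrank F (nilRange t) = m ∧ ∀ y ∈ nilRange t, Q y = 0) → Even m ∧ ν = m := by
      rintro ⟨h1, h2⟩
      have h3 := (H.mem_iff_even_rank hQ t).1 htO
      have h4 := hν _ h2
      exact ⟨h1 ▸ h3, by omega⟩
    constructor
    · rintro ⟨c, hcO, hc⟩
      have h1 := (isConj_iff_invol hQ ht hs).1 (isConj_iff.2 ⟨c, hc⟩)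
      refine ⟨h1.1, h1.2, ?_⟩
      by_cases he : finrank F (nilRange t) = m ∧ ∀ y ∈ nilRange t, Q y = 0
      · have he' : finrank F (nilRange s) = m ∧ ∀ y ∈ nilRange s, Q y = 0 := ⟨h1.1 ▸ he.1, h1.2.1 he.2⟩
        obtain ⟨hm, hνeq⟩ := hexc he
        obtain ⟨hW1, hW2⟩ := hW₀ hνeq
        have h5 := (H.mem_iff_even_inf hQ hcard hm hc he.1 he.2).1 hcO
        rw [even_inf_iff hQ hcard hm _ W₀ _ he.2 hW1 he'.2 he.1 hW2 he'.1] at h5
        tauto
      · have he' : ¬ (finrank F (nilRange s) = m ∧ ∀ y ∈ nilRange s, Q y = 0) := by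
          rintro ⟨h5, h6⟩
          exact he ⟨h1.1.trans h5, h1.2.2 h6⟩
        tauto
    · rintro ⟨h1, h2, h3⟩
      have hconj := (isConj_iff_invol hQ ht hs).2 ⟨h1, h2⟩
      by_cases he : finrank F (nilRange t) = m ∧ ∀ y ∈ nilRange t, Q y = 0
      · have he' : finrank F (nilRange s) = m ∧ ∀ y ∈ nilRange s, Q y = 0 := ⟨h1 ▸ he.1, h2.1 he.2⟩
        obtain ⟨hm, hνeq⟩ := hexc he
        obtain ⟨hW1, hW2⟩ := hW₀ hνeq
        obtain ⟨c, hc⟩ := isConj_iff.1 hconj
        refine ⟨c, ?_, hc⟩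
        rw [H.mem_iff_even_inf hQ hcard hm hc he.1 he.2,
          even_inf_iff hQ hcard hm _ W₀ _ he.2 hW1 he'.2 he.1 hW2 he'.1]
        tauto
      · rcases exists_fixed_nonsingular_or hQ hcard ht with ⟨x, hx, htx⟩ | h5
        · exact H.exists_Omega_conj hQ hconj x hx htx
        · exact absurd h5 he
  · intro g hg
    rw [← Subgroup.orderOf_coe] at hg
    have ht := mul_self_of_orderOf hg
    set t := (g : Cfsg.isometryGroup F ⇑Q) with htdef
    have htO : t ∈ Cfsg.Omega F ⇑Q := g.2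
    have h1 := finrank_nilRange_pos (ne_one_of_orderOf hg)
    have h2 := two_mul_finrank_nilRange_le ht
    have h3 := (H.mem_iff_even_rank hQ t).1 htO
    unfold invΩ
    rw [mem_invSetΩ]
    by_cases hts : ∀ y ∈ nilRange t, Q y = 0
    · have h4 := hν _ hts
      by_cases he : (finrank F (nilRange t) = m ∧ ∀ y ∈ nilRange t, Q y = 0) ∧
          Even (finrank F (nilRange t ⊓ W₀ : Submodule F (ι → F)))
      · right; right
        exact ⟨decide_eq_true hts, decide_eq_true he, he.1.1, by omega, he.1.1 ▸ h3, by omega⟩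
      · right; left
        exact ⟨decide_eq_true hts, decide_eq_false he, h1, h4, h3⟩
    · left
      exact ⟨decide_eq_false hts, decide_eq_false (fun h => hts h.1.2), h1, by omega, h3⟩
  · rintro ⟨r, b, c⟩ hb
    rw [mem_invSetΩ] at hb
    rcases hb with ⟨rfl, rfl, h1, h2, h3⟩ | ⟨rfl, rfl, h1, h2, h3⟩ | ⟨rfl, rfl, rfl, rfl, h3, h1⟩
    · obtain ⟨t, ht, hr, hty⟩ := exists_invol_nonalt hQ hcard r h1 h2
      refine ⟨⟨t, (H.mem_iff_even_rank hQ t).2 (hr ▸ h3)⟩, by rw [← Subgroup.orderOf_coe]; exact ht, ?_⟩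
      show invΩ _ W₀ t = _
      unfold invΩ
      rw [hr, decide_eq_false hty, decide_eq_false (fun h => hty h.1.2)]
    · by_cases hrm : r = m
      · subst hrm
        have hνeq : ν = r := by omega
        subst hνeq
        obtain ⟨hW1, hW2⟩ := hW₀ rfl
        obtain ⟨t, ht, hr, hty, hp⟩ := exists_invol_exc H hQ hcard E E' hEE hEF hQE h3 h1 W₀ hW1 hW2 False
        refine ⟨⟨t, (H.mem_iff_even_rank hQ t).2 (hr ▸ h3)⟩, by rw [← Subgroup.orderOf_coe]; exact ht, ?_⟩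
        show invΩ _ W₀ t = _
        unfold invΩ
        rw [hr, decide_eq_true hty, decide_eq_false (fun h => hp.1 h.2)]
      · obtain ⟨t, ht, hr, hty⟩ := exists_invol_alt hQ E E' hEE hEF hQE r h1 h2 h3
        refine ⟨⟨t, (H.mem_iff_even_rank hQ t).2 (hr ▸ h3)⟩, by rw [← Subgroup.orderOf_coe]; exact ht, ?_⟩
        show invΩ _ W₀ t = _
        unfold invΩ
        rw [hr, decide_eq_true hty, decide_eq_false (fun h => hrm h.1.1)]
    · obtain ⟨hW1, hW2⟩ := hW₀ rfl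
      obtain ⟨t, ht, hr, hty, hp⟩ := exists_invol_exc H hQ hcard E E' hEE hEF hQE h3 h1 W₀ hW1 hW2 True
      refine ⟨⟨t, (H.mem_iff_even_rank hQ t).2 (hr ▸ h3)⟩, by rw [← Subgroup.orderOf_coe]; exact ht, ?_⟩
      show invΩ _ W₀ t = _
      unfold invΩ
      rw [hr, decide_eq_true hty, decide_eq_true ⟨⟨rfl, hty⟩, hp.2 trivial⟩]

end Cfsg.Agent.Lib.Helper15
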