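import Mathlib
import Cfsg.Agent.Lib.Helper15.OmegaPerfect

/-!
Transitivity properties of `Ω` on singular vectors.
-/

set_option autoImplicit false

namespace Cfsg.Agent.Lib.Helper15

open Matrix QuadraticMap Module

variable {ι : Type} [Fintype ι] [DecidableEq ι] {F : Type*} [Field F] (Q : QuadraticForm F (ι → F))

theorem exists_Omega_act_eq_of_perp [Finite F] (hQ : (polarBilin Q).Nondegenerate) (hn : 5 ≤ Fintype.card ι)
    (x y : ι → F) (hx : Q x = 0) (hy : Q y = 0) (hx0 : x ≠ 0) (hxy : polar Q x y = 0)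
    (hnot : y ∉ Submodule.span F {x}) : ∃ g ∈ Cfsg.Omega F ⇑Q, act Q g x = y := by
  have hu : Q (x - y) = 0 := by
    rw [sub_eq_add_neg, QuadraticMap.map_add Q, QuadraticMap.map_neg, hx, hy, polar_neg_right, hxy]; simp
  have hxu : polar Q x (x - y) = 0 := by rw [polar_sub_right, polar_self, hx, hxy]; simp
  have hn' : x ∉ Submodule.span F {x - y} := by
    intro h
    obtain ⟨c, hc⟩ := Submodule.mem_span_singleton.1 h
    by_cases hc0 : c = 0
    · rw [hc0, zero_smul] at hc; exact hx0 hc.symm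
    · apply hnot
      rw [Submodule.mem_span_singleton]
      refine ⟨c⁻¹ * (c - 1), ?_⟩
      have : c • y = (c - 1) • x := by
        rw [sub_smul, one_smul]
        rw [smul_sub] at hc
        linear_combination (exp := 1) -hc
      rw [mul_smul, ← this, smul_smul, inv_mul_cancel₀ hc0, one_smul]
  obtain ⟨g, hg, hgx, -⟩ := exists_eich_move Q hQ hn x (x - y) hx hu hxu hn'
  exact ⟨g, hg, by rw [hgx, sub_sub_cancel]⟩

omit [DecidableEq ι] in
theorem not_mem_span_symm {x y : ι → F} (hx0 : x ≠ 0) (h : y ∉ Submodule.span F {x}) :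
    x ∉ Submodule.span F {y} := by
  intro hx
  obtain ⟨c, hc⟩ := Submodule.mem_span_singleton.1 hx
  have hc0 : c ≠ 0 := by
    rintro rfl
    rw [zero_smul] at hc; exact hx0 hc.symm
  apply h
  rw [Submodule.mem_span_singleton]
  exact ⟨c⁻¹, by rw [← hc, smul_smul, inv_mul_cancel₀ hc0, one_smul]⟩

/-- `Ω` is transitive on non-zero singular vectors -/
theorem exists_Omega_act_eq [Finite F] (hQ : (polarBilin Q).Nondegenerate) (hn : 5 ≤ Fintype.card ι)
    (x y : ι → F) (hx : Q x = 0) (hy : Q y = 0) (hx0 : x ≠ 0) (hy0 : y ≠ 0) :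
    ∃ g ∈ Cfsg.Omega F ⇑Q, act Q g x = y := by
  -- it suffices to find an intermediate vector
  suffices h : (polar Q x y = 0 ∧ y ∉ Submodule.span F {x}) ∨
      ∃ z, Q z = 0 ∧ z ≠ 0 ∧ polar Q x z = 0 ∧ polar Q z y = 0 ∧ z ∉ Submodule.span F {x} ∧
        z ∉ Submodule.span F {y} by
    rcases h with ⟨h1, h2⟩ | ⟨z, hz, hz0, hxz, hzy, n1, n2⟩
    · exact exists_Omega_act_eq_of_perp Q hQ hn x y hx hy hx0 h1 h2
    · obtain ⟨g₁, hg₁, e₁⟩ := exists_Omega_act_eq_of_perp Q hQ hn x z hx hz hx0 hxz n1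
      obtain ⟨g₂, hg₂, e₂⟩ := exists_Omega_act_eq_of_perp Q hQ hn z y hz hy hz0 hzy (not_mem_span_symm hy0 n2)
      exact ⟨g₂ * g₁, Subgroup.mul_mem _ hg₂ hg₁, by rw [act_mul, e₁, e₂]⟩
  by_cases hxy : polar Q x y = 0
  · by_cases hspan : y ∈ Submodule.span F {x}
    · right
      obtain ⟨x', -, hx'⟩ := exists_hyp_partner Q (nd_of_nondegenerate hQ) x hx0 hx
      obtain ⟨z, hz0, hz⟩ := exists_isotropic (Q.comp (pairPerp Q x x').subtype)
        (three_le_finrank_pairPerp Q hn x x')
      have hz' := (mem_pairPerp Q x x' z).1 z.2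
      have hzne : (z : ι → F) ≠ 0 := fun h => hz0 (Subtype.ext h)
      have n1 : (z : ι → F) ∉ Submodule.span F {x} := by
        intro h
        obtain ⟨a, ha⟩ := Submodule.mem_span_singleton.1 h
        have h2 := hz'.2
        rw [← ha, polar_smul_right, smul_eq_mul, polar_comm Q x' x, hx', mul_one] at h2
        apply hzne; rw [← ha, h2, zero_smul]
      obtain ⟨c, rfl⟩ := Submodule.mem_span_singleton.1 hspan
      refine ⟨z, hz, hzne, hz'.1, by rw [polar_smul_right, polar_comm Q z x, hz'.1, smul_zero], n1, ?_⟩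
      intro h
      apply n1
      obtain ⟨a, ha⟩ := Submodule.mem_span_singleton.1 h
      rw [Submodule.mem_span_singleton]
      exact ⟨a * c, by rw [mul_smul, ha]⟩
    · exact Or.inl ⟨hxy, hspan⟩
  · right
    obtain ⟨z, hz0, hz⟩ := exists_isotropic (Q.comp (pairPerp Q x y).subtype)
      (three_le_finrank_pairPerp Q hn x y)
    have hz' := (mem_pairPerp Q x y z).1 z.2
    have hzne : (z : ι → F) ≠ 0 := fun h => hz0 (Subtype.ext h)
    refine ⟨z, hz, hzne, hz'.1, by rw [polar_comm]; exact hz'.2, ?_, ?_⟩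
    · intro h
      obtain ⟨a, ha⟩ := Submodule.mem_span_singleton.1 h
      have h2 := hz'.2
      rw [← ha, polar_smul_right, smul_eq_mul, polar_comm Q y x] at h2
      rcases mul_eq_zero.1 h2 with h | h
      · apply hzne; rw [← ha, h, zero_smul]
      · exact hxy h
    · intro h
      obtain ⟨a, ha⟩ := Submodule.mem_span_singleton.1 h
      have h2 := hz'.1
      rw [← ha, polar_smul_right, smul_eq_mul] at h2
      rcases mul_eq_zero.1 h2 with h | h
      · apply hzne; rw [← ha, h, zero_smul]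
      · exact hxy h

/-- the stabiliser in `Ω` of a singular vector is transitive on its hyperbolic partners -/
theorem exists_Omega_fix_act_eq_hyp [Finite F] (hQ : (polarBilin Q).Nondegenerate) (hn : 5 ≤ Fintype.card ι)
    (x y y' : ι → F) (hx : Q x = 0) (hy : Q y = 0) (hy' : Q y' = 0) (hxy : polar Q x y = 1)
    (hxy' : polar Q x y' = 1) : ∃ g ∈ Cfsg.Omega F ⇑Q, act Q g x = x ∧ act Q g y = y' := by
  have huv : polar Q x (y' - y) = 0 := by rw [polar_sub_right, hxy, hxy', sub_self]
  refine ⟨eich Q x (y' - y) hx huv, eich_mem_Omega Q hQ hn _ _ _ _, ?_, ?_⟩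
  · rw [act_eich, polar_self, hx, polar_comm Q _ x, huv]; simp
  · rw [act_eich, hxy, polar_sub_left, polar_self, hy, sub_eq_add_neg y' y, QuadraticMap.map_add Q,
      QuadraticMap.map_neg, hy, hy', polar_neg_right]
    simp

omit [DecidableEq ι] in
theorem exists_perp_not_perp' (hQ : (polarBilin Q).Nondegenerate) (W : Submodule F (ι → F)) (x : ι → F)
    (hnot : x ∉ W) : ∃ y, (∀ w ∈ W, polar Q w y = 0) ∧ polar Q y x ≠ 0 := by
  have hrefl : (polarBilin Q).IsRefl := fun a b h => by
    have : polar Q a b = 0 := h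
    show polar Q b a = 0
    rw [polar_comm]; exact this
  by_contra hcon
  push Not at hcon
  apply hnot
  rw [← LinearMap.BilinForm.orthogonal_orthogonal hQ hrefl W]
  intro y hy
  apply hcon y
  exact hy

theorem exists_Omega_fix_move [Finite F] (hQ : (polarBilin Q).Nondegenerate) (hn : 5 ≤ Fintype.card ι)
    (x y u : ι → F) (hy : Q y = 0) (hu : Q u = 0) (hxy : polar Q x y = 0) (hxu : polar Q x u = 0)
    (hyu : polar Q y u = 0) (hnot : y ∉ Submodule.span F {u, x}) :
    ∃ g ∈ Cfsg.Omega F ⇑Q, act Q g x = x ∧ act Q g y = y - u := by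
  obtain ⟨v₀, h1, h2⟩ := exists_perp_not_perp' Q hQ _ y hnot
  have hu0 : polar Q u v₀ = 0 := h1 u (Submodule.subset_span (by simp))
  have hx0 : polar Q x v₀ = 0 := h1 x (Submodule.subset_span (by simp))
  obtain ⟨v₁, k1, k2, k3⟩ : ∃ v₁, polar Q u v₁ = 0 ∧ polar Q x v₁ = 0 ∧ polar Q v₁ y = 1 :=
    ⟨(polar Q v₀ y)⁻¹ • v₀, by rw [polar_smul_right, hu0, smul_zero], by rw [polar_smul_right, hx0, smul_zero],
      by rw [polar_smul_left, smul_eq_mul, inv_mul_cancel₀ h2]⟩
  obtain ⟨v, l0, l1, l2, l3⟩ : ∃ v, Q v = 0 ∧ polar Q u v = 0 ∧ polar Q x v = 0 ∧ polar Q v y = 1 := by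
    refine ⟨v₁ - Q v₁ • y, ?_, ?_, ?_, ?_⟩
    · rw [sub_eq_add_neg, ← neg_smul, QuadraticMap.map_add Q, QuadraticMap.map_smul, hy, polar_smul_right, k3]
      simp
    · rw [polar_sub_right, polar_smul_right, k1, polar_comm Q u y, hyu]; simp
    · rw [polar_sub_right, polar_smul_right, k2, hxy]; simp
    · rw [polar_sub_left, polar_smul_left, polar_self, hy, k3]; simp
  refine ⟨eich Q u v hu l1, eich_mem_Omega Q hQ hn _ _ _ _, ?_, ?_⟩
  · rw [act_eich, polar_comm Q u x, hxu, polar_comm Q v x, l2]; simp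
  · rw [act_eich, polar_comm Q u y, hyu, l3, l0]; simp

omit [DecidableEq ι] in
theorem exists_singular_perp_four [Finite F] (hn : 7 ≤ Fintype.card ι) (c₁ c₂ c₃ c₄ : ι → F) :
    ∃ z, z ≠ 0 ∧ Q z = 0 ∧ polar Q c₁ z = 0 ∧ polar Q c₂ z = 0 ∧ polar Q c₃ z = 0 ∧ polar Q c₄ z = 0 := by
  have hA : ∀ a a' : ι → F, Fintype.card ι ≤ finrank F (pairPerp Q a a') + 2 := by
    intro a a'
    have h2 := LinearMap.finrank_range_add_finrank_ker ((polarBilin Q a).prod (polarBilin Q a'))
    have h3 : finrank F (LinearMap.range ((polarBilin Q a).prod (polarBilin Q a'))) ≤ 2 := by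
      have := Submodule.finrank_le (LinearMap.range ((polarBilin Q a).prod (polarBilin Q a')))
      rwa [finrank_prod, finrank_self] at this
    rw [finrank_fintype_fun_eq_card] at h2
    unfold pairPerp
    omega
  have h1 := Submodule.finrank_sup_add_finrank_inf_eq (pairPerp Q c₁ c₂) (pairPerp Q c₃ c₄)
  have h2 := Submodule.finrank_le (pairPerp Q c₁ c₂ ⊔ pairPerp Q c₃ c₄)
  rw [finrank_fintype_fun_eq_card] at h2
  have h3 := hA c₁ c₂
  have h4 := hA c₃ c₄
  obtain ⟨z, hz0, hz⟩ := exists_isotropic (Q.comp (pairPerp Q c₁ c₂ ⊓ pairPerp Q c₃ c₄ : Submodule F (ι → F)).subtype)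
    (by omega)
  have hz1 := (mem_pairPerp Q c₁ c₂ z).1 z.2.1
  have hz2 := (mem_pairPerp Q c₃ c₄ z).1 z.2.2
  exact ⟨z, fun h => hz0 (Subtype.ext h), hz, hz1.1, hz1.2, hz2.1, hz2.2⟩

/-- the stabiliser in `Ω` of a singular vector `x` is transitive on the singular vectors of `x^⊥` outside `⟨x⟩` -/
theorem exists_Omega_fix_act_eq_perp [Finite F] (hQ : (polarBilin Q).Nondegenerate) (hn : 7 ≤ Fintype.card ι)
    (x y y' : ι → F) (hx0 : x ≠ 0) (hx : Q x = 0) (hy : Q y = 0) (hy' : Q y' = 0) (hxy : polar Q x y = 0)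
    (hxy' : polar Q x y' = 0) (hny : y ∉ Submodule.span F {x}) (hny' : y' ∉ Submodule.span F {x}) :
    ∃ g ∈ Cfsg.Omega F ⇑Q, act Q g x = x ∧ act Q g y = y' := by
  have hn5 : 5 ≤ Fintype.card ι := by omega
  -- one step
  have step : ∀ a b : ι → F, Q a = 0 → Q b = 0 → polar Q x a = 0 → polar Q x b = 0 → polar Q a b = 0 →
      a ∉ Submodule.span F {x} → b ∉ Submodule.span F {x, a} →
      ∃ g ∈ Cfsg.Omega F ⇑Q, act Q g x = x ∧ act Q g a = b := by
    intro a b ha hb hxa hxb hab hna hnb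
    have hu : Q (a - b) = 0 := by
      rw [sub_eq_add_neg, QuadraticMap.map_add Q, QuadraticMap.map_neg, ha, hb, polar_neg_right, hab]; simp
    obtain ⟨g, hg, e1, e2⟩ := exists_Omega_fix_move Q hQ hn5 x a (a - b) ha hu hxa
      (by rw [polar_sub_right, hxa, hxb, sub_zero]) (by rw [polar_sub_right, polar_self, ha, hab]; simp) (by
        intro h
        obtain ⟨α, β, hαβ⟩ := Submodule.mem_span_pair.1 h
        by_cases hα : α = 0
        · apply hna
          rw [Submodule.mem_span_singleton]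
          exact ⟨β, by rw [← hαβ, hα]; simp⟩
        · apply hnb
          rw [Submodule.mem_span_pair]
          refine ⟨α⁻¹ * β, α⁻¹ * (α - 1), ?_⟩
          have : α • b = β • x + (α - 1) • a := by
            rw [sub_smul, one_smul]
            rw [smul_sub] at hαβ
            linear_combination (exp := 1) -hαβ
          rw [mul_smul, mul_smul, ← smul_add, ← this, smul_smul, inv_mul_cancel₀ hα, one_smul])
    exact ⟨g, hg, e1, by rw [e2, sub_sub_cancel]⟩
  have two : ∀ z, Q z = 0 → polar Q x z = 0 → polar Q y z = 0 → polar Q z y' = 0 → z ∉ Submodule.span F {x, y} →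
      y' ∉ Submodule.span F {x, z} → ∃ g ∈ Cfsg.Omega F ⇑Q, act Q g x = x ∧ act Q g y = y' := by
    intro z hz hxz hyz hzy' n1 n2
    have n3 : z ∉ Submodule.span F {x} := fun h => n1 (Submodule.span_mono (by simp) h)
    obtain ⟨g₁, hg₁, a₁, b₁⟩ := step y z hy hz hxy hxz hyz hny n1
    obtain ⟨g₂, hg₂, a₂, b₂⟩ := step z y' hz hy' hxz hxy' hzy' n3 n2
    exact ⟨g₂ * g₁, Subgroup.mul_mem _ hg₂ hg₁, by rw [act_mul, a₁, a₂], by rw [act_mul, b₁, b₂]⟩
  obtain ⟨x', -, hx'⟩ := exists_hyp_partner Q (nd_of_nondegenerate hQ) x hx0 hx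
  have hx'x : polar Q x' x = 1 := by rw [polar_comm]; exact hx'
  by_cases hyy' : polar Q y y' = 0
  · by_cases hsp : y' ∈ Submodule.span F {x, y}
    · obtain ⟨ŷ, hŷx, hŷy⟩ := exists_perp_not_perp Q hQ y x hny
      obtain ⟨z, hz0, hz, z1, z2, z3, z4⟩ := exists_singular_perp_four Q hn x y x' ŷ
      have n1 : z ∉ Submodule.span F {x, y} := by
        intro h
        obtain ⟨α, β, rfl⟩ := Submodule.mem_span_pair.1 h
        rw [polar_add_right, polar_smul_right, polar_smul_right, polar_comm Q ŷ x, hŷx, smul_zero, zero_add,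
          smul_eq_mul] at z4
        have hβ : β = 0 := (mul_eq_zero.1 z4).resolve_right hŷy
        rw [hβ, zero_smul, add_zero, polar_smul_right, hx'x, smul_eq_mul, mul_one] at z3
        rw [hβ, z3] at hz0
        simp at hz0
      obtain ⟨α, β, hαβ⟩ := Submodule.mem_span_pair.1 hsp
      apply two z hz z1 z2 _ n1
      · intro h
        obtain ⟨γ, δ, hγδ⟩ := Submodule.mem_span_pair.1 h
        by_cases hδ : δ = 0
        · apply hny'
          rw [Submodule.mem_span_singleton]
          exact ⟨γ, by rw [← hγδ, hδ]; simp⟩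
        · apply n1
          rw [Submodule.mem_span_pair]
          refine ⟨δ⁻¹ * (α - γ), δ⁻¹ * β, ?_⟩
          have : δ • z = (α - γ) • x + β • y := by
            rw [sub_smul]
            linear_combination (exp := 1) hγδ - hαβ
          rw [mul_smul, mul_smul, ← smul_add, ← this, smul_smul, inv_mul_cancel₀ hδ, one_smul]
      · rw [← hαβ, polar_add_right, polar_smul_right, polar_smul_right, polar_comm Q z x, z1, polar_comm Q z y, z2]
        simp
    · exact step y y' hy hy' hxy hxy' hyy' hny hsp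
  · obtain ⟨z, hz0, hz, z1, z2, z3, z4⟩ := exists_singular_perp_four Q hn x y y' x'
    apply two z hz z1 z2 (by rw [polar_comm]; exact z3)
    · intro h
      obtain ⟨α, β, rfl⟩ := Submodule.mem_span_pair.1 h
      rw [polar_add_right, polar_smul_right, polar_smul_right, polar_comm Q y' x, hxy', smul_zero, zero_add,
        smul_eq_mul, polar_comm Q y' y] at z3
      have hβ : β = 0 := (mul_eq_zero.1 z3).resolve_right hyy'
      rw [hβ, zero_smul, add_zero, polar_smul_right, hx'x, smul_eq_mul, mul_one] at z4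
      rw [hβ, z4] at hz0
      simp at hz0
    · intro h
      obtain ⟨γ, δ, hγδ⟩ := Submodule.mem_span_pair.1 h
      apply hyy'
      rw [← hγδ, polar_add_right, polar_smul_right, polar_smul_right, polar_comm Q y x, hxy, z2]
      simp

end Cfsg.Agent.Lib.Helper15
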