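import Mathlib
import Cfsg.Agent.Lib.Helper15.OmegaTrans

/-!
Simplicity of `PΩ` in dimension at least seven, via Iwasawa's criterion on the singular points.
-/

set_option autoImplicit false

namespace Cfsg.Agent.Lib.Helper15

open Matrix QuadraticMap Module MulAction
open scoped Pointwise

variable {ι : Type} [Fintype ι] [DecidableEq ι] {F : Type*} [Field F] (Q : QuadraticForm F (ι → F))

/-- singular points -/
structure SPt where
  /-- the underlying line -/
  val : Submodule F (ι → F)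
  /-- it is spanned by a non-zero singular vector -/
  prop : ∃ u, u ≠ 0 ∧ Q u = 0 ∧ val = Submodule.span F {u}

omit [Fintype ι] [DecidableEq ι] in
theorem SPt.ext' {Q : QuadraticForm F (ι → F)} {p p' : SPt Q} (h : p.val = p'.val) : p = p' := by
  cases p; cases p'; simp only [SPt.mk.injEq]; exact h

variable {Q}

theorem map_span_act (g : Cfsg.isometryGroup F ⇑Q) (u : ι → F) :
    (Submodule.span F {u}).map (Matrix.mulVecLin ((g : GL ι F) : Matrix ι ι F)) = Submodule.span F {act Q g u} := by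
  rw [Submodule.map_span, Set.image_singleton]
  rfl

theorem act_ne_zero (g : Cfsg.isometryGroup F ⇑Q) {u : ι → F} (hu : u ≠ 0) : act Q g u ≠ 0 := by
  intro h
  apply hu
  rw [← act_inv_act g u, h]
  simp [act]

noncomputable instance : MulAction (Cfsg.Omega F ⇑Q) (SPt Q) where
  smul g L := ⟨L.1.map (Matrix.mulVecLin (((g : Cfsg.isometryGroup F ⇑Q) : GL ι F) : Matrix ι ι F)), by
    obtain ⟨u, hu0, hu, hL⟩ := L.2
    exact ⟨act Q g u, act_ne_zero _ hu0, by rw [Q_act, hu], by rw [hL, map_span_act]⟩⟩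
  one_smul L := by
    apply SPt.ext'
    show L.1.map (Matrix.mulVecLin ((((1 : Cfsg.Omega F ⇑Q) : Cfsg.isometryGroup F ⇑Q) : GL ι F) : Matrix ι ι F)) = L.1
    simp
  mul_smul g h L := by
    apply SPt.ext'
    show L.1.map (Matrix.mulVecLin ((((g * h : Cfsg.Omega F ⇑Q) : Cfsg.isometryGroup F ⇑Q) : GL ι F) : Matrix ι ι F))
      = (L.1.map (Matrix.mulVecLin (((h : Cfsg.isometryGroup F ⇑Q) : GL ι F) : Matrix ι ι F))).map
        (Matrix.mulVecLin (((g : Cfsg.isometryGroup F ⇑Q) : GL ι F) : Matrix ι ι F))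
    rw [← Submodule.map_comp, ← Matrix.mulVecLin_mul]
    rfl

theorem sPt_smul_val (g : Cfsg.Omega F ⇑Q) (L : SPt Q) :
    (g • L).1 = L.1.map (Matrix.mulVecLin (((g : Cfsg.isometryGroup F ⇑Q) : GL ι F) : Matrix ι ι F)) := rfl

theorem smul_val_of_span (g : Cfsg.Omega F ⇑Q) (L : SPt Q) (u : ι → F) (h : L.1 = Submodule.span F {u}) :
    (g • L).1 = Submodule.span F {act Q g u} := by
  rw [sPt_smul_val, h, map_span_act]

omit [Fintype ι] [DecidableEq ι] in
theorem span_smul_eq {c : F} (hc : c ≠ 0) (u : ι → F) : Submodule.span F {c • u} = Submodule.span F {u} :=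
  Submodule.span_singleton_smul_eq (IsUnit.mk0 c hc) u

variable (Q)

omit [DecidableEq ι] in
/-- a singular vector not orthogonal to either of two orthogonal singular vectors -/
theorem exists_singular_not_perp_two (hQ : (polarBilin Q).Nondegenerate) (x z : ι → F) (hx0 : x ≠ 0)
    (hz0 : z ≠ 0) (hx : Q x = 0) (hz : Q z = 0) (hxz : polar Q x z = 0) :
    ∃ w, Q w = 0 ∧ polar Q x w ≠ 0 ∧ polar Q z w ≠ 0 := by
  have hND := nd_of_nondegenerate hQ
  obtain ⟨z', hz', hzz'⟩ := exists_hyp_partner Q hND z hz0 hz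
  by_cases h : polar Q x z' = 0
  · have hmem : x ∈ pairPerp Q z z' := by
      rw [mem_pairPerp]
      exact ⟨by rw [polar_comm]; exact hxz, by rw [polar_comm]; exact h⟩
    obtain ⟨x', hx', hxx'⟩ := exists_hyp_partner (Q.comp (pairPerp Q z z').subtype)
      (nd_pairPerp Q hND z z' hz hz' hzz') ⟨x, hmem⟩ (fun h0 => hx0 (congrArg Subtype.val h0)) hx
    have hx'' := (mem_pairPerp Q z z' x').1 x'.2
    have h1 : Q (x' : ι → F) = 0 := hx'
    have h2 : polar Q x (x' : ι → F) = 1 := hxx'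
    refine ⟨x' + z', ?_, ?_, ?_⟩
    · rw [QuadraticMap.map_add Q, h1, hz', polar_comm Q _ z', hx''.2]; simp
    · rw [polar_add_right, h2, h]; simp
    · rw [polar_add_right, hx''.1, hzz']; simp
  · exact ⟨z', hz', h, by rw [hzz']; exact one_ne_zero⟩

theorem isPretransitive_SPt [Finite F] (hQ : (polarBilin Q).Nondegenerate) (hn : 5 ≤ Fintype.card ι) :
    IsPretransitive (Cfsg.Omega F ⇑Q) (SPt Q) := by
  constructor
  rintro ⟨L, x, hx0, hx, rfl⟩ ⟨L', y, hy0, hy, rfl⟩
  obtain ⟨g, hg, hgx⟩ := exists_Omega_act_eq Q hQ hn x y hx hy hx0 hy0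
  refine ⟨⟨g, hg⟩, ?_⟩
  apply SPt.ext'
  rw [smul_val_of_span _ _ x rfl]
  show Submodule.span F {act Q g x} = _
  rw [hgx]

theorem isPreprimitive_SPt [Finite F] (hQ : (polarBilin Q).Nondegenerate) (hn : 7 ≤ Fintype.card ι) :
    IsPreprimitive (Cfsg.Omega F ⇑Q) (SPt Q) := by
  have hn5 : 5 ≤ Fintype.card ι := by omega
  have := isPretransitive_SPt Q hQ hn5
  constructor
  intro B hB
  by_contra hcon
  unfold IsTrivialBlock at hcon
  push Not at hcon
  obtain ⟨hns, hne⟩ := hcon
  set P : (ι → F) → Prop := fun u => ∃ p ∈ B, p.1 = Submodule.span F {u} with hP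
  have F1 : ∀ (g : Cfsg.isometryGroup F ⇑Q), g ∈ Cfsg.Omega F ⇑Q → ∀ x y, P x → act Q g x = x → P y →
      P (act Q g y) := by
    rintro g hg x y ⟨p, hp, hpx⟩ hgx ⟨p', hp', hpy⟩
    have h1 : (⟨g, hg⟩ : Cfsg.Omega F ⇑Q) • p = p := by
      apply SPt.ext'
      rw [smul_val_of_span _ _ x hpx, hpx]
      show Submodule.span F {act Q g x} = _
      rw [hgx]
    have h2 : (⟨g, hg⟩ : Cfsg.Omega F ⇑Q) • B = B := hB.smul_eq_of_mem hp (by rw [h1]; exact hp)
    refine ⟨(⟨g, hg⟩ : Cfsg.Omega F ⇑Q) • p', ?_, smul_val_of_span _ _ y hpy⟩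
    rw [← h2]
    exact Set.smul_mem_smul_set hp'
  have F2 : ∀ (c : F) (u : ι → F), c ≠ 0 → (P (c • u) ↔ P u) := by
    intro c u hc
    simp only [hP, span_smul_eq hc]
  have claimA : ∀ x y z, P x → P y → Q x = 0 → Q y = 0 → Q z = 0 → polar Q x y ≠ 0 → polar Q x z ≠ 0 → P z := by
    intro x y z hPx hPy hx hy hz hxy hxz
    obtain ⟨g, hg, e1, e2⟩ := exists_Omega_fix_act_eq_hyp Q hQ hn5 x ((polar Q x y)⁻¹ • y) ((polar Q x z)⁻¹ • z) hx
      (by rw [QuadraticMap.map_smul, hy, smul_zero]) (by rw [QuadraticMap.map_smul, hz, smul_zero])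
      (by rw [polar_smul_right, smul_eq_mul, inv_mul_cancel₀ hxy])
      (by rw [polar_smul_right, smul_eq_mul, inv_mul_cancel₀ hxz])
    have := F1 g hg x _ hPx e1 ((F2 _ y (inv_ne_zero hxy)).2 hPy)
    rw [e2] at this
    exact (F2 _ z (inv_ne_zero hxz)).1 this
  have claimB : ∀ x y z, P x → P y → x ≠ 0 → Q x = 0 → Q y = 0 → Q z = 0 → polar Q x y = 0 → polar Q x z = 0 →
      y ∉ Submodule.span F {x} → z ∉ Submodule.span F {x} → P z := by
    intro x y z hPx hPy hx0 hx hy hz hxy hxz hny hnz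
    obtain ⟨g, hg, e1, e2⟩ := exists_Omega_fix_act_eq_perp Q hQ hn x y z hx0 hx hy hz hxy hxz hny hnz
    have := F1 g hg x _ hPx e1 hPy
    rwa [e2] at this
  -- two distinct points of the block
  obtain ⟨⟨L, x, hx0, hx, rfl⟩, hp, ⟨L', y, hy0, hy, rfl⟩, hp', hpp'⟩ := hns
  have hPx : P x := ⟨_, hp, rfl⟩
  have hPy : P y := ⟨_, hp', rfl⟩
  have hny : y ∉ Submodule.span F {x} := by
    intro h
    obtain ⟨c, rfl⟩ := Submodule.mem_span_singleton.1 h
    have hc : c ≠ 0 := by rintro rfl; simp at hy0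
    apply hpp'
    apply SPt.ext'
    exact (span_smul_eq hc x).symm
  have hall : ∀ z, z ≠ 0 → Q z = 0 → P z := by
    intro z hz0 hz
    by_cases hxy : polar Q x y = 0
    · by_cases hxz : polar Q x z = 0
      · by_cases hzs : z ∈ Submodule.span F {x}
        · obtain ⟨c, rfl⟩ := Submodule.mem_span_singleton.1 hzs
          have hc : c ≠ 0 := by rintro rfl; simp at hz0
          exact (F2 c x hc).2 hPx
        · exact claimB x y z hPx hPy hx0 hx hy hz hxy hxz hny hzs
      · obtain ⟨w, hw0, hw⟩ := exists_isotropic (Q.comp (pairPerp Q x z).subtype)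
          (three_le_finrank_pairPerp Q hn5 x z)
        have hw' := (mem_pairPerp Q x z w).1 w.2
        have hwne : (w : ι → F) ≠ 0 := fun h => hw0 (Subtype.ext h)
        have n1 : (w : ι → F) ∉ Submodule.span F {x} := by
          intro h
          obtain ⟨a, ha⟩ := Submodule.mem_span_singleton.1 h
          have h2 := hw'.2
          rw [← ha, polar_smul_right, smul_eq_mul, polar_comm Q z x] at h2
          rcases mul_eq_zero.1 h2 with h | h
          · apply hwne; rw [← ha, h, zero_smul]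
          · exact hxz h
        have n2 : (w : ι → F) ∉ Submodule.span F {z} := by
          intro h
          obtain ⟨a, ha⟩ := Submodule.mem_span_singleton.1 h
          have h2 := hw'.1
          rw [← ha, polar_smul_right, smul_eq_mul] at h2
          rcases mul_eq_zero.1 h2 with h | h
          · apply hwne; rw [← ha, h, zero_smul]
          · exact hxz h
        have hPw : P w := claimB x y w hPx hPy hx0 hx hy hw hxy hw'.1 hny n1
        exact claimB w x z hPw hPx hwne hw hx hz (by rw [polar_comm]; exact hw'.1)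
          (by rw [polar_comm]; exact hw'.2) (not_mem_span_symm hx0 n1) (not_mem_span_symm hz0 n2)
    · by_cases hxz : polar Q x z = 0
      · obtain ⟨w, hw, hxw, hzw⟩ := exists_singular_not_perp_two Q hQ x z hx0 hz0 hx hz hxz
        have hPw : P w := claimA x y w hPx hPy hx hy hw hxy hxw
        exact claimA w x z hPw hPx hw hx hz (by rw [polar_comm]; exact hxw) (by rw [polar_comm]; exact hzw)
      · exact claimA x y z hPx hPy hx hy hz hxy hxz
  apply hne
  rw [Set.eq_univ_iff_forall]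
  rintro ⟨L, z, hz0, hz, rfl⟩
  obtain ⟨p, hp, hpz⟩ := hall z hz0 hz
  have : p = ⟨Submodule.span F {z}, z, hz0, hz, rfl⟩ := SPt.ext' hpz
  rwa [← this]

variable {Q}

/-- a generator of a singular point -/
noncomputable def SPt.gen (p : SPt Q) : ι → F := p.prop.choose

omit [Fintype ι] [DecidableEq ι] in
theorem SPt.gen_ne_zero (p : SPt Q) : p.gen ≠ 0 := p.prop.choose_spec.1

omit [Fintype ι] [DecidableEq ι] in
theorem SPt.gen_sing (p : SPt Q) : Q p.gen = 0 := p.prop.choose_spec.2.1

omit [Fintype ι] [DecidableEq ι] in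
theorem SPt.val_eq (p : SPt Q) : p.val = Submodule.span F {p.gen} := p.prop.choose_spec.2.2

/-- the root group at a singular point -/
def rootGrp (p : SPt Q) : Subgroup (Cfsg.Omega F ⇑Q) where
  carrier := {g | ∃ (v : ι → F) (huv : polar Q p.gen v = 0),
    (g : Cfsg.isometryGroup F ⇑Q) = eich Q p.gen v p.gen_sing huv}
  mul_mem' := by
    rintro a b ⟨v, hv, ha⟩ ⟨w, hw, hb⟩
    exact ⟨v + w, by rw [polar_add_right, hv, hw, add_zero], by rw [Subgroup.coe_mul, ha, hb, eich_mul]⟩
  one_mem' := ⟨0, by simp, by rw [eich_zero]; rfl⟩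
  inv_mem' := by
    rintro a ⟨v, hv, ha⟩
    exact ⟨-v, by rw [polar_neg_right, hv, neg_zero], by rw [Subgroup.coe_inv, ha, eich_inv]⟩

theorem mem_rootGrp_iff (p : SPt Q) (u : ι → F) (hu : Q u = 0) (hp : p.val = Submodule.span F {u})
    (g : Cfsg.Omega F ⇑Q) :
    g ∈ rootGrp p ↔ ∃ (v : ι → F) (huv : polar Q u v = 0), (g : Cfsg.isometryGroup F ⇑Q) = eich Q u v hu huv := by
  have h1 : p.gen ∈ Submodule.span F {u} := by
    rw [← hp, p.val_eq]; exact Submodule.mem_span_singleton_self _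
  obtain ⟨c, hc⟩ := Submodule.mem_span_singleton.1 h1
  have hc0 : c ≠ 0 := by
    rintro rfl
    rw [zero_smul] at hc
    exact p.gen_ne_zero hc.symm
  constructor
  · rintro ⟨v, hv, hg⟩
    have huv : polar Q u v = 0 := by
      rw [← hc, polar_smul_left, smul_eq_mul] at hv
      exact (mul_eq_zero.1 hv).resolve_left hc0
    refine ⟨c • v, by rw [polar_smul_right, huv, smul_zero], ?_⟩
    rw [hg, ← eich_smul_left Q u v c hu huv]
    exact eich_congr Q hc.symm rfl _ _ _ _
  · rintro ⟨v, hv, hg⟩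
    have huv : polar Q u (c⁻¹ • v) = 0 := by rw [polar_smul_right, hv, smul_zero]
    refine ⟨c⁻¹ • v, by rw [← hc, polar_smul_left, huv, smul_zero], ?_⟩
    rw [hg, eich_congr Q hc.symm rfl p.gen_sing _ (by rw [QuadraticMap.map_smul, hu, smul_zero])
      (by rw [polar_smul_left, huv, smul_zero]), eich_smul_left Q u (c⁻¹ • v) c hu huv]
    exact eich_congr Q rfl (by rw [smul_smul, mul_inv_cancel₀ hc0, one_smul]) _ _ _ _

variable (Q)

/-- `Ω` is generated by the Siegel transformations -/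
theorem Omega_le_closure_siegel [Fintype F] (hQ : (polarBilin Q).Nondegenerate) (hn : 5 ≤ Fintype.card ι) :
    Cfsg.Omega F ⇑Q ≤ Subgroup.closure {g : Cfsg.isometryGroup F ⇑Q |
      ∃ (u v : ι → F) (hu : Q u = 0) (huv : polar Q u v = 0), g = eich Q u v hu huv} := by
  set X := {g : Cfsg.isometryGroup F ⇑Q |
      ∃ (u v : ι → F) (hu : Q u = 0) (huv : polar Q u v = 0), g = eich Q u v hu huv} with hX
  have hnorm : (Subgroup.closure X).Normal := by
    constructor
    intro h hh g
    induction hh using Subgroup.closure_induction with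
    | mem x hx =>
      obtain ⟨u, v, hu, huv, rfl⟩ := hx
      apply Subgroup.subset_closure
      rw [conj_eich]
      exact ⟨_, _, _, _, rfl⟩
    | one => simp
    | mul x y _ _ hx hy =>
      have : g * (x * y) * g⁻¹ = (g * x * g⁻¹) * (g * y * g⁻¹) := by group
      rw [this]; exact Subgroup.mul_mem _ hx hy
    | inv x _ hx =>
      have : g * x⁻¹ * g⁻¹ = (g * x * g⁻¹)⁻¹ := by group
      rw [this]; exact Subgroup.inv_mem _ hx
  exact Omega_le_of_siegel Q _ (fun u v hu huv _ => Subgroup.subset_closure ⟨u, v, hu, huv, rfl⟩) hQ hn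

/-- the Iwasawa structure on the singular points -/
noncomputable def iwasawaSPt [Fintype F] (hQ : (polarBilin Q).Nondegenerate) (hn : 5 ≤ Fintype.card ι) :
    IwasawaStructure (Cfsg.Omega F ⇑Q) (SPt Q) where
  T := rootGrp
  is_comm p := ⟨⟨by
    rintro ⟨a, v, hv, ha⟩ ⟨b, w, hw, hb⟩
    apply Subtype.ext
    apply Subtype.ext
    show (a : Cfsg.isometryGroup F ⇑Q) * b = b * a
    rw [ha, hb, eich_mul, eich_mul]
    exact eich_congr Q rfl (add_comm v w) _ _ _ _⟩⟩
  is_conj g p := by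
    ext h
    rw [Subgroup.mem_pointwise_smul_iff_inv_smul_mem,
      mem_rootGrp_iff (g • p) (act Q g p.gen) (by rw [Q_act, p.gen_sing]) (smul_val_of_span g p _ p.val_eq),
      mem_rootGrp_iff p p.gen p.gen_sing p.val_eq]
    have e : (((MulAut.conj g)⁻¹ • h : Cfsg.Omega F ⇑Q) : Cfsg.isometryGroup F ⇑Q)
        = (g : Cfsg.isometryGroup F ⇑Q)⁻¹ * h * ((g : Cfsg.isometryGroup F ⇑Q)⁻¹)⁻¹ := by
      simp [MulAut.smul_def]
    rw [e]
    constructor
    · rintro ⟨v, hv, hh⟩
      refine ⟨act Q (g : Cfsg.isometryGroup F ⇑Q)⁻¹ v, ?_, ?_⟩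
      · rw [← polar_act (g : Cfsg.isometryGroup F ⇑Q), act_act_inv]; exact hv
      · rw [hh, conj_eich]
        exact eich_congr Q (act_inv_act _ _) rfl _ _ _ _
    · rintro ⟨w, hw, hh⟩
      refine ⟨act Q g w, by rw [polar_act]; exact hw, ?_⟩
      rw [← conj_eich Q g p.gen w p.gen_sing hw, ← hh]
      group
  is_generator := by
    rw [eq_top_iff]
    intro g _
    have h1 := Omega_le_closure_siegel Q hQ hn g.2
    have h2 : Subgroup.closure {g : Cfsg.isometryGroup F ⇑Q |
        ∃ (u v : ι → F) (hu : Q u = 0) (huv : polar Q u v = 0), g = eich Q u v hu huv}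
        ≤ (iSup (rootGrp (Q := Q))).map (Cfsg.Omega F ⇑Q).subtype := by
      rw [Subgroup.closure_le]
      rintro _ ⟨u, v, hu, huv, rfl⟩
      by_cases hu0 : u = 0
      · have : eich Q u v hu huv = 1 := by
          apply iso_ext
          intro x
          rw [act_eich, hu0, act_one]
          simp
        rw [this]
        exact Subgroup.one_mem _
      · refine ⟨⟨eich Q u v hu huv, eich_mem_Omega Q hQ hn u v hu huv⟩, ?_, rfl⟩
        apply Subgroup.mem_iSup_of_mem (⟨Submodule.span F {u}, u, hu0, hu, rfl⟩ : SPt Q)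
        rw [mem_rootGrp_iff _ u hu rfl]
        exact ⟨v, huv, rfl⟩
    obtain ⟨g', hg', h⟩ := h2 h1
    have : g' = g := Subtype.ext h
    rwa [← this]

/-- a normal subgroup of `Ω` is central or everything -/
theorem normal_le_center_or_eq_top [Fintype F] (hQ : (polarBilin Q).Nondegenerate) (hn : 7 ≤ Fintype.card ι)
    (N : Subgroup (Cfsg.Omega F ⇑Q)) [N.Normal] : N ≤ Subgroup.center (Cfsg.Omega F ⇑Q) ∨ N = ⊤ := by
  have hn5 : 5 ≤ Fintype.card ι := by omega
  have := isPreprimitive_SPt Q hQ hn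
  by_cases hfix : fixedPoints N (SPt Q) = Set.univ
  · left
    intro g hg
    have hT : ∀ u, Q u = 0 → ∃ c : F,
        Matrix.mulVecLin (((g : Cfsg.isometryGroup F ⇑Q) : GL ι F) : Matrix ι ι F) u = c • u := by
      intro u hu
      by_cases hu0 : u = 0
      · exact ⟨0, by rw [hu0]; simp⟩
      · have h1 : (⟨Submodule.span F {u}, u, hu0, hu, rfl⟩ : SPt Q) ∈ fixedPoints N (SPt Q) := by
          rw [hfix]; trivial
        have h2 := congrArg SPt.val (h1 ⟨g, hg⟩)
        have h3 : ((⟨g, hg⟩ : N) • (⟨Submodule.span F {u}, u, hu0, hu, rfl⟩ : SPt Q)).val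
            = Submodule.span F {act Q g u} := smul_val_of_span g _ u rfl
        rw [h3] at h2
        have h4 : act Q g u ∈ Submodule.span F {u} := by
          rw [← show Submodule.span F {act Q (g : Cfsg.isometryGroup F ⇑Q) u} = Submodule.span F {u} from h2]
          exact Submodule.mem_span_singleton_self _
        obtain ⟨c, hc⟩ := Submodule.mem_span_singleton.1 h4
        exact ⟨c, hc.symm⟩
    obtain ⟨c, hc⟩ := scalar_of_fix_singular Q hQ hn5 _ hT
    rw [Subgroup.mem_center_iff]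
    intro h
    apply Subtype.ext
    apply iso_ext
    intro x
    show act Q ((h : Cfsg.isometryGroup F ⇑Q) * g) x = act Q ((g : Cfsg.isometryGroup F ⇑Q) * h) x
    rw [act_mul, act_mul]
    have e1 : act Q (g : Cfsg.isometryGroup F ⇑Q) x = c • x := hc x
    have e2 : act Q (g : Cfsg.isometryGroup F ⇑Q) (act Q h x) = c • act Q h x := hc _
    rw [e1, e2, act_smul]
  · right
    have h1 := (iwasawaSPt Q hQ hn5).commutator_le N hfix
    rw [commutator_Omega_eq_top Q hQ hn5] at h1
    exact top_le_iff.1 h1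

/-- **Simplicity of `PΩ`** in dimension at least seven. -/
theorem POmega_isSimpleGroup [Fintype F] (hQ : (polarBilin Q).Nondegenerate) (hn : 7 ≤ Fintype.card ι) :
    IsSimpleGroup (Cfsg.POmega F ⇑Q) := by
  have hn5 : 5 ≤ Fintype.card ι := by omega
  have hne : Subgroup.center (Cfsg.Omega F ⇑Q) ≠ ⊤ := by
    intro htop
    have hcomm : commutator (Cfsg.Omega F ⇑Q) = ⊥ := by
      rw [commutator_def, Subgroup.commutator_eq_bot_iff_le_centralizer, Subgroup.coe_top,
        Subgroup.centralizer_univ, htop]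
    rw [commutator_Omega_eq_top Q hQ hn5] at hcomm
    -- but `Ω` is not trivial
    obtain ⟨x, hx0, hx⟩ := exists_isotropic Q (by rw [finrank_fintype_fun_eq_card]; omega)
    obtain ⟨x', hx', hxx'⟩ := exists_hyp_partner Q (nd_of_nondegenerate hQ) x hx0 hx
    have hx'0 : x' ≠ 0 := by rintro rfl; simp at hxx'
    obtain ⟨g, hg, hgx⟩ := exists_Omega_act_eq Q hQ hn5 x x' hx hx' hx0 hx'0
    have h1 : (⟨g, hg⟩ : Cfsg.Omega F ⇑Q) ∈ (⊤ : Subgroup (Cfsg.Omega F ⇑Q)) := trivial
    rw [hcomm, Subgroup.mem_bot] at h1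
    have h2 : g = 1 := congrArg Subtype.val h1
    rw [h2, act_one] at hgx
    rw [← hgx, polar_self, hx] at hxx'
    simp at hxx'
  have hnt : Nontrivial (Cfsg.POmega F ⇑Q) := by
    rw [QuotientGroup.nontrivial_iff]
    exact hne
  refine ⟨fun H hH => ?_⟩
  have hN : (H.comap (QuotientGroup.mk' (Subgroup.center (Cfsg.Omega F ⇑Q)))).Normal := hH.comap _
  rcases normal_le_center_or_eq_top Q hQ hn (H.comap (QuotientGroup.mk' (Subgroup.center (Cfsg.Omega F ⇑Q))))
    with h | h
  · left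
    rw [eq_bot_iff]
    intro x hx
    obtain ⟨g, rfl⟩ := QuotientGroup.mk'_surjective _ x
    rw [Subgroup.mem_bot, QuotientGroup.mk'_apply, QuotientGroup.eq_one_iff]
    exact h hx
  · right
    rw [eq_top_iff]
    intro x _
    obtain ⟨g, rfl⟩ := QuotientGroup.mk'_surjective _ x
    have : g ∈ H.comap (QuotientGroup.mk' (Subgroup.center (Cfsg.Omega F ⇑Q))) := by rw [h]; trivial
    exact this

end Cfsg.Agent.Lib.Helper15
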