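import Mathlib
import Cfsg.Agent.Lib.Helper15.RankMat
import Cfsg.Prelude.Def_SporadicB

set_option autoImplicit false

namespace Cfsg.Agent.Lib.Helper15

open Matrix QuadraticMap Module

section abstract

variable {F : Type*} [Field F] {V : Type*} [AddCommGroup V] [Module F V]

/-- an isometry `g` with `g - 1` of rank one is a reflection -/
theorem eq_rL_of_finrank_range_eq_one [FiniteDimensional F V] (Q : QuadraticForm F V) (hQ : ND Q)
    (g : Module.End F V) (hg : ∀ x, Q (g x) = Q x) (h1 : finrank F (LinearMap.range (g - 1)) = 1) :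
    ∃ w, Q w ≠ 0 ∧ g = rL Q w := by
  obtain ⟨⟨w, hwr⟩, hw0, hw⟩ := finrank_eq_one_iff'.1 h1
  have hw0' : w ≠ 0 := fun h => hw0 (Subtype.ext h)
  have hc : ∀ x, ∃ c : F, g x = x + c • w := by
    intro x
    obtain ⟨c, hc⟩ := hw ⟨(g - 1) x, LinearMap.mem_range_self _ x⟩
    refine ⟨c, ?_⟩
    have : c • w = g x - x := congrArg Subtype.val hc
    rw [this]; abel
  have hperp : ∀ y ∈ fixS g, polar Q y w = 0 := by
    rw [range_sub_one_eq Q hQ g hg] at hwr
    exact hwr
  have hQw : Q w ≠ 0 := by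
    intro h0
    apply hw0'
    apply hQ
    intro x
    rw [polar_comm]
    obtain ⟨c, hc⟩ := hc x
    by_cases hc0 : c = 0
    · apply hperp
      rw [mem_fixS, hc, hc0]; simp
    · have := hg x
      rw [hc, QuadraticMap.map_add Q, QuadraticMap.map_smul, h0, polar_smul_right] at this
      simp only [smul_eq_mul, mul_zero, add_zero] at this
      have h3 : c * polar Q x w = 0 := by linear_combination this
      exact (mul_eq_zero.1 h3).resolve_left hc0
  refine ⟨w, hQw, ?_⟩
  have h3 := finrank_fixS_rL_mul Q g hg w hQw hwr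
  have h4 := LinearMap.finrank_range_add_finrank_ker (g - 1)
  have h5 : finrank F (fixS g) = finrank F (LinearMap.ker (g - 1)) := rfl
  have htop : fixS (rL Q w * g) = ⊤ := by
    apply Submodule.eq_top_of_finrank_eq
    omega
  have h6 : rL Q w * g = 1 := by
    apply LinearMap.ext
    intro x
    have : x ∈ fixS (rL Q w * g) := by rw [htop]; trivial
    exact (mem_fixS _ x).1 this
  calc g = (rL Q w * rL Q w) * g := by rw [rL_mul_self Q hQw, one_mul]
    _ = rL Q w * (rL Q w * g) := mul_assoc _ _ _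
    _ = rL Q w := by rw [h6, mul_one]

theorem finrank_range_rL_sub_one (Q : QuadraticForm F V) (hQ : ND Q) (w : V) (hw : Q w ≠ 0) :
    finrank F (LinearMap.range (rL Q w - 1)) = 1 := by
  have hw0 : w ≠ 0 := by rintro rfl; simp at hw
  have : LinearMap.range (rL Q w - 1) = Submodule.span F {w} := by
    apply le_antisymm
    · rintro _ ⟨x, rfl⟩
      rw [LinearMap.sub_apply, rL_apply, Module.End.one_apply, sub_sub_cancel_left, ← neg_smul]
      exact Submodule.smul_mem _ _ (Submodule.mem_span_singleton_self w)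
    · rw [Submodule.span_singleton_le_iff_mem]
      obtain ⟨y, hy⟩ := exists_polar_eq_one Q hQ hw0
      refine ⟨(-(Q w)) • y, ?_⟩
      rw [LinearMap.sub_apply, rL_apply, Module.End.one_apply, sub_sub_cancel_left, polar_smul_right, hy, ← neg_smul]
      have : -((Q w)⁻¹ * -Q w • (1 : F)) = 1 := by
        simp only [smul_eq_mul]; field_simp
      rw [this, one_smul]
  rw [this, finrank_span_singleton hw0]

end abstract

variable {ι : Type} [Fintype ι] [DecidableEq ι] {F : Type*} [Field F]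
  (Q : QuadraticForm F (ι → F))

theorem mulVecLin_sub_one (M : Matrix ι ι F) : Matrix.mulVecLin (M - 1) = Matrix.mulVecLin M - 1 := by
  apply LinearMap.ext
  intro x
  simp

theorem mulVecLin_refl (v : ι → F) (hv : Q v ≠ 0) :
    Matrix.mulVecLin (((refl Q v hv : Cfsg.isometryGroup F ⇑Q) : GL ι F) : Matrix ι ι F) = rL Q v := by
  apply LinearMap.ext
  intro x
  rw [rL_apply]
  exact act_refl Q v hv x

/-- the isometries `g` with `g - 1` of rank one are exactly the reflections -/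
theorem rank_sub_one_eq_one_iff (hQ : (polarBilin Q).Nondegenerate) (g : Cfsg.isometryGroup F ⇑Q) :
    (((g : GL ι F) : Matrix ι ι F) - 1).rank = 1 ↔ ∃ (v : ι → F) (hv : Q v ≠ 0), g = refl Q v hv := by
  unfold Matrix.rank
  rw [mulVecLin_sub_one]
  constructor
  · intro h
    obtain ⟨w, hw, hgw⟩ := eq_rL_of_finrank_range_eq_one Q (nd_of_nondegenerate hQ) _ (fun x => Q_act g x) h
    refine ⟨w, hw, ?_⟩
    apply iso_ext
    intro x
    rw [act_refl, ← rL_apply, ← hgw]
    rfl
  · rintro ⟨v, hv, rfl⟩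
    rw [mulVecLin_refl]
    exact finrank_range_rL_sub_one Q (nd_of_nondegenerate hQ) v hv

theorem refl_ne_one (hQ : (polarBilin Q).Nondegenerate) (v : ι → F) (hv : Q v ≠ 0) : refl Q v hv ≠ 1 := by
  intro h
  have := (rank_sub_one_eq_one_iff Q hQ (refl Q v hv)).2 ⟨v, hv, rfl⟩
  rw [h] at this
  simp at this

theorem orderOf_refl (hQ : (polarBilin Q).Nondegenerate) (v : ι → F) (hv : Q v ≠ 0) : orderOf (refl Q v hv) = 2 :=
  orderOf_eq_prime (by rw [pow_two, refl_mul_self]) (refl_ne_one Q hQ v hv)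

theorem refl_neg (v : ι → F) (hv : Q v ≠ 0) (hv' : Q (-v) ≠ 0) : refl Q (-v) hv' = refl Q v hv := by
  have h : -v = (-1 : F) • v := by simp
  have hv'' : Q ((-1 : F) • v) ≠ 0 := by rw [← h]; exact hv'
  rw [refl_congr Q h hv' hv'']
  exact refl_smul Q v hv (-1) (by simp) hv''

/-- commuting reflections -/
theorem refl_mul_refl_sq_of_perp (u v : ι → F) (hu : Q u ≠ 0) (hv : Q v ≠ 0) (h : polar Q u v = 0) :
    (refl Q u hu * refl Q v hv) ^ 2 = 1 := by
  have hact : act Q (refl Q u hu) v = v := by rw [act_refl, h]; simp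
  have hc := conj_refl Q (refl Q u hu) v hv (by rw [hact]; exact hv)
  rw [refl_congr Q hact _ hv, refl_inv] at hc
  rw [pow_two, ← mul_assoc, hc, refl_mul_self]

/-- braid relation -/
theorem refl_mul_refl_cube (u v : ι → F) (hu : Q u ≠ 0) (hv : Q v ≠ 0)
    (h : ∃ a : F, a ≠ 0 ∧ act Q (refl Q v hv) u = a • act Q (refl Q u hu) v) :
    (refl Q u hu * refl Q v hv) ^ 3 = 1 := by
  obtain ⟨a, ha, h⟩ := h
  have h1 : Q (act Q (refl Q u hu) v) ≠ 0 := by rw [Q_act]; exact hv
  have h3 : Q (act Q (refl Q v hv) u) ≠ 0 := by rw [Q_act]; exact hu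
  have hc1 := conj_refl Q (refl Q u hu) v hv h1
  have hc2 := conj_refl Q (refl Q v hv) u hu h3
  rw [refl_inv] at hc1 hc2
  have h4 : Q (a • act Q (refl Q u hu) v) ≠ 0 := by rw [← h]; exact h3
  rw [refl_congr Q h h3 h4, refl_smul Q _ h1 a ha h4] at hc2
  calc (refl Q u hu * refl Q v hv) ^ 3
      = (refl Q u hu * refl Q v hv * refl Q u hu) * (refl Q v hv * refl Q u hu * refl Q v hv) := by
        rw [pow_succ, pow_two]; group
    _ = 1 := by rw [hc1, hc2, refl_mul_self]

/-- over the field with two elements the reflections form a class of 3-transpositions -/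
theorem isThreeTranspositionClass_two [Fintype F] [CharP F 2] (hF : Fintype.card F = 2)
    (hQ : (polarBilin Q).Nondegenerate) (hcard : 1 ≤ Fintype.card ι) (h4 : Fintype.card ι ≠ 4) :
    Cfsg.IsThreeTranspositionClass {g : Cfsg.isometryGroup F ⇑Q | (((g : GL ι F) : Matrix ι ι F) - 1).rank = 1} := by
  classical
  have h01 := two_elems (F := F) (by rw [Nat.card_eq_fintype_card]; exact hF)
  have hQ1 : ∀ v, Q v ≠ 0 → Q v = 1 := fun v hv => (h01 _).resolve_left hv
  refine ⟨⟨?_, ?_⟩, ?_, ?_⟩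
  · intro d hd
    obtain ⟨v, hv, rfl⟩ := (rank_sub_one_eq_one_iff Q hQ d).1 hd
    exact orderOf_refl Q hQ v hv
  · intro d hd e he
    obtain ⟨u, hu, rfl⟩ := (rank_sub_one_eq_one_iff Q hQ d).1 hd
    obtain ⟨v, hv, rfl⟩ := (rank_sub_one_eq_one_iff Q hQ e).1 he
    rcases h01 (polar Q u v) with h | h
    · exact Or.inl (refl_mul_refl_sq_of_perp Q u v hu hv h)
    · right
      apply refl_mul_refl_cube
      refine ⟨-1, by simp, ?_⟩
      rw [act_refl, act_refl, polar_comm Q v u, h, hQ1 u hu, hQ1 v hv]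
      simp
  · obtain ⟨v₀, hv₀⟩ := exists_nonsingular Q hQ hcard
    refine ⟨refl Q v₀ hv₀, (rank_sub_one_eq_one_iff Q hQ _).2 ⟨v₀, hv₀, rfl⟩, ?_⟩
    ext g
    show (((g : GL ι F) : Matrix ι ι F) - 1).rank = 1 ↔ IsConj (refl Q v₀ hv₀) g
    rw [rank_sub_one_eq_one_iff Q hQ, isConj_iff]
    constructor
    · rintro ⟨v, hv, rfl⟩
      obtain ⟨h, hh⟩ := exists_act_eq Q hQ v₀ v hv₀ ((hQ1 _ hv₀).trans (hQ1 _ hv).symm)
      refine ⟨h, ?_⟩
      rw [conj_refl Q h v₀ hv₀ (by rw [hh]; exact hv)]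
      exact refl_congr Q hh _ hv
    · rintro ⟨h, rfl⟩
      exact ⟨act Q h v₀, by rw [Q_act]; exact hv₀, conj_refl Q h v₀ hv₀ _⟩
  · rw [eq_top_iff]
    intro g _
    obtain ⟨vs, h1, rfl⟩ := cartan_dieudonne Q hQ (Or.inr h4) g
    apply Subgroup.list_prod_mem
    intro x hx
    obtain ⟨v, hv, rfl⟩ := List.mem_map.1 hx
    apply Subgroup.subset_closure
    rw [reflT_of Q v (h1 v hv)]
    exact (rank_sub_one_eq_one_iff Q hQ _).2 ⟨v, h1 v hv, rfl⟩

end Cfsg.Agent.Lib.Helper15
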