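import Mathlib
import Cfsg.Agent.Lib.Helper15.ThreeTr

set_option autoImplicit false

namespace Cfsg.Agent.Lib.Helper15

open Matrix QuadraticMap Module

variable {ι : Type} [Fintype ι] [DecidableEq ι] {F : Type*} [Field F] [Fintype F] [DecidableEq F]
  (Q : QuadraticForm F (ι → F))

/-- three reflections in vectors of a common plane multiply to a reflection -/
theorem three_refl (hQ : (polarBilin Q).Nondegenerate) (a w w' : ι → F)
    (ha : Q a ≠ 0) (hw : Q w ≠ 0) (hw' : Q w' ≠ 0) (hmem : a ∈ Submodule.span F {w, w'}) :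
    ∃ (b : ι → F) (hb : Q b ≠ 0), refl Q a ha * refl Q w hw * refl Q w' hw' = refl Q b hb := by
  classical
  set g := refl Q a ha * refl Q w hw * refl Q w' hw' with hg
  rw [← rank_sub_one_eq_one_iff Q hQ g]
  have hlist : g = ([a, w, w'].map (reflT Q)).prod := by
    simp [hg, reflT_of Q _ ha, reflT_of Q _ hw, reflT_of Q _ hw', mul_assoc]
  have hvs : ∀ v ∈ [a, w, w'], Q v ≠ 0 := by
    intro v hv
    simp only [List.mem_cons, List.not_mem_nil, or_false] at hv
    rcases hv with rfl | rfl | rfl <;> assumption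
  have hodd : ¬ Even (((g : GL ι F) : Matrix ι ι F) - 1).rank := by
    rw [hlist, even_rank_sub_one_iff Q hQ _ hvs]
    simp only [List.length_cons, List.length_nil]
    decide
  have hle : (((g : GL ι F) : Matrix ι ι F) - 1).rank ≤ 2 := by
    unfold Matrix.rank
    have hr : LinearMap.range (Matrix.mulVecLin (((g : GL ι F) : Matrix ι ι F) - 1)) ≤ Submodule.span F {w, w'} := by
      rintro _ ⟨x, rfl⟩
      have hwm : w ∈ Submodule.span F {w, w'} := Submodule.subset_span (by simp)
      have hwm' : w' ∈ Submodule.span F {w, w'} := Submodule.subset_span (by simp)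
      have e : Matrix.mulVecLin (((g : GL ι F) : Matrix ι ι F) - 1) x = act Q g x - x := by
        simp [act]
      rw [e, hg, act_mul, act_mul, act_refl, act_refl, act_refl]
      set k₁ := (Q w')⁻¹ * polar Q w' x
      set k₂ := (Q w)⁻¹ * polar Q w (x - k₁ • w')
      set k₃ := (Q a)⁻¹ * polar Q a (x - k₁ • w' - k₂ • w)
      have : x - k₁ • w' - k₂ • w - k₃ • a - x = -(k₁ • w') - k₂ • w - k₃ • a := by abel
      rw [this]
      exact Submodule.sub_mem _ (Submodule.sub_mem _ (Submodule.neg_mem _ (Submodule.smul_mem _ _ hwm'))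
        (Submodule.smul_mem _ _ hwm)) (Submodule.smul_mem _ _ hmem)
    have h3 : finrank F (Submodule.span F ({w, w'} : Set (ι → F))) ≤ 2 := by
      have := finrank_span_finset_le_card (R := F) ({w, w'} : Finset (ι → F))
      have h4 : (({w, w'} : Finset (ι → F)) : Set (ι → F)) = {w, w'} := by simp
      rw [h4] at this
      exact this.trans Finset.card_le_two
    exact (Submodule.finrank_mono hr).trans h3
  have : (((g : GL ι F) : Matrix ι ι F) - 1).rank = 0 ∨ (((g : GL ι F) : Matrix ι ι F) - 1).rank = 1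
      ∨ (((g : GL ι F) : Matrix ι ι F) - 1).rank = 2 := by omega
  rcases this with h | h | h
  · rw [h] at hodd; exact absurd (by decide) hodd
  · exact h
  · rw [h] at hodd; exact absurd (by decide) hodd

omit [Fintype ι] [DecidableEq ι] [DecidableEq F] in
/-- a non-degenerate binary subform represents everything -/
theorem exists_comb_eq (w w' : ι → F) (hdisc : 4 * Q w * Q w' - polar Q w w' ^ 2 ≠ 0) (c : F) :
    ∃ a ∈ Submodule.span F {w, w'}, Q a = c := by
  let L : F × F →ₗ[F] (ι → F) :=
    LinearMap.coprod (LinearMap.toSpanSingleton F (ι → F) w) (LinearMap.toSpanSingleton F (ι → F) w')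
  have hL : ∀ p : F × F, L p = p.1 • w + p.2 • w' := fun p => by
    simp [L, LinearMap.coprod_apply, LinearMap.toSpanSingleton_apply]
  have hnd : ND (Q.comp L) := by
    rintro ⟨x, y⟩ hxy
    have h1 := hxy (1, 0)
    have h3 := hxy (0, 1)
    have e1 : polar (Q.comp L) (x, y) (1, 0) = polar Q (L (x, y)) (L (1, 0)) := by
      unfold polar; simp only [QuadraticMap.comp_apply, map_add]
    have e3 : polar (Q.comp L) (x, y) (0, 1) = polar Q (L (x, y)) (L (0, 1)) := by
      unfold polar; simp only [QuadraticMap.comp_apply, map_add]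
    rw [e1, hL, hL] at h1
    rw [e3, hL, hL] at h3
    simp only [one_smul, zero_smul, add_zero, zero_add, polar_add_left, polar_smul_left, polar_self, smul_eq_mul,
      nsmul_eq_mul, Nat.cast_ofNat, polar_comm Q w' w] at h1 h3
    have hx : (4 * Q w * Q w' - polar Q w w' ^ 2) * x = 0 := by
      linear_combination (2 * Q w') * h1 - polar Q w w' * h3
    have hy : (4 * Q w * Q w' - polar Q w w' ^ 2) * y = 0 := by
      linear_combination (2 * Q w) * h3 - polar Q w w' * h1
    rw [(mul_eq_zero.1 hx).resolve_left hdisc, (mul_eq_zero.1 hy).resolve_left hdisc]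
    rfl
  obtain ⟨p, hp⟩ := exists_represent_nd (Q.comp L) hnd (by rw [finrank_prod, finrank_self]) c
  refine ⟨L p, ?_, hp⟩
  rw [hL]
  exact Submodule.add_mem _ (Submodule.smul_mem _ _ (Submodule.subset_span (by simp)))
    (Submodule.smul_mem _ _ (Submodule.subset_span (by simp)))

/-- reflections with norm in a given square class -/
def classSet (s : ℤˣ) : Set (Cfsg.isometryGroup F ⇑Q) :=
  {g | ∃ (v : ι → F) (hv : Q v ≠ 0), sqs (Q v) = s ∧ g = refl Q v hv}

theorem conj_mem_closure_classSet (s : ℤˣ) (g h : Cfsg.isometryGroup F ⇑Q)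
    (hh : h ∈ Subgroup.closure (classSet Q s)) : g * h * g⁻¹ ∈ Subgroup.closure (classSet Q s) := by
  induction hh using Subgroup.closure_induction with
  | mem x hx =>
    obtain ⟨v, hv, hs, rfl⟩ := hx
    apply Subgroup.subset_closure
    exact ⟨act Q g v, by rw [Q_act]; exact hv, by rw [Q_act]; exact hs, conj_refl Q g v hv _⟩
  | one => simp
  | mul x y _ _ hx hy =>
    have : g * (x * y) * g⁻¹ = (g * x * g⁻¹) * (g * y * g⁻¹) := by group
    rw [this]; exact Subgroup.mul_mem _ hx hy
  | inv x _ hx =>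
    have : g * x⁻¹ * g⁻¹ = (g * x * g⁻¹)⁻¹ := by group
    rw [this]; exact Subgroup.inv_mem _ hx

/-- product of two reflections of the other class, when their plane is non-degenerate -/
theorem pair_mem_of_disc (h2 : (2 : F) ≠ 0) (hcard : 2 ≤ Fintype.card ι) (hQ : (polarBilin Q).Nondegenerate)
    (s : ℤˣ) (w w' : ι → F) (hw : Q w ≠ 0) (hw' : Q w' ≠ 0) (hs : sqs (Q w) = sqs (Q w'))
    (hdisc : 4 * Q w * Q w' - polar Q w w' ^ 2 ≠ 0) :
    refl Q w hw * refl Q w' hw' ∈ Subgroup.closure (classSet Q s) := by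
  obtain ⟨c, hc0, hc⟩ : ∃ c : F, c ≠ 0 ∧ sqs c = s := by
    rcases Int.units_eq_one_or s with rfl | rfl
    · exact ⟨1, one_ne_zero, (sqs_eq_one_iff _).2 ⟨1, by simp⟩⟩
    · obtain ⟨ν, hν⟩ := exists_nonsquare' h2
      refine ⟨ν, ?_, if_neg hν⟩
      rintro rfl
      exact hν ⟨0, by simp⟩
  obtain ⟨a, ham, hQa⟩ := exists_comb_eq Q w w' hdisc c
  have ha : Q a ≠ 0 := by rw [hQa]; exact hc0
  obtain ⟨b, hb, hab⟩ := three_refl Q hQ a w w' ha hw hw' ham
  have hsp := congrArg (spin Q h2 hcard hQ) hab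
  rw [map_mul, map_mul, spin_refl, spin_refl, spin_refl, spin_refl] at hsp
  have hsb : sqs (Q b) = s := by
    have := congrArg Prod.snd hsp
    simp only [Prod.snd_mul] at this
    rw [← this, hs, mul_assoc, Int.units_mul_self, mul_one, hQa, hc]
  have : refl Q w hw * refl Q w' hw' = refl Q a ha * refl Q b hb := by
    rw [← hab, ← mul_assoc, ← mul_assoc, refl_mul_self, one_mul]
  rw [this]
  exact Subgroup.mul_mem _ (Subgroup.subset_closure ⟨a, ha, by rw [hQa, hc], rfl⟩)
    (Subgroup.subset_closure ⟨b, hb, hsb, rfl⟩)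

theorem exists_sqs_eq (h2 : (2 : F) ≠ 0) (s : ℤˣ) : ∃ c : F, c ≠ 0 ∧ sqs c = s := by
  rcases Int.units_eq_one_or s with rfl | rfl
  · exact ⟨1, one_ne_zero, (sqs_eq_one_iff _).2 ⟨1, by simp⟩⟩
  · obtain ⟨ν, hν⟩ := exists_nonsquare' h2
    refine ⟨ν, ?_, if_neg hν⟩
    rintro rfl
    exact hν ⟨0, by simp⟩

theorem sqs_mul_sq (h2 : (2 : F) ≠ 0) {c r : F} (hc : c ≠ 0) (hr : r ≠ 0) : sqs (c * r ^ 2) = sqs c := by
  rw [sqs_mul h2 hc (pow_ne_zero 2 hr), (sqs_eq_one_iff (r ^ 2)).2 ⟨r, by ring⟩, mul_one]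

/-- the product of two reflections in vectors of the same square class lies in the group generated by the
reflections of any one class -/
theorem pair_mem (h2 : (2 : F) ≠ 0) (hcard : 2 ≤ Fintype.card ι) (hQ : (polarBilin Q).Nondegenerate)
    (hyp : 3 < Fintype.card F ∨ 5 ≤ Fintype.card ι ∨ Fintype.card ι ≤ 2)
    (s : ℤˣ) (w w' : ι → F) (hw : Q w ≠ 0) (hw' : Q w' ≠ 0) (hs : sqs (Q w) = sqs (Q w')) :
    refl Q w hw * refl Q w' hw' ∈ Subgroup.closure (classSet Q s) := by
  by_cases hdisc : 4 * Q w * Q w' - polar Q w w' ^ 2 ≠ 0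
  · exact pair_mem_of_disc Q h2 hcard hQ s w w' hw hw' hs hdisc
  push Not at hdisc
  have hND := nd_of_nondegenerate hQ
  set γ := Q w with hγ
  have h2γ : 2 * γ ≠ 0 := mul_ne_zero h2 hw
  set α := polar Q w w' / (2 * γ) with hα
  set z₁ := w' - α • w with hz₁
  have hww : polar Q w w = 2 * γ := by rw [polar_self]; simp [hγ]
  have hwz₁ : polar Q w z₁ = 0 := by
    rw [hz₁, polar_sub_right, polar_smul_right, hww, hα, smul_eq_mul]
    field_simp
    ring
  have hQw' : Q w' = α ^ 2 * γ := by
    rw [hα]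
    field_simp
    linear_combination hdisc
  have hQz₁ : Q z₁ = 0 := by
    rw [hz₁, sub_eq_add_neg, ← neg_smul, QuadraticMap.map_add Q, QuadraticMap.map_smul, polar_smul_right,
      polar_comm Q w' w, ← hγ, hQw']
    have : polar Q w w' = α * (2 * γ) := by rw [hα]; field_simp
    rw [this]
    simp only [smul_eq_mul]
    ring
  have hα0 : α ≠ 0 := by
    intro h0
    rw [h0] at hQw'
    apply hw'
    rw [hQw']; ring
  have hw'eq : w' = α • w + z₁ := by rw [hz₁]; abel
  by_cases hz0 : z₁ = 0
  · have hw'2 : w' = α • w := by rw [hw'eq, hz0, add_zero]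
    have h3 : Q (α • w) ≠ 0 := by rw [← hw'2]; exact hw'
    rw [refl_congr Q hw'2 hw' h3, refl_smul Q w hw α hα0 h3, refl_mul_self]
    exact Subgroup.one_mem _
  -- a hyperbolic partner of `z₁` orthogonal to `w`
  obtain ⟨y₀, hy₀⟩ := exists_polar_eq_one Q hND hz0
  have hz₁w : polar Q z₁ w = 0 := by rw [polar_comm]; exact hwz₁
  set y := y₀ - (polar Q w y₀ / (2 * γ)) • w with hy
  have hz₁y : polar Q z₁ y = 1 := by
    rw [hy, polar_sub_right, polar_smul_right, hz₁w, hy₀]; simp
  have hwy : polar Q w y = 0 := by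
    rw [hy, polar_sub_right, polar_smul_right, hww, smul_eq_mul]
    field_simp
    ring
  have hz₁z₁ : polar Q z₁ z₁ = 0 := by rw [polar_self, hQz₁]; simp
  set z₂ := y - Q y • z₁ with hz₂
  have hQz₂ : Q z₂ = 0 := by
    rw [hz₂, sub_eq_add_neg, ← neg_smul, QuadraticMap.map_add Q, QuadraticMap.map_smul, hQz₁, polar_smul_right,
      polar_comm Q y z₁, hz₁y]
    simp
  have hz₁z₂ : polar Q z₁ z₂ = 1 := by
    rw [hz₂, polar_sub_right, polar_smul_right, hz₁z₁, hz₁y]; simp
  have hwz₂ : polar Q w z₂ = 0 := by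
    rw [hz₂, polar_sub_right, polar_smul_right, hwz₁, hwy]; simp
  have hz₂z₁ : polar Q z₂ z₁ = 1 := by rw [polar_comm]; exact hz₁z₂
  have hz₂w : polar Q z₂ w = 0 := by rw [polar_comm]; exact hwz₂
  have hz₂z₂ : polar Q z₂ z₂ = 0 := by rw [polar_self, hQz₂]; simp
  -- it suffices to find a suitable intermediate vector
  suffices hmid : ∃ w'' : ι → F, Q w'' ≠ 0 ∧ sqs (Q w'') = sqs γ ∧ 4 * γ * Q w'' - polar Q w w'' ^ 2 ≠ 0 ∧
      4 * Q w'' * Q w' - polar Q w'' w' ^ 2 ≠ 0 by
    obtain ⟨w'', h0, hs'', hd1, hd2⟩ := hmid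
    have e : refl Q w hw * refl Q w' hw' = (refl Q w hw * refl Q w'' h0) * (refl Q w'' h0 * refl Q w' hw') := by
      rw [mul_assoc, ← mul_assoc (refl Q w'' h0), refl_mul_self, one_mul]
    rw [e]
    exact Subgroup.mul_mem _ (pair_mem_of_disc Q h2 hcard hQ s w w'' hw h0 hs''.symm hd1)
      (pair_mem_of_disc Q h2 hcard hQ s w'' w' h0 hw' (hs''.trans hs) hd2)
  -- the map to `F³`
  let Φ : (ι → F) →ₗ[F] F × F × F := (polarBilin Q w).prod ((polarBilin Q z₁).prod (polarBilin Q z₂))
  have hΦ : ∀ x, Φ x = (polar Q w x, polar Q z₁ x, polar Q z₂ x) := fun x => rfl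
  have hΦs : Function.Surjective Φ := by
    rintro ⟨a, b, c⟩
    refine ⟨(a / (2 * γ)) • w + b • z₂ + c • z₁, ?_⟩
    rw [hΦ]
    simp only [polar_add_right, polar_smul_right, hww, hwz₁, hwz₂, hz₁w, hz₁z₁, hz₁z₂, hz₂w, hz₂z₁, hz₂z₂, smul_eq_mul]
    ext
    · simp; field_simp
    · simp
    · simp
  have hn3 : 3 ≤ Fintype.card ι := by
    have := LinearMap.finrank_le_finrank_of_surjective hΦs
    rwa [finrank_prod, finrank_prod, finrank_self, finrank_fintype_fun_eq_card] at this
  rcases hyp with hq | hn | hn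
  · -- large field
    obtain ⟨r, hr0, hr1, hr2⟩ : ∃ r : F, r ≠ 0 ∧ r ≠ 2 * α ∧ r ≠ -(2 * α) := by
      by_contra hcon
      push Not at hcon
      have : (Finset.univ : Finset F) ⊆ {0, 2 * α, -(2 * α)} := by
        intro r _
        by_cases h0 : r = 0
        · simp [h0]
        by_cases h1 : r = 2 * α
        · simp [h1]
        · simp [hcon r h0 h1]
      have := Finset.card_le_card this
      have h3 := Finset.card_le_three (a := (0 : F)) (b := 2 * α) (c := -(2 * α))
      rw [Finset.card_univ] at this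
      omega
    set t := γ * r ^ 2 with ht
    have ht0 : t ≠ 0 := mul_ne_zero hw (pow_ne_zero 2 hr0)
    have hQ'' : Q (z₁ + t • z₂) = t := by
      rw [QuadraticMap.map_add Q, QuadraticMap.map_smul, hQz₁, hQz₂, polar_smul_right, hz₁z₂]; simp
    refine ⟨z₁ + t • z₂, by rw [hQ'']; exact ht0, by rw [hQ'', ht]; exact sqs_mul_sq h2 hw hr0, ?_, ?_⟩
    · rw [hQ'', polar_add_right, polar_smul_right, hwz₁, hwz₂]
      simp only [smul_zero, add_zero, ne_eq, OfNat.ofNat_ne_zero, not_false_eq_true, zero_pow, sub_zero]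
      have h4 : (4 : F) ≠ 0 := by
        have : (4 : F) = 2 * 2 := by norm_num
        rw [this]; exact mul_ne_zero h2 h2
      exact mul_ne_zero (mul_ne_zero h4 hw) ht0
    · rw [hQ'', hw'eq, polar_add_left, polar_add_right, polar_add_right, polar_smul_left, polar_smul_right,
        polar_smul_left, polar_smul_right, hz₁w, hz₁z₁, hz₂w, hz₂z₁, ← hw'eq, hQw']
      simp only [smul_eq_mul, mul_zero, add_zero, zero_add, mul_one]
      have : 4 * t * (α ^ 2 * γ) - t ^ 2 = t * γ * ((2 * α - r) * (2 * α + r)) := by rw [ht]; ring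
      rw [this]
      refine mul_ne_zero (mul_ne_zero ht0 hw) (mul_ne_zero ?_ ?_)
      · intro h; apply hr1; linear_combination -h
      · intro h; apply hr2; linear_combination h
  · -- large dimension
    set W := LinearMap.ker Φ with hW
    have hmemW : ∀ x, x ∈ W ↔ polar Q w x = 0 ∧ polar Q z₁ x = 0 ∧ polar Q z₂ x = 0 := by
      intro x
      rw [hW, LinearMap.mem_ker, hΦ]
      simp [Prod.ext_iff]
    have hdec : ∀ x, x - (polar Q w x / (2 * γ)) • w - polar Q z₁ x • z₂ - polar Q z₂ x • z₁ ∈ W := by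
      intro x
      rw [hmemW]
      simp only [polar_sub_right, polar_smul_right, hww, hwz₁, hwz₂, hz₁w, hz₁z₁, hz₁z₂, hz₂w, hz₂z₁, hz₂z₂,
        smul_eq_mul]
      refine ⟨?_, ?_, ?_⟩
      · field_simp; ring
      · ring
      · ring
    have hnd : ND (Q.comp W.subtype) := by
      intro x hx
      apply Subtype.ext
      apply hND
      intro v
      have h1 := hx ⟨_, hdec v⟩
      rw [polar_comp_subtype] at h1
      have hxm := (hmemW x).1 x.2
      simp only [polar_sub_right, polar_smul_right] at h1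
      rw [polar_comm Q x w, polar_comm Q x z₁, polar_comm Q x z₂, hxm.1, hxm.2.1, hxm.2.2] at h1
      simpa using h1
    have hfr : 2 ≤ finrank F W := by
      have h1 := LinearMap.finrank_range_add_finrank_ker Φ
      rw [LinearMap.range_eq_top.2 hΦs, finrank_top, finrank_prod, finrank_prod, finrank_self,
        finrank_fintype_fun_eq_card, ← hW] at h1
      omega
    obtain ⟨x, hx⟩ := exists_represent_nd (Q.comp W.subtype) hnd hfr γ
    have hx' : Q (x : ι → F) = γ := hx
    have hxm := (hmemW x).1 x.2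
    have h4 : (4 : F) ≠ 0 := by
      have : (4 : F) = 2 * 2 := by norm_num
      rw [this]; exact mul_ne_zero h2 h2
    refine ⟨x, by rw [hx']; exact hw, by rw [hx'], ?_, ?_⟩
    · rw [hx', hxm.1]
      simp only [ne_eq, OfNat.ofNat_ne_zero, not_false_eq_true, zero_pow, sub_zero]
      exact mul_ne_zero (mul_ne_zero h4 hw) hw
    · have : polar Q (x : ι → F) w' = 0 := by
        rw [hw'eq, polar_add_right, polar_smul_right, polar_comm Q x w, polar_comm Q x z₁, hxm.1, hxm.2.1]; simp
      rw [hx', this]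
      simp only [ne_eq, OfNat.ofNat_ne_zero, not_false_eq_true, zero_pow, sub_zero]
      exact mul_ne_zero (mul_ne_zero h4 hw) hw'
  · omega

/-- the reflections of one square class generate a subgroup of index two -/
theorem index_closure_classSet (h2 : (2 : F) ≠ 0) (hcard : 2 ≤ Fintype.card ι) (hQ : (polarBilin Q).Nondegenerate)
    (hyp : 3 < Fintype.card F ∨ 5 ≤ Fintype.card ι ∨ Fintype.card ι ≤ 2) (s : ℤˣ) :
    (Subgroup.closure (classSet Q s)).index = 2 := by
  set H := Subgroup.closure (classSet Q s) with hH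
  obtain ⟨c, hc0, hc⟩ := exists_sqs_eq (F := F) h2 (-s)
  obtain ⟨w₀, hw₀⟩ := exists_represent_nd Q (nd_of_nondegenerate hQ)
    (by rw [finrank_fintype_fun_eq_card]; exact hcard) c
  have hw₀0 : Q w₀ ≠ 0 := by rw [hw₀]; exact hc0
  have hsw₀ : sqs (Q w₀) = -s := by rw [hw₀, hc]
  have hnorm : ∀ g h, h ∈ H → g * h * g⁻¹ ∈ H := fun g h hh => conj_mem_closure_classSet Q s g h hh
  have hspin : ∀ h ∈ H, spin Q h2 hcard hQ h = 1 ∨ spin Q h2 hcard hQ h = (-1, s) := by
    intro h hh
    induction hh using Subgroup.closure_induction with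
    | mem x hx =>
      obtain ⟨v, hv, hs, rfl⟩ := hx
      right
      rw [spin_refl, hs]
    | one => left; exact map_one _
    | mul x y _ _ hx hy =>
      rw [map_mul]
      rcases hx with hx | hx <;> rcases hy with hy | hy <;> rw [hx, hy]
      · left; simp
      · right; simp
      · right; simp
      · left
        apply Prod.ext
        · simp
        · exact Int.units_mul_self s
    | inv x _ hx =>
      rw [map_inv]
      rcases hx with hx | hx <;> rw [hx]
      · left; simp
      · right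
        apply Prod.ext
        · simp
        · exact Int.units_inv_eq_self s
  have hr₀ : refl Q w₀ hw₀0 ∉ H := by
    intro hmem
    rcases hspin _ hmem with h | h <;> rw [spin_refl, hsw₀] at h
    · have : (-1 : ℤˣ) = 1 := congrArg Prod.fst h
      exact absurd this (by decide)
    · have := congrArg Prod.snd h
      simp only at this
      rcases Int.units_eq_one_or s with rfl | rfl <;> exact absurd this (by decide)
  have hkey : ∀ vs : List (ι → F), (∀ v ∈ vs, Q v ≠ 0) →
      ((vs.map (reflT Q)).prod ∈ H ∨ (vs.map (reflT Q)).prod * refl Q w₀ hw₀0 ∈ H) := by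
    intro vs hvs
    induction vs with
    | nil => left; simp
    | cons v vs ih =>
      have hv := hvs v List.mem_cons_self
      rw [List.map_cons, List.prod_cons, reflT_of Q v hv]
      set g' := (vs.map (reflT Q)).prod with hg'
      have ih' := ih (fun w hw => hvs w (List.mem_cons_of_mem _ hw))
      by_cases hsv : sqs (Q v) = s
      · have hvH : refl Q v hv ∈ H := Subgroup.subset_closure ⟨v, hv, hsv, rfl⟩
        rcases ih' with h | h
        · left; exact Subgroup.mul_mem _ hvH h
        · right; rw [mul_assoc]; exact Subgroup.mul_mem _ hvH h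
      · have hsv' : sqs (Q v) = -s := by
          rcases Int.units_eq_one_or (sqs (Q v)) with h | h <;> rcases Int.units_eq_one_or s with h' | h' <;>
            simp_all
        have hp : refl Q v hv * refl Q w₀ hw₀0 ∈ H :=
          pair_mem Q h2 hcard hQ hyp s v w₀ hv hw₀0 (hsv'.trans hsw₀.symm)
        rcases ih' with h | h
        · right
          have e : refl Q v hv * g' * refl Q w₀ hw₀0
              = (refl Q v hv * refl Q w₀ hw₀0) * (refl Q w₀ hw₀0 * g' * (refl Q w₀ hw₀0)⁻¹) := by
            rw [refl_inv]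
            simp only [mul_assoc]
            rw [← mul_assoc (refl Q w₀ hw₀0) (refl Q w₀ hw₀0), refl_mul_self, one_mul]
          rw [e]
          exact Subgroup.mul_mem _ hp (hnorm _ _ h)
        · left
          have e : refl Q v hv * g'
              = (refl Q v hv * refl Q w₀ hw₀0) * (refl Q w₀ hw₀0 * (g' * refl Q w₀ hw₀0) * (refl Q w₀ hw₀0)⁻¹) := by
            rw [refl_inv]
            simp only [mul_assoc]
            rw [refl_mul_self, mul_one, ← mul_assoc (refl Q w₀ hw₀0) (refl Q w₀ hw₀0), refl_mul_self, one_mul]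
          rw [e]
          exact Subgroup.mul_mem _ hp (hnorm _ _ h)
  rw [Subgroup.index_eq_two_iff]
  refine ⟨refl Q w₀ hw₀0, fun b => ?_⟩
  obtain ⟨vs, hvs, rfl⟩ := cartan_dieudonne Q hQ (Or.inl (card_ne_two h2)) b
  rcases hkey vs hvs with h | h
  · refine Or.inr ⟨h, fun h' => hr₀ ?_⟩
    have := Subgroup.mul_mem _ (Subgroup.inv_mem _ h) h'
    rwa [inv_mul_cancel_left] at this
  · refine Or.inl ⟨h, fun h' => hr₀ ?_⟩
    have := Subgroup.mul_mem _ (Subgroup.inv_mem _ h') h
    rwa [inv_mul_cancel_left] at this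

end Cfsg.Agent.Lib.Helper15
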