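import Mathlib
import Cfsg.Agent.Lib.Helper15.GeoBridge

set_option autoImplicit false

namespace Cfsg.Agent.Lib.Helper15

open Matrix QuadraticMap Module

variable {ι : Type} [Fintype ι] [DecidableEq ι] {F : Type*} [Field F]

theorem mul_self_eq_one_of_card_le_three [Fintype F] (hq : Fintype.card F ≤ 3) (a : F) (ha : a ≠ 0) : a * a = 1 := by
  have h1 := FiniteField.pow_card_sub_one_eq_one a ha
  have h2 : 1 < Fintype.card F := Fintype.one_lt_card
  obtain h | h : Fintype.card F = 2 ∨ Fintype.card F = 3 := by omega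
  · rw [h] at h1
    simp at h1
    rw [h1, one_mul]
  · rw [h] at h1
    rw [← pow_two]; exact h1

/-- over a field with at most three elements the stabiliser in `Ω` of a hyperbolic plane is not maximal -/
theorem plane_not_maximal [Fintype F] (Q : QuadraticForm F (ι → F)) (hQ : (polarBilin Q).Nondegenerate)
    (hn : 5 ≤ Fintype.card ι) (hq : Fintype.card F ≤ 3) (W : Submodule F (ι → F)) (hdim : finrank F W = 2)
    (hW : Cfsg.Geo.IsNondegenerateOn (polar Q) W) (hWp : Cfsg.Geo.IsPlusTypeOn Q W) :
    ∃ K : Subgroup (GL ι F), Cfsg.Geo.subspaceStabilizer W ⊓ Cfsg.Geo.omegaGL Q < K ∧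
      K < Cfsg.Geo.omegaGL Q := by
  obtain ⟨U, hUW, hU, hUd⟩ := hWp
  obtain ⟨e, heU, he0⟩ : ∃ e ∈ U, e ≠ 0 := by
    apply Submodule.exists_mem_ne_zero_of_ne_bot
    intro h
    rw [h, finrank_bot] at hUd
    omega
  have heW := hUW heU
  have hQe : Q e = 0 := hU e heU
  obtain ⟨-, f₀, hf₀W, hf₀⟩ := hW e heW he0
  obtain ⟨f₁, hf₁W, hf₁⟩ : ∃ f₁ ∈ W, polar Q e f₁ = 1 :=
    ⟨(polar Q e f₀)⁻¹ • f₀, W.smul_mem _ hf₀W, by rw [polar_smul_right, smul_eq_mul, inv_mul_cancel₀ hf₀]⟩
  obtain ⟨f, hfW, hQf, hef⟩ : ∃ f ∈ W, Q f = 0 ∧ polar Q e f = 1 := by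
    refine ⟨f₁ - Q f₁ • e, W.sub_mem hf₁W (W.smul_mem _ heW), ?_, ?_⟩
    · rw [sub_eq_add_neg, ← neg_smul, QuadraticMap.map_add Q, QuadraticMap.map_smul, hQe, polar_smul_right,
        polar_comm Q f₁ e, hf₁]
      simp
    · rw [polar_sub_right, polar_smul_right, polar_self, hQe, hf₁]; simp
  have hfe : polar Q f e = 1 := by rw [polar_comm]; exact hef
  have hee : polar Q e e = 0 := by rw [polar_self, hQe, smul_zero]
  have hff : polar Q f f = 0 := by rw [polar_self, hQf, smul_zero]
  have hli : LinearIndependent F ![e, f] := by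
    rw [LinearIndependent.pair_iff]
    intro s t hst
    have h1 := congrArg (fun z => polar Q z f) hst
    have h2 := congrArg (fun z => polar Q z e) hst
    simp only [polar_add_left, polar_smul_left, hef, hff, hee, hfe, smul_eq_mul, mul_one, mul_zero, add_zero,
      zero_add, polar_zero_left] at h1 h2
    exact ⟨h1, h2⟩
  have hspan : Submodule.span F {e, f} = W := by
    apply Submodule.eq_of_le_of_finrank_eq
    · rw [Submodule.span_le]
      intro z hz
      rcases hz with rfl | rfl
      · exact heW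
      · exact hfW
    · have := finrank_span_eq_card hli
      have hr : Set.range ![e, f] = {e, f} := by
        ext z
        simp [eq_comm, or_comm]
      rw [hr, Fintype.card_fin] at this
      rw [hdim, this]
  -- a singular vector orthogonal to the plane
  obtain ⟨u, hu0, hQu, hue, huf⟩ : ∃ u, u ≠ 0 ∧ Q u = 0 ∧ polar Q u e = 0 ∧ polar Q u f = 0 := by
    have h1 := finrank_pairPerp Q e f hQe hQf hef
    rw [finrank_fintype_fun_eq_card] at h1
    obtain ⟨z, hz0, hz⟩ := exists_isotropic (Q.comp (pairPerp Q e f).subtype) (by omega)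
    have hz' := (mem_pairPerp Q e f z).1 z.2
    exact ⟨z, fun h => hz0 (Subtype.ext h), hz, by rw [polar_comm]; exact hz'.1, by rw [polar_comm]; exact hz'.2⟩
  have huW : u ∉ W := by
    intro h
    rw [← hspan, Submodule.mem_span_pair] at h
    obtain ⟨s, t, rfl⟩ := h
    simp only [polar_add_left, polar_smul_left, hef, hff, hee, hfe, smul_eq_mul, mul_one, mul_zero, add_zero,
      zero_add] at hue huf
    rw [hue, huf] at hu0
    simp at hu0
  have hQa : Q (e + f) = 1 := by rw [QuadraticMap.map_add Q, hQe, hQf, hef]; ring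
  refine ⟨Cfsg.Geo.subspaceStabilizer (Submodule.span F {e + f}) ⊓ Cfsg.Geo.omegaGL Q, ?_, ?_⟩
  · rw [lt_iff_le_not_ge]
    constructor
    · intro g hg
      rw [Subgroup.mem_inf] at hg ⊢
      obtain ⟨hgW, hgO⟩ := hg
      refine ⟨?_, hgO⟩
      obtain ⟨h, hh, rfl⟩ := (mem_omegaGL _ _).1 hgO
      apply mem_subspaceStabilizer_of_forall
      intro w hw
      obtain ⟨c, rfl⟩ := Submodule.mem_span_singleton.1 hw
      rw [Matrix.mulVec_smul]
      apply Submodule.smul_mem
      have h1 : act Q h (e + f) ∈ W := ((mem_subspaceStabilizer W _).1 hgW _).1 (W.add_mem heW hfW)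
      have h2 : Q (act Q h (e + f)) = 1 := by rw [Q_act, hQa]
      show act Q h (e + f) ∈ _
      rw [← hspan, Submodule.mem_span_pair] at h1
      obtain ⟨s, t, hst⟩ := h1
      rw [← hst] at h2 ⊢
      rw [Q_comb, hQe, hQf, hef] at h2
      have hs : s ≠ 0 := by rintro rfl; simp at h2
      have hss := mul_self_eq_one_of_card_le_three hq s hs
      have hts : t = s := by
        have : s * (s * t) = s * 1 := by rw [← h2]; ring
        rw [← mul_assoc, hss] at this
        simpa using this
      rw [hts, ← smul_add]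
      exact Submodule.smul_mem _ _ (Submodule.mem_span_singleton_self _)
    · intro hle
      have huv : polar Q u (e - f) = 0 := by rw [polar_sub_right, hue, huf, sub_zero]
      have hmem : ((eich Q u (e - f) hQu huv : Cfsg.isometryGroup F ⇑Q) : GL ι F) ∈
          Cfsg.Geo.subspaceStabilizer (Submodule.span F {e + f}) ⊓ Cfsg.Geo.omegaGL Q := by
        refine ⟨?_, (mem_omegaGL _ _).2 ⟨_, eich_mem_Omega Q hQ hn u _ hQu huv, rfl⟩⟩
        apply mem_subspaceStabilizer_of_forall
        intro w hw
        obtain ⟨c, rfl⟩ := Submodule.mem_span_singleton.1 hw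
        rw [Matrix.mulVec_smul]
        apply Submodule.smul_mem
        have : act Q (eich Q u (e - f) hQu huv) (e + f) = e + f := by
          rw [act_eich, polar_add_right, hue, huf, polar_sub_left, polar_add_right, polar_add_right, hee, hef, hfe,
            hff]
          simp
        show act Q (eich Q u (e - f) hQu huv) (e + f) ∈ _
        rw [this]
        exact Submodule.mem_span_singleton_self _
      have h1 : act Q (eich Q u (e - f) hQu huv) e ∈ W := ((mem_subspaceStabilizer W _).1 (hle hmem).1 e).1 heW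
      rw [act_eich, hue, polar_sub_left, hee, hfe] at h1
      simp only [zero_smul, add_zero, mul_zero, zero_sub, neg_smul, one_smul, sub_neg_eq_add] at h1
      apply huW
      have := W.sub_mem h1 heW
      rwa [add_sub_cancel_left] at this
  · rw [lt_iff_le_not_ge]
    refine ⟨inf_le_right, ?_⟩
    intro hle
    have h1 : act Q (eich Q u e hQu hue) (e + f) ∈ Submodule.span F {e + f} :=
      ((mem_subspaceStabilizer _ _).1 (hle ((mem_omegaGL _ _).2
        ⟨_, eich_mem_Omega Q hQ hn u e hQu hue, rfl⟩)).1 (e + f)).1 (Submodule.mem_span_singleton_self _)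
    rw [act_eich, polar_add_right, hue, huf, polar_add_right, hee, hef, hQe] at h1
    simp only [add_zero, zero_smul, zero_add, mul_zero, one_smul] at h1
    apply huW
    have h2 : e + f ∈ W := W.add_mem heW hfW
    have h3 : e + f - u ∈ W := (Submodule.span_singleton_le_iff_mem _ _).2 h2 h1
    have := W.sub_mem h2 h3
    rwa [sub_sub_cancel] at this

end Cfsg.Agent.Lib.Helper15
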