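import Mathlib
import Cfsg.Agent.Lib.Helper15.F3Tensor
import Cfsg.Agent.Lib.Helper15.Gram

/-!
Pure tensors for the tensor decompositions of `Cfsg.Geo`.
-/

set_option autoImplicit false

namespace Cfsg.Agent.Lib.Helper15

open Matrix QuadraticMap Module
open scoped Kronecker

variable {ι : Type} [Fintype ι] [DecidableEq ι] {F : Type*} [Field F] {n₁ n₂ : ℕ}

/-- pure tensors in coordinates -/
def pt (u : Fin n₁ → F) (w : Fin n₂ → F) : Fin n₁ × Fin n₂ → F := fun p => u p.1 * w p.2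

theorem kron_mulVec_pt (a : Matrix (Fin n₁) (Fin n₁) F) (b : Matrix (Fin n₂) (Fin n₂) F) (u : Fin n₁ → F)
    (w : Fin n₂ → F) : (a ⊗ₖ b) *ᵥ pt u w = pt (a *ᵥ u) (b *ᵥ w) := by
  funext p
  simp only [pt, Matrix.mulVec, dotProduct, Matrix.kroneckerMap_apply, Fintype.sum_prod_type]
  rw [Finset.sum_mul_sum]
  apply Finset.sum_congr rfl
  intro i _
  apply Finset.sum_congr rfl
  intro j _
  ring

theorem pt_dotProduct (u u' : Fin n₁ → F) (w w' : Fin n₂ → F) :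
    pt u w ⬝ᵥ pt u' w' = (u ⬝ᵥ u') * (w ⬝ᵥ w') := by
  simp only [pt, dotProduct, Fintype.sum_prod_type]
  rw [Finset.sum_mul_sum]
  apply Finset.sum_congr rfl
  intro i _
  apply Finset.sum_congr rfl
  intro j _
  ring

theorem formOfGram_id {κ : Type} [Fintype κ] (G : Matrix κ κ F) (x y : κ → F) :
    Cfsg.Geo.formOfGram id G x y = x ⬝ᵥ (G *ᵥ y) := by
  simp only [Cfsg.Geo.formOfGram, dotProduct, Matrix.mulVec, id, Finset.mul_sum, mul_assoc]

theorem gram_expand {κ : Type} [Fintype κ] [DecidableEq κ] (f : (κ → F) → (κ → F) → F)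
    (hf : Cfsg.Geo.IsBilinearForm f) (u v : κ → F) : u ⬝ᵥ (Cfsg.Geo.gramMatrix f *ᵥ v) = f u v := by
  let B : LinearMap.BilinForm F (κ → F) := LinearMap.mk₂ F f hf.add_left
    (fun c x v => by simpa using hf.smul_left c x v) hf.add_right
    (fun c x v => by simpa using hf.smul_right c x v)
  have h1 : LinearMap.BilinForm.toMatrix' B = Cfsg.Geo.gramMatrix f := by
    ext i j
    rw [LinearMap.BilinForm.toMatrix'_apply]
    rfl
  rw [← h1, ← Matrix.toBilin'_apply', Matrix.toBilin'_toMatrix']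
  rfl

/-- pure tensors -/
def tens (e : ι ≃ Fin n₁ × Fin n₂) (P : GL ι F) (u : Fin n₁ → F) (w : Fin n₂ → F) : ι → F :=
  (P : Matrix ι ι F) *ᵥ (pt u w ∘ e)

theorem tens_add_right (e : ι ≃ Fin n₁ × Fin n₂) (P : GL ι F) (u : Fin n₁ → F) (w w' : Fin n₂ → F) :
    tens e P u (w + w') = tens e P u w + tens e P u w' := by
  unfold tens
  rw [← Matrix.mulVec_add]
  congr 1
  funext i
  simp [pt, mul_add]

theorem tens_smul_right (e : ι ≃ Fin n₁ × Fin n₂) (P : GL ι F) (u : Fin n₁ → F) (c : F) (w : Fin n₂ → F) :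
    tens e P u (c • w) = c • tens e P u w := by
  unfold tens
  rw [← Matrix.mulVec_smul]
  congr 1
  funext i
  simp [pt]; ring

theorem tens_add_left (e : ι ≃ Fin n₁ × Fin n₂) (P : GL ι F) (u u' : Fin n₁ → F) (w : Fin n₂ → F) :
    tens e P (u + u') w = tens e P u w + tens e P u' w := by
  unfold tens
  rw [← Matrix.mulVec_add]
  congr 1
  funext i
  simp [pt, add_mul]

theorem tens_smul_left (e : ι ≃ Fin n₁ × Fin n₂) (P : GL ι F) (c : F) (u : Fin n₁ → F) (w : Fin n₂ → F) :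
    tens e P (c • u) w = c • tens e P u w := by
  unfold tens
  rw [← Matrix.mulVec_smul]
  congr 1
  funext i
  simp [pt]; ring

/-- `w ↦ u ⊗ w` -/
def tensR (e : ι ≃ Fin n₁ × Fin n₂) (P : GL ι F) (u : Fin n₁ → F) : (Fin n₂ → F) →ₗ[F] (ι → F) where
  toFun w := tens e P u w
  map_add' := tens_add_right e P u
  map_smul' := tens_smul_right e P u

/-- `u ↦ u ⊗ w` -/
def tensL (e : ι ≃ Fin n₁ × Fin n₂) (P : GL ι F) (w : Fin n₂ → F) : (Fin n₁ → F) →ₗ[F] (ι → F) where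
  toFun u := tens e P u w
  map_add' := fun u u' => tens_add_left e P u u' w
  map_smul' := fun c u => tens_smul_left e P c u w

theorem tensor_act (e : ι ≃ Fin n₁ × Fin n₂) (P : GL ι F) (g : GL ι F)
    (hg : g ∈ Cfsg.Geo.tensorProductSubgroup n₁ n₂ e P) :
    ∃ (a : GL (Fin n₁) F) (b : GL (Fin n₂) F), ∀ u w, (g : Matrix ι ι F) *ᵥ tens e P u w
      = tens e P ((a : Matrix (Fin n₁) (Fin n₁) F) *ᵥ u) ((b : Matrix (Fin n₂) (Fin n₂) F) *ᵥ w) := by
  obtain ⟨_, ⟨k, ⟨a, b, hk⟩, rfl⟩, rfl⟩ := hg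
  refine ⟨a, b, fun u w => ?_⟩
  unfold tens
  have h1 : (((MulAut.conj P).toMonoidHom ((Cfsg.Geo.glReindex e.symm).toMonoidHom k) : GL ι F) : Matrix ι ι F)
      = (P : Matrix ι ι F) * (k : Matrix _ _ F).submatrix e e * ((P⁻¹ : GL ι F) : Matrix ι ι F) := by
    rfl
  rw [h1, Matrix.mulVec_mulVec, mul_assoc, ← Units.val_mul, inv_mul_cancel, Units.val_one, mul_one,
    ← Matrix.mulVec_mulVec, Matrix.submatrix_mulVec_equiv, hk]
  congr 2
  rw [← kron_mulVec_pt]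
  congr 1
  funext p
  simp

theorem tensor_form {f : (ι → F) → (ι → F) → F} {f₁ : (Fin n₁ → F) → (Fin n₁ → F) → F}
    {f₂ : (Fin n₂ → F) → (Fin n₂ → F) → F} {e : ι ≃ Fin n₁ × Fin n₂} {P : GL ι F}
    (hT : Cfsg.Geo.IsTensorFormStructure id f f₁ f₂ e P) (hf₁ : Cfsg.Geo.IsBilinearForm f₁)
    (hf₂ : Cfsg.Geo.IsBilinearForm f₂) :
    ∃ c : F, c ≠ 0 ∧ ∀ u w u' w', f (tens e P u w) (tens e P u' w') = c * (f₁ u u' * f₂ w w') := by
  obtain ⟨c, hc, h⟩ := hT
  refine ⟨c, hc, fun u w u' w' => ?_⟩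
  unfold tens
  rw [h, formOfGram_id, kron_mulVec_pt, pt_dotProduct, gram_expand f₁ hf₁, gram_expand f₂ hf₂]

end Cfsg.Agent.Lib.Helper15
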