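import Mathlib

set_option autoImplicit false

open Polynomial DirectSum Matrix

namespace Cfsg.Agent.Lib.Helper15

variable {F : Type*} [Field F]

/-- Frobenius functional on `F[X]/(f)`. -/
theorem exists_frob (f : F[X]) (hf : f ≠ 0) :
    ∃ l : F[X] →ₗ[F] F, (∀ g, l (f * g) = 0) ∧ ∀ g, (∀ h, l (g * h) = 0) → f ∣ g := by
  set f' : F[X] := f * C (f.leadingCoeff)⁻¹ with hf'
  have hmon : f'.Monic := monic_mul_leadingCoeff_inv hf
  have hlc : f.leadingCoeff ≠ 0 := leadingCoeff_ne_zero.2 hf
  have hff' : f = f' * C f.leadingCoeff := by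
    rw [hf', mul_assoc, ← C_mul, inv_mul_cancel₀ hlc, C_1, mul_one]
  have hdvd : ∀ g, f' ∣ g → f ∣ g := by
    intro g hg
    have : f ∣ f' := Dvd.intro _ rfl
    exact this.trans hg
  set d := f'.natDegree with hd
  refine ⟨(lcoeff F (d - 1)) ∘ₗ (modByMonicHom f'), ?_, ?_⟩
  · intro g
    have : (f * g) %ₘ f' = 0 := by
      rw [modByMonic_eq_zero_iff_dvd hmon, hff', mul_assoc]
      exact Dvd.intro _ rfl
    simp [this]
  · intro g hg
    apply hdvd
    rw [← modByMonic_eq_zero_iff_dvd hmon]
    by_contra hr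
    set r := g %ₘ f' with hrdef
    have hdeg : r.natDegree < d := by
      have h1 : r.degree < f'.degree := degree_modByMonic_lt g hmon
      exact natDegree_lt_natDegree hr h1
    have h2 := hg (X ^ (d - 1 - r.natDegree))
    have h3 : (g * X ^ (d - 1 - r.natDegree)) %ₘ f' = r * X ^ (d - 1 - r.natDegree) := by
      have h4 : g = r + f' * (g /ₘ f') := (modByMonic_add_div g f').symm
      have h5 : g * X ^ (d - 1 - r.natDegree) = r * X ^ (d - 1 - r.natDegree) + f' * ((g /ₘ f') * X ^ (d - 1 - r.natDegree)) := by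
        conv_lhs => rw [h4]
        ring
      rw [h5, add_modByMonic]
      have h6 : (f' * ((g /ₘ f') * X ^ (d - 1 - r.natDegree))) %ₘ f' = 0 := by
        rw [modByMonic_eq_zero_iff_dvd hmon]; exact Dvd.intro _ rfl
      rw [h6, add_zero, modByMonic_eq_self_iff hmon]
      rw [degree_eq_natDegree hmon.ne_zero, degree_mul, degree_X_pow, degree_eq_natDegree hr]
      norm_cast
      omega
    simp only [LinearMap.comp_apply, modByMonicHom_apply, h3, lcoeff_apply] at h2
    obtain ⟨k, hk⟩ : ∃ k, d - 1 = r.natDegree + k := ⟨d - 1 - r.natDegree, by omega⟩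
    rw [hk, Nat.add_sub_cancel_left, coeff_mul_X_pow] at h2
    exact hr (leadingCoeff_eq_zero.1 h2)



theorem exists_frob_quot (f : F[X]) (hf : f ≠ 0) :
    ∃ l : (F[X] ⧸ (Submodule.span F[X] {f})) →ₗ[F] F, ∀ a, (∀ b, l (a * b) = 0) → a = 0 := by
  obtain ⟨l, h1, h2⟩ := exists_frob f hf
  set I : Submodule F[X] F[X] := Submodule.span F[X] {f} with hI
  have hle : I.restrictScalars F ≤ LinearMap.ker l := by
    intro x hx
    have hx' : x ∈ I := hx
    rw [hI, Submodule.mem_span_singleton] at hx'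
    obtain ⟨c, rfl⟩ := hx'
    rw [LinearMap.mem_ker, smul_eq_mul, mul_comm]
    exact h1 c
  refine ⟨((I.restrictScalars F).liftQ l hle) ∘ₗ (Submodule.Quotient.restrictScalarsEquiv F I).symm.toLinearMap, ?_⟩
  intro a ha
  obtain ⟨g, rfl⟩ := Submodule.Quotient.mk_surjective _ a
  rw [Submodule.Quotient.mk_eq_zero, hI, Submodule.mem_span_singleton]
  have : f ∣ g := by
    apply h2
    intro h
    have := ha (Submodule.Quotient.mk h)
    exact this
  obtain ⟨c, rfl⟩ := this
  exact ⟨c, mul_comm _ _⟩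



theorem exists_selfadjoint_form {V : Type*} [AddCommGroup V] [Module F V] [FiniteDimensional F V]
    (T : Module.End F V) :
    ∃ B : LinearMap.BilinForm F V, B.SeparatingLeft ∧ ∀ x y, B (T x) y = B x (T y) := by
  classical
  have htors : Module.IsTorsion F[X] (Module.AEval' T) := Module.AEval.isTorsion_of_finiteDimensional F V T
  obtain ⟨ι, _, p, hp, e, ⟨φ⟩⟩ := Module.equiv_directSum_of_isTorsion htors
  have hne : ∀ i, p i ^ e i ≠ 0 := fun i => pow_ne_zero _ (hp i).ne_zero
  choose l hl using fun i => exists_frob_quot (p i ^ e i) (hne i)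
  let ψ : V ≃ₗ[F] ⨁ i, F[X] ⧸ (Submodule.span F[X] {p i ^ e i}) :=
    (Module.AEval'.of T).trans (φ.restrictScalars F)
  let π : ∀ i, V →ₗ[F] F[X] ⧸ (Submodule.span F[X] {p i ^ e i}) :=
    fun i => (DirectSum.component F ι _ i) ∘ₗ ψ.toLinearMap
  let B : LinearMap.BilinForm F V :=
    ∑ i, ((LinearMap.mul F (F[X] ⧸ (Submodule.span F[X] {p i ^ e i}))).compr₂ (l i)).compl₁₂ (π i) (π i)
  have hB : ∀ x y, B x y = ∑ i, l i (π i x * π i y) := by
    intro x y
    simp [B, LinearMap.sum_apply]
  have hπT : ∀ i x, π i (T x) = (X : F[X]) • π i x := by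
    intro i x
    have h1 : ψ (T x) = (X : F[X]) • ψ x := by
      show φ (Module.AEval'.of T (T x)) = (X : F[X]) • φ (Module.AEval'.of T x)
      rw [← Module.AEval'.X_smul_of, map_smul]
    show (ψ (T x)) i = (X : F[X]) • (ψ x) i
    rw [h1]
    rfl
  refine ⟨B, ?_, ?_⟩
  · intro x hx
    have h0 : ψ x = 0 := by
      ext i
      apply hl i
      intro b
      have h2 := hx (ψ.symm (DirectSum.of _ i b))
      rw [hB] at h2
      rw [Finset.sum_eq_single i] at h2
      · have h3 : π i (ψ.symm (DirectSum.of _ i b)) = b := by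
          show (ψ (ψ.symm (DirectSum.of _ i b))) i = b
          rw [LinearEquiv.apply_symm_apply, DirectSum.of_eq_same]
        rw [h3] at h2
        exact h2
      · intro j _ hj
        have h3 : π j (ψ.symm (DirectSum.of _ i b)) = 0 := by
          show (ψ (ψ.symm (DirectSum.of _ i b))) j = 0
          rw [LinearEquiv.apply_symm_apply, DirectSum.of_eq_of_ne _ _ _ hj]
        rw [h3, mul_zero, map_zero]
      · intro h; exact absurd (Finset.mem_univ i) h
    exact ψ.map_eq_zero_iff.1 h0
  · intro x y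
    rw [hB, hB]
    apply Finset.sum_congr rfl
    intro i _
    rw [hπT, hπT, smul_mul_assoc, mul_smul_comm]



theorem isConj_transpose {n : Type*} [Fintype n] [DecidableEq n] (A : Matrix n n F) : IsConj A A.transpose := by
  obtain ⟨B, hB1, hB2⟩ := exists_selfadjoint_form (Matrix.toLin' A)
  set P := LinearMap.BilinForm.toMatrix' B with hP
  have hdet : P.det ≠ 0 := by
    rw [← Matrix.separatingLeft_iff_det_ne_zero, hP, LinearMap.BilinForm.separatingLeft_toMatrix'_iff]
    exact hB1
  have hunit : IsUnit P := by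
    rw [Matrix.isUnit_iff_isUnit_det]
    exact isUnit_iff_ne_zero.2 hdet
  have hcomm : P * A = Aᵀ * P := by
    have h1 : B.compLeft (Matrix.toLin' A) = B.compRight (Matrix.toLin' A) := by
      apply LinearMap.ext; intro x
      apply LinearMap.ext; intro y
      exact hB2 _ _
    have h2 := congrArg LinearMap.BilinForm.toMatrix' h1
    rw [LinearMap.BilinForm.toMatrix'_compLeft, LinearMap.BilinForm.toMatrix'_compRight, LinearMap.toMatrix'_toLin'] at h2
    exact h2.symm
  exact ⟨hunit.unit, hcomm⟩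


end Cfsg.Agent.Lib.Helper15
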